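import Cfsg.Agent.OrthGeo.Eichler
import Cfsg.Agent.OrthGeo.QuadOdd

/-!
Diagonal involutions in `Omega` of the standard odd dimensional form, and its trivial centre.
-/

set_option autoImplicit false

namespace CfsgLib.OrthGeo.OddInvolutions

open Cfsg.Geo Module
open scoped Matrix MatrixGroups commutatorElement

section General

variable {ι : Type} [Fintype ι] [DecidableEq ι] {F : Type*} [Field F]
variable {Q : (ι → F) → F} (hQ : IsNondegenerateQuadraticForm Q)
include hQ

theorem reflection_inv {a : ι → F} (ha : Q a ≠ 0) : (reflection hQ ha)⁻¹ = reflection hQ ha :=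
  Units.ext rfl

theorem conj_reflection_eq {h : GL ι F} (hh : h ∈ Cfsg.isometryGroup F Q) {a b : ι → F} (ha : Q a ≠ 0)
    (hb : Q b ≠ 0) (e : (h : Matrix ι ι F) *ᵥ a = b) :
    h * reflection hQ ha * h⁻¹ = reflection hQ hb := by
  refine gl_ext fun x => ?_
  obtain ⟨y, rfl⟩ : ∃ y, x = (h : Matrix ι ι F) *ᵥ y := ⟨_, (mulVec_inv_cancel h x).symm⟩
  rw [Units.val_mul, Units.val_mul, ← Matrix.mulVec_mulVec, ← Matrix.mulVec_mulVec, inv_mulVec_cancel,
    reflection_mulVec hQ, reflection_mulVec hQ, Matrix.mulVec_sub, Matrix.mulVec_smul, e, ← e, isometry_b hQ hh,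
    mem_isometryGroup.1 hh a]

/-- The product of the reflections at two vectors. -/
noncomputable def rr {a b : ι → F} (ha : Q a ≠ 0) (hb : Q b ≠ 0) : GL ι F :=
  reflection hQ ha * reflection hQ hb

theorem rr_mulVec {a b : ι → F} (ha : Q a ≠ 0) (hb : Q b ≠ 0) (hab : bform hQ a b = 0) (x : ι → F) :
    (rr hQ ha hb : Matrix ι ι F) *ᵥ x =
      x - ((Q a)⁻¹ * bform hQ a x) • a - ((Q b)⁻¹ * bform hQ b x) • b := by
  rw [rr, Units.val_mul, ← Matrix.mulVec_mulVec, reflection_mulVec hQ, reflection_mulVec hQ, map_sub, map_smul, hab,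
    smul_zero, sub_zero]
  abel

/-- For orthogonal vectors with equal values the product of reflections is a commutator. -/
theorem rr_mem_omegaGL (h2 : (2 : F) ≠ 0) {a b : ι → F} (ha : Q a ≠ 0) (hb : Q b ≠ 0)
    (hab : bform hQ a b = 0) (he : Q a = Q b) : rr hQ ha hb ∈ omegaGL Q := by
  have hd : Q (a - b) ≠ 0 := by
    rw [q_sub hQ, hab, ← he, sub_zero, ← two_mul]; exact mul_ne_zero h2 ha
  have hsa : (reflection hQ hd : Matrix ι ι F) *ᵥ a = b := by
    rw [reflection_mulVec hQ]
    have h1 : bform hQ (a - b) a = Q (a - b) := by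
      rw [map_sub, LinearMap.sub_apply, b_self hQ, b_symm hQ b a, hab, q_sub hQ, hab, ← he]; ring
    rw [h1, inv_mul_cancel₀ hd, one_smul, sub_sub_cancel]
  have key : rr hQ ha hb = ⁅reflection hQ ha, reflection hQ hd⁆ := by
    rw [commutatorElement_def, reflection_inv hQ ha, reflection_inv hQ hd, rr,
      ← conj_reflection_eq hQ (reflection_mem hQ hd) ha hb hsa, reflection_inv hQ hd]
    simp only [mul_assoc]
  rw [key]
  exact commutator_mem_omegaGL (reflection_mem hQ ha) (reflection_mem hQ hd)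

omit hQ in
theorem det_of_mem_omegaGL {g : GL ι F} (hg : g ∈ omegaGL Q) : (g : Matrix ι ι F).det = 1 := by
  obtain ⟨y, hy, rfl⟩ := hg
  have h := Abelianization.commutator_subset_ker
    (Matrix.GeneralLinearGroup.det.comp (Cfsg.isometryGroup F Q).subtype) hy
  rw [MonoidHom.mem_ker, Units.ext_iff] at h
  simpa using h

theorem mem_span_pair_of_commute (h2 : (2 : F) ≠ 0) {a b : ι → F} (ha : Q a ≠ 0) (hb : Q b ≠ 0)
    (hab : bform hQ a b = 0) {z : GL ι F} (hz : z * rr hQ ha hb = rr hQ ha hb * z) :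
    ∃ c d : F, (z : Matrix ι ι F) *ᵥ a = c • a + d • b := by
  have h := congrArg (fun g : GL ι F => (g : Matrix ι ι F) *ᵥ a) hz
  simp only [Units.val_mul, ← Matrix.mulVec_mulVec, rr_mulVec hQ ha hb hab] at h
  rw [b_self hQ, b_symm hQ b a, hab, mul_zero, zero_smul, sub_zero,
    show (Q a)⁻¹ * (2 * Q a) = 2 by field_simp] at h
  have hl : a - (2 : F) • a = -a := by rw [two_smul]; abel
  rw [hl, Matrix.mulVec_neg] at h
  set v := (z : Matrix ι ι F) *ᵥ a with hv
  refine ⟨2⁻¹ * ((Q a)⁻¹ * bform hQ a v), 2⁻¹ * ((Q b)⁻¹ * bform hQ b v), ?_⟩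
  rw [← smul_smul (2⁻¹ : F), ← smul_smul (2⁻¹ : F), ← smul_add]
  have h3 : (2 : F) • v = ((Q a)⁻¹ * bform hQ a v) • a + ((Q b)⁻¹ * bform hQ b v) • b := by
    rw [two_smul]
    linear_combination (norm := module) -h
  rw [← h3, smul_smul, inv_mul_cancel₀ h2, one_smul]

theorem line_of_commute (h2 : (2 : F) ≠ 0) {a b c : ι → F} (ha : Q a ≠ 0) (hb : Q b ≠ 0) (hc : Q c ≠ 0)
    (hab : bform hQ a b = 0) (hac : bform hQ a c = 0) (hbc : bform hQ b c = 0) {z : GL ι F}
    (hz : z * rr hQ ha hb = rr hQ ha hb * z) (hz' : z * rr hQ ha hc = rr hQ ha hc * z) :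
    ∃ s : F, (z : Matrix ι ι F) *ᵥ a = s • a := by
  obtain ⟨p, q, h⟩ := mem_span_pair_of_commute hQ h2 ha hb hab hz
  obtain ⟨p', q', h'⟩ := mem_span_pair_of_commute hQ h2 ha hc hac hz'
  have h0 := congrArg (bform hQ b) (h.symm.trans h')
  simp only [map_add, map_smul, b_symm hQ b a, hab, hbc, b_self hQ, smul_eq_mul, mul_zero, zero_add] at h0
  refine ⟨p, ?_⟩
  rw [h, (mul_eq_zero.mp h0).resolve_right (mul_ne_zero h2 hb), zero_smul, add_zero]

end General

section Odd

variable {m : ℕ} {F : Type*} [Field F] (h2 : (2 : F) ≠ 0)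

local notation "V" => (Unit ⊕ (Fin m ⊕ Fin m) → F)
local notation "M" => Matrix (Unit ⊕ (Fin m ⊕ Fin m)) (Unit ⊕ (Fin m ⊕ Fin m)) F
local notation "hQ" => isNondegenerateQuadraticForm_quadFormOdd (F := F) m h2

/-- The vector with the three blocks of coordinates. -/
def vec (c : F) (x y : Fin m → F) : V := Sum.elim (fun _ => c) (Sum.elim x y)

/-- An orthogonal anisotropic family. -/
def orthoVec : Fin (m + 1) ⊕ Fin m → V :=
  Sum.elim (Fin.cases (vec 1 0 0) (fun i => vec 0 (Pi.single i 1) (Pi.single i 1)))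
    (fun i => vec 0 (Pi.single i 1) (-(Pi.single i 1)))

/-- The value of the form on the family. -/
def orthoSign : Fin (m + 1) ⊕ Fin m → F := Sum.elim (fun _ => 1) (fun _ => -1)

theorem bform_vec (c c' : F) (x y x' y' : Fin m → F) :
    QuadraticMap.polar (Cfsg.quadFormOdd m F) (vec c x y) (vec c' x' y') =
      2 * (c * c') + ∑ i, (x i * y' i + y i * x' i) := by
  simp only [QuadraticMap.polar, Cfsg.quadFormOdd, vec, Pi.add_apply, Sum.elim_inl, Sum.elim_inr, add_mul, mul_add,
    Finset.sum_add_distrib, mul_comm (x' _)]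
  ring

theorem q_vec (c : F) (x y : Fin m → F) : Cfsg.quadFormOdd m F (vec c x y) = c ^ 2 + ∑ i, x i * y i := rfl

theorem q_orthoVec (a : Fin (m + 1) ⊕ Fin m) : Cfsg.quadFormOdd m F (orthoVec a) = orthoSign a := by
  rcases a with i | i
  · refine Fin.cases ?_ (fun i => ?_) i <;> simp [orthoVec, orthoSign, q_vec, Pi.single_apply]
  · simp [orthoVec, orthoSign, q_vec, Pi.single_apply]

theorem bform_orthoVec (a b : Fin (m + 1) ⊕ Fin m) :
    bform hQ (orthoVec a) (orthoVec b) = if a = b then 2 * orthoSign a else 0 := by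
  rw [bform_apply]
  rcases a with i | i <;> rcases b with j | j
  · refine Fin.cases ?_ (fun i => ?_) i <;> refine Fin.cases ?_ (fun j => ?_) j <;>
      simp [orthoVec, orthoSign, bform_vec, Pi.single_apply, Fin.succ_ne_zero, (Fin.succ_ne_zero _).symm,
        Finset.sum_add_distrib, eq_comm] <;> split_ifs <;> ring
  · refine Fin.cases ?_ (fun i => ?_) i <;>
      simp [orthoVec, bform_vec, Pi.single_apply, Finset.sum_add_distrib, eq_comm] <;> split_ifs <;> ring
  · refine Fin.cases ?_ (fun j => ?_) j <;>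
      simp [orthoVec, bform_vec, Pi.single_apply, Finset.sum_add_distrib, eq_comm] <;> split_ifs <;> ring
  · by_cases h : i = j
    · subst h; simp [orthoVec, orthoSign, bform_vec, Pi.single_apply, Finset.sum_add_distrib]; ring
    · simp [orthoVec, bform_vec, Pi.single_apply, Finset.sum_add_distrib, h, Ne.symm h]

include h2 in
theorem q_orthoVec_ne_zero (a : Fin (m + 1) ⊕ Fin m) : Cfsg.quadFormOdd m F (orthoVec a) ≠ 0 := by
  rw [q_orthoVec]; rcases a with i | i <;> simp [orthoSign]

/-- Position of the vector number `t` of the `k`-th pair. -/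
def pairIdx (k : Fin m) (t : Bool) : Fin (m + 1) ⊕ Fin m :=
  if h : k.val < (m + 1) / 2 then Sum.inl ⟨2 * k.val + t.toNat, by have := t.toNat_le; omega⟩
  else Sum.inr ⟨2 * (k.val - (m + 1) / 2) + t.toNat, by have := t.toNat_le; have := k.isLt; omega⟩

theorem pairIdx_injective {k k' : Fin m} {t t' : Bool} (h : pairIdx k t = pairIdx k' t') : k = k' ∧ t = t' := by
  have := t.toNat_le
  have := t'.toNat_le
  have key : k.val = k'.val ∧ t.toNat = t'.toNat := by
    unfold pairIdx at h
    split_ifs at h <;> simp only [Sum.inl.injEq, Sum.inr.injEq, Fin.ext_iff] at h <;> omega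
  refine ⟨Fin.ext key.1, ?_⟩
  revert key; cases t <;> cases t' <;> simp

theorem orthoSign_pairIdx (k : Fin m) (t t' : Bool) :
    orthoSign (F := F) (pairIdx k t) = orthoSign (pairIdx k t') := by
  unfold pairIdx; split_ifs <;> rfl

/-- The `k`-th pair product of reflections. -/
noncomputable def pairElem (k : Fin m) : GL (Unit ⊕ (Fin m ⊕ Fin m)) F :=
  rr hQ (q_orthoVec_ne_zero h2 (pairIdx k false)) (q_orthoVec_ne_zero h2 (pairIdx k true))

theorem pairElem_mulVec (k : Fin m) (x : V) : (pairElem h2 k : M) *ᵥ x =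
    x - ((Cfsg.quadFormOdd m F (orthoVec (pairIdx k false)))⁻¹ * bform hQ (orthoVec (pairIdx k false)) x) • orthoVec (pairIdx k false)
      - ((Cfsg.quadFormOdd m F (orthoVec (pairIdx k true)))⁻¹ * bform hQ (orthoVec (pairIdx k true)) x) • orthoVec (pairIdx k true) :=
  rr_mulVec hQ _ _ (by rw [bform_orthoVec h2, if_neg]; intro e; simpa using (pairIdx_injective e).2) x

theorem pairElem_mem (k : Fin m) : pairElem h2 k ∈ omegaGL (Cfsg.quadFormOdd m F) :=
  rr_mem_omegaGL hQ h2 _ _ (by rw [bform_orthoVec h2, if_neg]; intro e; simpa using (pairIdx_injective e).2)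
    (by rw [q_orthoVec, q_orthoVec]; exact orthoSign_pairIdx k _ _)

/-- Product of the first `k` pair elements. -/
noncomputable def diagInv : ℕ → GL (Unit ⊕ (Fin m ⊕ Fin m)) F
  | 0 => 1
  | k + 1 => if h : k < m then diagInv k * pairElem h2 ⟨k, h⟩ else diagInv k

theorem diagInv_mem (k : ℕ) : diagInv h2 k ∈ omegaGL (Cfsg.quadFormOdd m F) := by
  induction k with
  | zero => exact one_mem _
  | succ k ih =>
    simp only [diagInv]
    split_ifs with h
    · exact mul_mem ih (pairElem_mem h2 _)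
    · exact ih

/-- The span of the vectors in the first `k` pairs. -/
def negSpan (k : ℕ) : Submodule F V :=
  Submodule.span F (Set.range fun p : {j : Fin m // j.val < k} × Bool => orthoVec (pairIdx p.1.1 p.2))

theorem diagInv_fix (k : ℕ) (x : V)
    (hx : ∀ (j : Fin m) (t : Bool), j.val < k → bform hQ (orthoVec (pairIdx j t)) x = 0) :
    (diagInv (m := m) h2 k : M) *ᵥ x = x := by
  induction k with
  | zero => simp [diagInv]
  | succ k ih =>
    have ih' := ih fun j t hj => hx j t (by omega)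
    simp only [diagInv]
    split_ifs with h
    · rw [Units.val_mul, ← Matrix.mulVec_mulVec, pairElem_mulVec, hx ⟨k, h⟩ _ (by simp), hx ⟨k, h⟩ _ (by simp)]
      simp [ih']
    · exact ih'

theorem diagInv_neg (k : ℕ) (j : Fin m) (t : Bool) (hj : j.val < k) :
    (diagInv (m := m) h2 k : M) *ᵥ orthoVec (pairIdx j t) = -orthoVec (pairIdx j t) := by
  induction k with
  | zero => omega
  | succ k ih =>
    simp only [diagInv]
    have hk : k < m ∨ ¬ k < m := em _
    split_ifs with h
    · rw [Units.val_mul, ← Matrix.mulVec_mulVec, pairElem_mulVec, bform_orthoVec h2, bform_orthoVec h2]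
      by_cases hjk : j = ⟨k, h⟩
      · subst hjk
        have hfix : (diagInv (m := m) h2 k : M) *ᵥ orthoVec (pairIdx ⟨k, h⟩ t) = orthoVec (pairIdx ⟨k, h⟩ t) :=
          diagInv_fix h2 k _ fun j' t' hj' => by
            rw [bform_orthoVec h2, if_neg]
            intro e; have := (pairIdx_injective e).1; subst this; simp at hj'
        have hne : ∀ a, orthoSign (F := F) (m := m) a ≠ 0 := fun a => by rcases a with i | i <;> simp [orthoSign]
        cases t with
        | false =>
          rw [if_pos rfl, if_neg (fun e => by simpa using (pairIdx_injective e).2), q_orthoVec, mul_zero, zero_smul,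
            sub_zero, show (orthoSign (pairIdx (⟨k, h⟩ : Fin m) false))⁻¹ * (2 * orthoSign (F := F) (pairIdx ⟨k, h⟩ false)) = 2 by
              field_simp [hne], two_smul, sub_add_cancel_left, Matrix.mulVec_neg, hfix]
        | true =>
          rw [if_neg (fun e => by simpa using (pairIdx_injective e).2), if_pos rfl, q_orthoVec, q_orthoVec, mul_zero,
            zero_smul, sub_zero, show (orthoSign (pairIdx (⟨k, h⟩ : Fin m) true))⁻¹ * (2 * orthoSign (F := F) (pairIdx ⟨k, h⟩ true)) = 2 by
              field_simp [hne], two_smul, sub_add_cancel_left, Matrix.mulVec_neg, hfix]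
      · rw [if_neg (fun e => hjk (pairIdx_injective e).1.symm), if_neg (fun e => hjk (pairIdx_injective e).1.symm)]
        simp only [mul_zero, zero_smul, sub_zero]
        refine ih ?_
        have : j.val ≠ k := fun e => hjk (Fin.ext e)
        omega
    · refine ih ?_
      have := j.isLt
      omega

theorem diagInv_sub_mem (k : ℕ) (x : V) : (diagInv (m := m) h2 k : M) *ᵥ x - x ∈ negSpan k := by
  induction k generalizing x with
  | zero => simp [diagInv]
  | succ k ih =>
    have hle : negSpan (F := F) (m := m) k ≤ negSpan (k + 1) := by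
      refine Submodule.span_mono ?_
      rintro _ ⟨⟨⟨j, hj⟩, t⟩, rfl⟩
      exact ⟨⟨⟨j, by omega⟩, t⟩, rfl⟩
    simp only [diagInv]
    split_ifs with h
    · rw [Units.val_mul, ← Matrix.mulVec_mulVec]
      have h1 := hle (ih ((pairElem h2 ⟨k, h⟩ : M) *ᵥ x))
      have h3 : (pairElem h2 ⟨k, h⟩ : M) *ᵥ x - x ∈ negSpan (F := F) (k + 1) := by
        rw [pairElem_mulVec]
        rw [show ∀ p q : V, x - p - q - x = -(p + q) from fun p q => by abel]
        exact neg_mem (add_mem (Submodule.smul_mem _ _ (Submodule.subset_span ⟨(⟨⟨k, h⟩, by simp⟩, false), rfl⟩))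
          (Submodule.smul_mem _ _ (Submodule.subset_span ⟨(⟨⟨k, h⟩, by simp⟩, true), rfl⟩)))
      simpa using add_mem h1 h3
    · exact hle (ih x)

theorem diagInv_sq (k : ℕ) : diagInv h2 k * diagInv h2 k = (1 : GL (Unit ⊕ (Fin m ⊕ Fin m)) F) := by
  refine gl_ext fun x => ?_
  rw [Units.val_mul, ← Matrix.mulVec_mulVec, Units.val_one, Matrix.one_mulVec]
  have hd : ∀ d ∈ negSpan (F := F) (m := m) k, (diagInv (m := m) h2 k : M) *ᵥ d = -d := by
    intro d hd
    induction hd using Submodule.span_induction with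
    | mem y hy => obtain ⟨⟨⟨j, hj⟩, t⟩, rfl⟩ := hy; exact diagInv_neg h2 k j t hj
    | zero => simp
    | add a b _ _ ha hb => rw [Matrix.mulVec_add, ha, hb, neg_add]
    | smul c a _ ha => rw [Matrix.mulVec_smul, ha, smul_neg]
  obtain ⟨d, hdm, hdx⟩ : ∃ d ∈ negSpan (F := F) (m := m) k, (diagInv (m := m) h2 k : M) *ᵥ x = x + d :=
    ⟨_, diagInv_sub_mem h2 k x, by abel⟩
  rw [hdx, Matrix.mulVec_add, hdx, hd d hdm]
  abel

theorem rank_diagInv (k : ℕ) (hk : k ≤ m) : ((diagInv (m := m) h2 k : M) - 1).rank = 2 * k := by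
  classical
  have hrange : LinearMap.range ((diagInv (m := m) h2 k : M) - 1).mulVecLin = negSpan k := by
    apply le_antisymm
    · rintro _ ⟨x, rfl⟩
      rw [Matrix.mulVecLin_apply, Matrix.sub_mulVec, Matrix.one_mulVec]
      exact diagInv_sub_mem h2 k x
    · refine Submodule.span_le.mpr ?_
      rintro _ ⟨⟨⟨j, hj⟩, t⟩, rfl⟩
      refine ⟨(-2⁻¹ : F) • orthoVec (pairIdx j t), ?_⟩
      rw [Matrix.mulVecLin_apply, Matrix.mulVec_smul, Matrix.sub_mulVec, Matrix.one_mulVec, diagInv_neg h2 k j t hj]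
      match_scalars
      field_simp
      ring
  have hli : LinearIndependent F (fun p : {j : Fin m // j.val < k} × Bool => orthoVec (F := F) (pairIdx p.1.1 p.2)) := by
    rw [Fintype.linearIndependent_iff]
    intro g hg p
    have := congrArg (bform hQ (orthoVec (pairIdx p.1.1 p.2))) hg
    rw [map_sum, map_zero, Finset.sum_eq_single p] at this
    · rw [map_smul, bform_orthoVec h2, if_pos rfl, smul_eq_mul] at this
      refine (mul_eq_zero.mp this).resolve_right (mul_ne_zero h2 ?_)
      rcases pairIdx p.1.1 p.2 with i | i <;> simp [orthoSign]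
    · intro b _ hb
      rw [map_smul, bform_orthoVec h2, if_neg, smul_zero]
      intro e
      obtain ⟨e1, e2⟩ := pairIdx_injective e
      exact hb (Prod.ext (Subtype.ext e1.symm) e2.symm)
    · simp
  rw [Matrix.rank, hrange, negSpan, finrank_span_eq_card hli, Fintype.card_prod, Fintype.card_bool, mul_comm]
  congr 1
  exact (Fintype.card_congr (⟨fun j => ⟨j.1.val, j.2⟩, fun i => ⟨⟨i.val, by omega⟩, i.isLt⟩, fun _ => rfl, fun _ => rfl⟩ :
    {j : Fin m // j.val < k} ≃ Fin k)).trans (Fintype.card_fin k)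

include h2 in
/-- The centre of `Omega` is trivial in odd dimension at least seven. -/
theorem eq_one_of_forall_commute (hm : 3 ≤ m) {z : GL (Unit ⊕ (Fin m ⊕ Fin m)) F}
    (hzm : z ∈ omegaGL (Cfsg.quadFormOdd m F))
    (hz : ∀ g ∈ omegaGL (Cfsg.quadFormOdd m F), z * g = g * z) : z = 1 := by
  classical
  have hne := q_orthoVec_ne_zero (F := F) (m := m) h2
  have hnes : ∀ a, orthoSign (F := F) (m := m) a ≠ 0 := fun a => by rcases a with i | i <;> simp [orthoSign]
  have hrr : ∀ a b, a ≠ b → orthoSign (F := F) (m := m) a = orthoSign b →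
      z * rr hQ (hne a) (hne b) = rr hQ (hne a) (hne b) * z := fun a b hab he =>
    hz _ (rr_mem_omegaGL hQ h2 _ _ (by rw [bform_orthoVec h2, if_neg hab]) (by rw [q_orthoVec, q_orthoVec, he]))
  have hline : ∀ a, ∃ s : F, (z : M) *ᵥ orthoVec a = s • orthoVec a := by
    intro a
    obtain ⟨b, c, hab, hac, hbc, eb, ec⟩ : ∃ b c, a ≠ b ∧ a ≠ c ∧ b ≠ c ∧
        orthoSign (F := F) a = orthoSign b ∧ orthoSign (F := F) a = orthoSign c := by
      rcases a with i | i
      · obtain ⟨b, hb, c, hc, hbc⟩ : ∃ b, b ≠ i ∧ ∃ c, c ≠ i ∧ b ≠ c := by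
          have h1 : 1 < ((Finset.univ : Finset (Fin (m + 1))).erase i).card := by simp; omega
          obtain ⟨b, hb, c, hc, hbc⟩ := Finset.one_lt_card.mp h1
          exact ⟨b, Finset.ne_of_mem_erase hb, c, Finset.ne_of_mem_erase hc, hbc⟩
        exact ⟨.inl b, .inl c, by simp [hb.symm], by simp [hc.symm], by simp [hbc], rfl, rfl⟩
      · obtain ⟨b, hb, c, hc, hbc⟩ : ∃ b, b ≠ i ∧ ∃ c, c ≠ i ∧ b ≠ c := by
          have h1 : 1 < ((Finset.univ : Finset (Fin m)).erase i).card := by simp; omega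
          obtain ⟨b, hb, c, hc, hbc⟩ := Finset.one_lt_card.mp h1
          exact ⟨b, Finset.ne_of_mem_erase hb, c, Finset.ne_of_mem_erase hc, hbc⟩
        exact ⟨.inr b, .inr c, by simp [hb.symm], by simp [hc.symm], by simp [hbc], rfl, rfl⟩
    exact line_of_commute hQ h2 (hne a) (hne b) (hne c) (by rw [bform_orthoVec h2, if_neg hab])
      (by rw [bform_orthoVec h2, if_neg hac]) (by rw [bform_orthoVec h2, if_neg hbc]) (hrr a b hab eb) (hrr a c hac ec)
  choose s hs using hline
  have hlink : ∀ (i : Fin (m + 1)) (b : Fin m), s (.inr b) = s (.inl i) := by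
    intro i b
    obtain ⟨c, hcb, d, hdb, hcd⟩ : ∃ c, c ≠ b ∧ ∃ d, d ≠ b ∧ c ≠ d := by
      have h1 : 1 < ((Finset.univ : Finset (Fin m)).erase b).card := by simp; omega
      obtain ⟨c, hc, d, hd, hcd⟩ := Finset.one_lt_card.mp h1
      exact ⟨c, Finset.ne_of_mem_erase hc, d, Finset.ne_of_mem_erase hd, hcd⟩
    obtain ⟨x, hx⟩ : ∃ x, (orthoVec (.inl i) + orthoVec (.inr b) + orthoVec (.inr c) : V) = x := ⟨_, rfl⟩
    have hBu : bform hQ x (orthoVec (.inl i)) = 2 := by
      rw [← hx]; simp only [map_add, LinearMap.add_apply, bform_orthoVec h2]; simp [orthoSign]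
    have hxd : bform hQ x (orthoVec (.inr d)) = 0 := by
      rw [← hx]; simp only [map_add, LinearMap.add_apply, bform_orthoVec h2]; simp [hdb.symm, hcd]
    have hqx : Cfsg.quadFormOdd m F x = -1 := by
      rw [← hx, q_add hQ, q_add hQ, q_orthoVec, q_orthoVec, q_orthoVec, map_add, LinearMap.add_apply, bform_orthoVec h2,
        bform_orthoVec h2, bform_orthoVec h2]
      simp [orthoSign, hcb.symm]
    have hqx0 : Cfsg.quadFormOdd m F x ≠ 0 := by rw [hqx]; simp
    have hcomm := hz _ (rr_mem_omegaGL hQ h2 hqx0 (hne (.inr d)) hxd (by rw [hqx, q_orthoVec]; rfl))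
    have h := congrArg (fun g : GL (Unit ⊕ (Fin m ⊕ Fin m)) F => bform hQ (orthoVec (.inr b)) ((g : M) *ᵥ orthoVec (.inl i))) hcomm
    simp only [Units.val_mul, ← Matrix.mulVec_mulVec, rr_mulVec hQ hqx0 (hne (.inr d)) hxd, hs, Matrix.mulVec_sub,
      Matrix.mulVec_smul, hBu, hqx, map_sub, map_smul, bform_orthoVec h2, Sum.inr_ne_inl, if_false, mul_zero, zero_smul,
      smul_eq_mul] at h
    rw [← hx] at h
    simp only [Matrix.mulVec_add, hs, map_add, map_smul, bform_orthoVec h2, Sum.inr_ne_inl, Sum.inr.injEq, hcb.symm,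
      if_false, if_true, smul_eq_mul, orthoSign, Sum.elim_inr] at h
    have h8 : (4 : F) ≠ 0 := by rw [show (4 : F) = 2 * 2 by norm_num]; exact mul_ne_zero h2 h2
    have hfin : (4 : F) * (s (.inr b) - s (.inl i)) = 0 := by
      simp at h
      linear_combination h
    exact sub_eq_zero.mp ((mul_eq_zero.mp hfin).resolve_left h8)
  obtain ⟨σ, hσ⟩ : ∃ σ, ∀ a, s a = σ := by
    refine ⟨s (.inl 0), fun a => ?_⟩
    rcases a with i | b
    · rw [← hlink i ⟨0, by omega⟩, hlink 0 ⟨0, by omega⟩]
    · exact hlink 0 b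
  have hscal : ∀ v : V, (z : M) *ᵥ v = σ • v := by
    have hb : ∀ j, (z : M) *ᵥ Pi.single j 1 = σ • Pi.single j 1 := by
      intro j
      rcases j with ⟨⟩ | j | j
      · have e : (Pi.single (Sum.inl ()) 1 : V) = orthoVec (.inl 0) := by
          funext k; rcases k with ⟨⟩ | k | k <;> simp [orthoVec, vec]
        rw [e, hs, hσ]
      · have e : (Pi.single (Sum.inr (Sum.inl j)) 1 : V) = (2⁻¹ : F) • (orthoVec (.inl j.succ) + orthoVec (.inr j)) := by
          funext k; rcases k with ⟨⟩ | k | k <;> simp [orthoVec, vec, Pi.single_apply]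
          split_ifs <;> field_simp <;> ring
        rw [e, Matrix.mulVec_smul, Matrix.mulVec_add, hs, hs, hσ, hσ]; module
      · have e : (Pi.single (Sum.inr (Sum.inr j)) 1 : V) = (2⁻¹ : F) • (orthoVec (.inl j.succ) - orthoVec (.inr j)) := by
          funext k; rcases k with ⟨⟩ | k | k <;> simp [orthoVec, vec, Pi.single_apply]
          split_ifs <;> field_simp <;> ring
        rw [e, Matrix.mulVec_smul, Matrix.mulVec_sub, hs, hs, hσ, hσ]; module
    intro v
    have hM : (z : M) = σ • 1 := Matrix.ext_of_mulVec_single fun j => by rw [hb, Matrix.smul_mulVec, Matrix.one_mulVec]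
    rw [hM, Matrix.smul_mulVec, Matrix.one_mulVec]
  have hsq : σ ^ 2 = 1 := by
    have h := mem_isometryGroup.1 (omegaGL_le hzm) (orthoVec (.inl 0))
    rw [hscal, q_smul hQ, q_orthoVec] at h
    simpa [orthoSign] using h
  have hdet := det_of_mem_omegaGL hzm
  have hM : (z : M) = σ • 1 := Matrix.ext_of_mulVec_single fun j => by rw [hscal, Matrix.smul_mulVec, Matrix.one_mulVec]
  rw [hM, Matrix.det_smul, Matrix.det_one, mul_one] at hdet
  have hσ1 : σ = 1 := by
    rw [show Fintype.card (Unit ⊕ (Fin m ⊕ Fin m)) = 2 * m + 1 by simp; omega, pow_succ, pow_mul, hsq, one_pow, one_mul] at hdet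
    exact hdet
  exact Units.ext (by rw [hM, hσ1, one_smul, Units.val_one])

end Odd

end CfsgLib.OrthGeo.OddInvolutions
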