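import Cfsg.Agent.OrthGeo.TensorThree

/-! Over the field with two elements the stabiliser in Omega of a tensor decomposition with a two dimensional
symplectic factor normalises a field with four elements, so it is not maximal. -/

set_option autoImplicit false
set_option linter.unusedSectionVars false

namespace CfsgLib.OrthGeo

open Cfsg.Geo Module
open scoped Matrix MatrixGroups Kronecker

variable {ι : Type} [Fintype ι] [DecidableEq ι] {F : Type*} [Field F] [Fintype F]

lemma two_elements (hq : Fintype.card F = 2) (x : F) : x = 0 ∨ x = 1 := by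
  classical
  by_contra h
  push Not at h
  have h3 : ({x, 0, 1} : Finset F).card = 3 :=
    Finset.card_eq_three.2 ⟨x, 0, 1, h.1, h.2, zero_ne_one, rfl⟩
  have := Finset.card_le_univ ({x, 0, 1} : Finset F)
  omega

lemma two_eq_zero (hq : Fintype.card F = 2) : (2 : F) = 0 := by
  have := FiniteField.cast_card_eq_zero F
  rw [hq] at this
  exact_mod_cast this

variable {Q : (ι → F) → F}

theorem tensor_two_symplectic_not_maximal (hq : Fintype.card F = 2) (hQ : IsNondegenerateQuadraticForm Q)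
    (hn : 5 ≤ Fintype.card ι) {n₂ : ℕ} (h2 : 2 < n₂) (e : ι ≃ Fin 2 × Fin n₂) (P : GL ι F)
    (f₁ : (Fin 2 → F) → (Fin 2 → F) → F) (f₂ : (Fin n₂ → F) → (Fin n₂ → F) → F)
    (hf₁ : IsSymplecticForm f₁) (hf₂ : IsSymplecticForm f₂)
    (hT : IsTensorFormStructure id (QuadraticMap.polar Q) f₁ f₂ e P)
    (hpure : ∀ (x : Fin 2 → F) (y : Fin n₂ → F),
      Q ((P : Matrix ι ι F) *ᵥ ((fun a : Fin 2 × Fin n₂ => x a.1 * y a.2) ∘ e)) = 0) :
    ∃ K : Subgroup (GL ι F), tensorProductSubgroup 2 n₂ e P ⊓ omegaGL Q < K ∧ K < omegaGL Q := by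
  classical
  have h20 := two_eq_zero hq
  have h01 := two_elements hq
  obtain ⟨c, hc, hcT⟩ := hT
  have hc1 : c = 1 := (h01 c).resolve_left hc
  let e0 : Fin 2 → F := Pi.single 0 1
  let e1 : Fin 2 → F := Pi.single 1 1
  let k₂ := bilinOf hf₂.bilinear
  have h11 : f₁ e0 e1 = 1 := by
    refine (h01 _).resolve_left fun h => ?_
    obtain ⟨x, hx⟩ := (hf₁.nondegenerate e0 (by simp [e0])).2
    apply hx
    rw [pi_eq_sum_univ' x, ← bilinOf_apply hf₁.bilinear, map_sum, Fin.sum_univ_two, map_smul, map_smul,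
      bilinOf_apply, bilinOf_apply]
    show x 0 • f₁ e0 e0 + x 1 • f₁ e0 e1 = 0
    rw [hf₁.alternating, h, smul_zero, smul_zero, add_zero]
  have h10 : f₁ e1 e0 = 1 := by rw [hf₁.skew, h11]; linear_combination -h20
  let ten : (Fin 2 → F) → (Fin n₂ → F) → (ι → F) := fun x y => (P : Matrix ι ι F) *ᵥ (pureTen x y ∘ e)
  have hten : ∀ x y x' y', bform hQ (ten x y) (ten x' y') = f₁ x x' * f₂ y y' := fun x y x' y' => by
    rw [bform_apply]
    exact (hcT _ _).trans (by rw [formOfGram_pureTen hf₁.bilinear hf₂.bilinear, hc1, one_mul])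
  have hQten : ∀ x y, Q (ten x y) = 0 := fun x y => hpure x y
  have hteninj : ∀ x y x' y', ten x y = ten x' y' → ∀ i k, x i * y k = x' i * y' k := by
    intro x y x' y' h i k
    have h' := congrArg (fun z => ((P⁻¹ : GL ι F) : Matrix ι ι F) *ᵥ z) h
    simp only [ten, inv_mulVec_cancel] at h'
    have := congrFun h' (e.symm (i, k))
    simpa [pureTen] using this
  have hadd₁ : ∀ x x' y, ten (x + x') y = ten x y + ten x' y := fun x x' y => by
    simp only [ten]; rw [← Matrix.mulVec_add]; congr 1; funext p; simp [pureTen, add_mul]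
  -- the element of order three
  let ω : Matrix (Fin 2) (Fin 2) F := !![0, 1; 1, 1]
  let ω' : Matrix (Fin 2) (Fin 2) F := !![1, 1; 1, 0]
  have hωω : ω * ω = ω' := by
    ext i j
    fin_cases i <;> fin_cases j <;> simp [ω, ω', Matrix.mul_apply, Fin.sum_univ_two]
    linear_combination h20
  have hω1 : ω * ω' = 1 ∧ ω' * ω = 1 := by
    constructor <;> ext i j <;> fin_cases i <;> fin_cases j <;>
      simp [ω, ω', Matrix.mul_apply, Fin.sum_univ_two] <;> linear_combination h20
  let kω : GL (Fin 2 × Fin n₂) F := ⟨ω ⊗ₖ 1, ω' ⊗ₖ 1,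
    by rw [← Matrix.mul_kronecker_mul, hω1.1, one_mul, Matrix.one_kronecker_one],
    by rw [← Matrix.mul_kronecker_mul, hω1.2, one_mul, Matrix.one_kronecker_one]⟩
  let J : GL ι F := Units.map (CfsgLib.Aschbacher.tconj e P).toAlgHom.toRingHom.toMonoidHom kω
  have hJ : (J : Matrix ι ι F) = CfsgLib.Aschbacher.tconj e P (ω ⊗ₖ 1) := rfl
  have hgt : ∀ (M : Matrix (Fin 2) (Fin 2) F) (N : Matrix (Fin n₂) (Fin n₂) F) x y,
      CfsgLib.Aschbacher.tconj e P (M ⊗ₖ N) *ᵥ ten x y = ten (M *ᵥ x) (N *ᵥ y) := by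
    intro M N x y
    rw [CfsgLib.Aschbacher.tconj_apply]
    simp only [ten]
    rw [← Matrix.mulVec_mulVec, inv_mulVec_cancel, ← Matrix.mulVec_mulVec, ← kronecker_mulVec_pureTen]
    congr 1
    rw [Matrix.submatrix_mulVec_equiv, Function.comp_assoc, Equiv.self_comp_symm, Function.comp_id]
  have hωe : ω *ᵥ e0 = e1 ∧ ω *ᵥ e1 = e0 + e1 := by
    constructor <;> funext i <;> fin_cases i <;>
      simp [ω, e0, e1, Matrix.mulVec, dotProduct, Fin.sum_univ_two]
  have hJ0 : ∀ y, (J : Matrix ι ι F) *ᵥ ten e0 y = ten e1 y := fun y => by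
    rw [hJ, hgt, Matrix.one_mulVec, hωe.1]
  have hJ1 : ∀ y, (J : Matrix ι ι F) *ᵥ ten e1 y = ten e0 y + ten e1 y := fun y => by
    rw [hJ, hgt, Matrix.one_mulVec, hωe.2, hadd₁]
  have hJ2 : ((J * J : GL ι F) : Matrix ι ι F) = CfsgLib.Aschbacher.tconj e P (ω' ⊗ₖ 1) := by
    rw [Units.val_mul, hJ, ← map_mul, ← Matrix.mul_kronecker_mul, hωω, one_mul]
  have hJ3 : J * J * J = 1 := by
    refine Units.ext ?_
    rw [Units.val_mul, hJ2, hJ, ← map_mul, ← Matrix.mul_kronecker_mul, hω1.2, one_mul, Matrix.one_kronecker_one,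
      map_one, Units.val_one]
  set Z := Subgroup.zpowers J
  set K : Subgroup (GL ι F) := Subgroup.normalizer (Z : Set (GL ι F)) ⊓ omegaGL Q
  have hnorm : ∀ g : GL ι F, g * J = J * g ∨ g * J = J * J * g →
      g ∈ Subgroup.normalizer (Z : Set (GL ι F)) := by
    intro g hg
    rw [Subgroup.mem_normalizer_iff_map_conj_eq, MonoidHom.map_zpowers]
    show Subgroup.zpowers (g * J * g⁻¹) = Z
    rcases hg with h | h <;> rw [h, mul_inv_cancel_right]
    refine le_antisymm (Subgroup.zpowers_le.2 (mul_mem (Subgroup.mem_zpowers J) (Subgroup.mem_zpowers J)))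
      (Subgroup.zpowers_le.2 ?_)
    have : J = (J * J) * (J * J) := by
      calc J = (J * J * J) * J := by rw [hJ3, one_mul]
        _ = (J * J) * (J * J) := by group
    have hm := mul_mem (Subgroup.mem_zpowers (J * J)) (Subgroup.mem_zpowers (J * J))
    rwa [← this] at hm
  have hnorm' : ∀ g : GL ι F, g ∈ Subgroup.normalizer (Z : Set (GL ι F)) →
      g * J = g ∨ g * J = J * g ∨ g * J = J * J * g := by
    intro g hg
    have h := (Subgroup.mem_normalizer_iff.1 hg J).1 (Subgroup.mem_zpowers J)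
    obtain ⟨k, hk⟩ := Subgroup.mem_zpowers_iff.1 h
    have h3 : J ^ (3 : ℤ) = 1 := by rw [show (3 : ℤ) = ((3 : ℕ) : ℤ) from rfl, zpow_natCast, pow_three', hJ3]
    rw [← Int.mul_ediv_add_emod k 3, zpow_add, zpow_mul, h3, one_zpow, one_mul] at hk
    have hk' : g * J = J ^ (k % 3) * g := by rw [hk, inv_mul_cancel_right]
    rcases (show k % 3 = 0 ∨ k % 3 = 1 ∨ k % 3 = 2 by omega) with r | r | r <;> rw [r] at hk'
    · left; rwa [zpow_zero, one_mul] at hk'
    · right; left; rwa [zpow_one] at hk'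
    · right; right; rwa [zpow_two] at hk'
  -- the tensor stabiliser normalises the field
  have hle : tensorProductSubgroup 2 n₂ e P ⊓ omegaGL Q ≤ K := by
    rintro g ⟨hg, hgΩ⟩
    refine ⟨hnorm g ?_, hgΩ⟩
    obtain ⟨A, B, hAB⟩ := (CfsgLib.Aschbacher.mem_tensorProductSubgroup_iff e P g).1 hg
    set M := (A : Matrix (Fin 2) (Fin 2) F) * ω * ((A⁻¹ : GL (Fin 2) F) : Matrix (Fin 2) (Fin 2) F) with hM
    have htr : M 0 0 + M 1 1 = 1 := by
      have : M.trace = ω.trace := by
        rw [hM, Matrix.trace_mul_comm, ← mul_assoc, ← Units.val_mul, inv_mul_cancel, Units.val_one, one_mul]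
      simpa [Matrix.trace_fin_two, ω] using this
    have hdet : M 0 0 * M 1 1 - M 0 1 * M 1 0 = 1 := by
      have : M.det = ω.det := by
        rw [hM, Matrix.det_mul, Matrix.det_mul, mul_right_comm, ← Matrix.det_mul, ← Units.val_mul,
          mul_inv_cancel, Units.val_one, Matrix.det_one, one_mul]
      rw [Matrix.det_fin_two, Matrix.det_fin_two] at this
      rw [this]; simp [ω]; linear_combination -h20
    have hcases : M = ω ∨ M = ω' := by
      have h00 : M 0 0 * M 1 1 = 0 := by
        rcases h01 (M 0 0) with a | a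
        · rw [a, zero_mul]
        · rw [a, one_mul]; linear_combination htr - a
      have hbc : M 0 1 * M 1 0 = 1 := by linear_combination h00 - hdet - h20 + (M 0 1 * M 1 0) * 0
      have hb : M 0 1 = 1 := (h01 _).resolve_left (left_ne_zero_of_mul_eq_one hbc)
      have hc' : M 1 0 = 1 := (h01 _).resolve_left (right_ne_zero_of_mul_eq_one hbc)
      rcases mul_eq_zero.1 h00 with a | d
      · have d : M 1 1 = 1 := by linear_combination htr - a
        left; ext i j; fin_cases i <;> fin_cases j <;> simp [ω, a, hb, hc', d]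
      · have a : M 0 0 = 1 := by linear_combination htr - d
        right; ext i j; fin_cases i <;> fin_cases j <;> simp [ω', a, hb, hc', d]
    have hAω : (A : Matrix _ _ F) * ω = M * (A : Matrix _ _ F) := by
      rw [hM, mul_assoc, ← Units.val_mul, inv_mul_cancel, Units.val_one, mul_one]
    rcases hcases with h | h <;> rw [h] at hAω
    · refine Or.inl (Units.ext ?_)
      rw [Units.val_mul, Units.val_mul, hAB, hJ, ← map_mul, ← map_mul, ← Matrix.mul_kronecker_mul,
        ← Matrix.mul_kronecker_mul, hAω, mul_one, one_mul]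
    · refine Or.inr (Units.ext ?_)
      rw [Units.val_mul, Units.val_mul, hAB, hJ2, hJ, ← map_mul, ← map_mul, ← Matrix.mul_kronecker_mul,
        ← Matrix.mul_kronecker_mul, hAω, mul_one, one_mul]
  -- two orthogonal independent vectors of the second factor and a dual vector
  obtain ⟨u, hu⟩ : ∃ u : Fin n₂ → F, u ≠ 0 := ⟨Pi.single ⟨0, by omega⟩ 1, by simp⟩
  obtain ⟨u', hu'0, huu', hne⟩ : ∃ u', u' ≠ 0 ∧ f₂ u u' = 0 ∧ u' ≠ u := by
    obtain ⟨y, hy⟩ := (hf₂.nondegenerate u hu).2
    have := LinearMap.ker_ne_bot_of_finrank_lt (f := (k₂ u).prod (k₂ y))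
      (by rw [Module.finrank_prod, Module.finrank_self, Module.finrank_fin_fun]; omega)
    obtain ⟨w, hw, hw0⟩ := Submodule.exists_mem_ne_zero_of_ne_bot this
    simp only [LinearMap.mem_ker, LinearMap.prod_apply, Prod.ext_iff] at hw
    refine ⟨w, hw0, hw.1, fun h => hy ?_⟩
    have h' : f₂ y w = 0 := hw.2
    rw [h] at h'
    rw [hf₂.skew, h', neg_zero]
  obtain ⟨y, hy, hy'⟩ : ∃ y, f₂ u y = 1 ∧ f₂ u' y = 0 := by
    obtain ⟨a, ha⟩ : ∃ a, f₂ u a = 1 := by
      obtain ⟨a, ha⟩ := (hf₂.nondegenerate u hu).2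
      exact ⟨a, (h01 _).resolve_left ha⟩
    rcases h01 (f₂ u' a) with h | h
    · exact ⟨a, ha, h⟩
    obtain ⟨b, hb⟩ := (hf₂.nondegenerate (u - u') (sub_ne_zero.2 (Ne.symm hne))).2
    rw [show f₂ (u - u') b = f₂ u b - f₂ u' b from by
      rw [← bilinOf_apply hf₂.bilinear, map_sub]; rfl] at hb
    rcases h01 (f₂ u' b) with hb' | hb' <;> rcases h01 (f₂ u b) with hb'' | hb''
    · exact absurd (by rw [hb', hb'', sub_zero]) hb
    · exact ⟨b, hb'', hb'⟩
    · refine ⟨a + b, by rw [hf₂.bilinear.add_right, ha, hb'', add_zero], ?_⟩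
      rw [hf₂.bilinear.add_right, h, hb']; linear_combination h20
    · exact absurd (by rw [hb', hb'', sub_self]) hb
  have hf00 : f₁ e0 e0 = 0 := hf₁.alternating e0
  have hf11 : f₁ e1 e1 = 0 := hf₁.alternating e1
  have hu'u : f₂ u' u = 0 := by rw [hf₂.skew, huu', neg_zero]
  refine ⟨K, lt_of_le_not_ge hle ?_, lt_of_le_not_ge inf_le_right ?_⟩
  · -- an Eichler transformation commuting with the field
    intro hge
    set v := ten e0 u + ten e1 u' with hv
    set w := ten e1 u + ten (e0 + e1) u' with hw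
    have hJv : (J : Matrix ι ι F) *ᵥ v = w := by rw [hv, Matrix.mulVec_add, hJ0, hJ1, hw, hadd₁]
    have hQv : Q v = 0 := by
      rw [hv, q_add hQ, hQten, hQten, hten, huu', mul_zero, add_zero, add_zero]
    have hvw : bform hQ v w = 0 := by
      rw [hv, hw, hadd₁]
      simp only [map_add, LinearMap.add_apply, hten, hf00, hf11, h11, h10, huu', hu'u, hf₂.alternating]
      ring
    have hJw : (J : Matrix ι ι F) *ᵥ w = v + w := by
      rw [hw, hadd₁, Matrix.mulVec_add, Matrix.mulVec_add, hJ1, hJ1, hJ0, hv]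
      abel
    have hQw : Q w = 0 := by
      rw [hw, hadd₁, q_add hQ, q_add hQ, hQten, hQten, hQten]
      simp only [map_add, hten, hf11, h10, h11, hf00, huu', hu'u, hf₂.alternating]
      ring
    set g := eichler hQ hQv hvw
    have hgΩ : g ∈ omegaGL Q := eichler_mem_omega hQ hn hQv hvw
    have hgx : ∀ x, (g : Matrix ι ι F) *ᵥ x = x + bform hQ w x • v + bform hQ v x • w := by
      intro x
      rw [eichler_mulVec hQ, hQw, zero_mul, zero_smul, sub_zero, sub_eq_add_neg, ← neg_smul]
      congr 2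
      linear_combination (-bform hQ v x) * h20
    have hJiso : J ∈ Cfsg.isometryGroup F Q := by
      have hdecomp : ∀ x : ι → F, ∃ p r, x = ten e0 p + ten e1 r := by
        intro x
        obtain ⟨s, rfl⟩ : ∃ s, x = (P : Matrix ι ι F) *ᵥ (s ∘ e) :=
          ⟨(((P⁻¹ : GL ι F) : Matrix ι ι F) *ᵥ x) ∘ e.symm, by
            rw [Function.comp_assoc, Equiv.symm_comp_self, Function.comp_id, mulVec_inv_cancel]⟩
        refine ⟨fun k => s (0, k), fun k => s (1, k), ?_⟩
        simp only [ten]
        rw [← Matrix.mulVec_add]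
        congr 1
        funext i
        obtain ⟨⟨a, b⟩, hab⟩ : ∃ p, e i = p := ⟨_, rfl⟩
        simp only [Function.comp_apply, Pi.add_apply, pureTen, hab, e0, e1]
        fin_cases a <;> simp
      refine mem_isometryGroup.2 fun x => ?_
      obtain ⟨p, r, rfl⟩ := hdecomp x
      rw [Matrix.mulVec_add, hJ0, hJ1, q_add hQ, q_add hQ, q_add hQ, hQten, hQten, hQten, hQten]
      simp only [map_add, hten, hf11, hf00, h10, h11, hf₂.alternating]
      ring
    have hcomm : g * J = J * g := by
      refine gl_ext fun x => ?_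
      rw [Units.val_mul, Units.val_mul, ← Matrix.mulVec_mulVec, ← Matrix.mulVec_mulVec, hgx, hgx,
        Matrix.mulVec_add, Matrix.mulVec_add, Matrix.mulVec_smul, Matrix.mulVec_smul, hJv, hJw]
      have hj1 := isometry_b hQ hJiso v x
      have hj2 := isometry_b hQ hJiso w x
      rw [hJv] at hj1
      rw [hJw, map_add, LinearMap.add_apply] at hj2
      rw [show bform hQ v ((J : Matrix ι ι F) *ᵥ x) = bform hQ w x + bform hQ v x by
        linear_combination hj2 - hj1 - bform hQ v x * h20, hj1]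
      module
    obtain ⟨A, B, hAB⟩ := (CfsgLib.Aschbacher.mem_tensorProductSubgroup_iff e P g).1
      (hge ⟨hnorm g (Or.inl hcomm), hgΩ⟩).1
    have himg : ten ((A : Matrix _ _ F) *ᵥ e0) ((B : Matrix _ _ F) *ᵥ y) = ten e0 (y + u) + ten e1 u' := by
      rw [← hgt, ← hAB, hgx, hv, hw, hadd₁]
      simp only [map_add, LinearMap.add_apply, hten, hf00, h10, hy, hy', mul_zero, zero_mul, mul_one,
        add_zero, zero_add, one_smul, zero_smul]
      simp only [ten]
      rw [← Matrix.mulVec_add, ← Matrix.mulVec_add, ← Matrix.mulVec_add]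
      congr 1
      funext i; simp [pureTen]; ring
    set a := (A : Matrix (Fin 2) (Fin 2) F) *ᵥ e0
    set b := (B : Matrix (Fin n₂) (Fin n₂) F) *ᵥ y
    have h' := congrArg (fun z => ((P⁻¹ : GL ι F) : Matrix ι ι F) *ᵥ z) himg
    simp only [ten, Matrix.mulVec_add, inv_mulVec_cancel] at h'
    have hc0 : ∀ k, a 0 * b k = (y + u) k := fun k => by
      simpa [pureTen, e0, e1] using congrFun h' (e.symm (0, k))
    have hc1' : ∀ k, a 1 * b k = u' k := fun k => by
      simpa [pureTen, e0, e1] using congrFun h' (e.symm (1, k))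
    have ha1 : a 1 ≠ 0 := fun h0 => hu'0 (funext fun k => by rw [← hc1', h0, zero_mul]; rfl)
    have hdep : y + u = (a 0 * (a 1)⁻¹) • u' := funext fun k => by
      rw [Pi.smul_apply, smul_eq_mul, ← hc1', ← hc0, mul_assoc, inv_mul_cancel_left₀ ha1]
    have hcon : f₂ u (y + u) = 1 := by rw [hf₂.bilinear.add_right, hy, hf₂.alternating, add_zero]
    rw [hdep, hf₂.bilinear.smul_right, huu', mul_zero] at hcon
    exact zero_ne_one hcon
  · -- an Eichler transformation not normalising the field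
    intro hge
    have hb : bform hQ (ten e0 u) (ten e0 u') = 0 := by rw [hten, hf00, zero_mul]
    set g := eichler hQ (hQten e0 u) hb
    have hgΩ : g ∈ omegaGL Q := eichler_mem_omega hQ hn (hQten e0 u) hb
    have hg0 : ∀ r, (g : Matrix ι ι F) *ᵥ ten e0 r = ten e0 r := fun r => by
      rw [eichler_mulVec hQ, hten, hten, hf00, hQten]
      simp
    have hg1 : ∀ r, (g : Matrix ι ι F) *ᵥ ten e1 r
        = ten e1 r + (f₂ u' r • ten e0 u - f₂ u r • ten e0 u') := fun r => by
      rw [eichler_mulVec hQ, hten, hten, h11, hQten]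
      simp [add_sub_assoc]
    obtain ⟨r, hr⟩ := (hf₂.nondegenerate u' hu'0).2
    have hsep : ∀ p s p' s', ten e0 p + ten e1 s = ten e0 p' + ten e1 s' → p = p' ∧ s = s' := by
      intro p s p' s' h
      have h' := congrArg (fun z => ((P⁻¹ : GL ι F) : Matrix ι ι F) *ᵥ z) h
      simp only [ten, Matrix.mulVec_add, inv_mulVec_cancel] at h'
      exact ⟨funext fun k => by simpa [pureTen, e0, e1] using congrFun h' (e.symm (0, k)),
        funext fun k => by simpa [pureTen, e0, e1] using congrFun h' (e.symm (1, k))⟩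
    have hz : ∀ x, ten x 0 = 0 := fun x => by
      simp only [ten]
      rw [show (pureTen x (0 : Fin n₂ → F) ∘ e) = 0 from funext fun i => by simp [pureTen], Matrix.mulVec_zero]
    have hS : ∀ t, f₂ u' t • ten e0 u - f₂ u t • ten e0 u' = ten e0 (f₂ u' t • u - f₂ u t • u') := fun t => by
      simp only [ten]
      rw [← Matrix.mulVec_smul, ← Matrix.mulVec_smul, ← Matrix.mulVec_sub]
      congr 1
      funext i; simp [pureTen]; ring
    have hlhs : ∀ r, ((g * J : GL ι F) : Matrix ι ι F) *ᵥ ten e0 r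
        = ten e0 (f₂ u' r • u - f₂ u r • u') + ten e1 r := fun r => by
      rw [Units.val_mul, ← Matrix.mulVec_mulVec, hJ0, hg1, hS, add_comm]
    rcases hnorm' g (hge hgΩ).1 with h | h | h
    · have h1 := congrArg (fun G : GL ι F => (G : Matrix ι ι F) *ᵥ ten e0 u) h
      simp only [hlhs, hg0] at h1
      conv_rhs at h1 => rw [← add_zero (ten e0 u), ← hz e1]
      exact hu (hsep _ _ _ _ h1).2
    · have h1 := congrArg (fun G : GL ι F => (G : Matrix ι ι F) *ᵥ ten e0 r) h
      simp only [hlhs] at h1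
      rw [Units.val_mul, ← Matrix.mulVec_mulVec, hg0, hJ0] at h1
      conv_rhs at h1 => rw [← zero_add (ten e1 r), ← hz e0]
      have h2 := congrArg (fun p => f₂ p y) (hsep _ _ _ _ h1).1
      have hbil := hf₂.bilinear
      simp only [← bilinOf_apply hbil, map_sub, map_smul, LinearMap.sub_apply, LinearMap.smul_apply, map_zero,
        LinearMap.zero_apply] at h2
      simp only [bilinOf_apply, hy, hy', smul_eq_mul, mul_one, mul_zero, sub_zero] at h2
      exact hr h2
    · have h1 := congrArg (fun G : GL ι F => (G : Matrix ι ι F) *ᵥ ten e0 u) h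
      simp only [hlhs] at h1
      rw [Units.val_mul, ← Matrix.mulVec_mulVec, hg0, Units.val_mul, ← Matrix.mulVec_mulVec, hJ0, hJ1] at h1
      have h2 := (hsep _ _ _ _ h1).1
      rw [hu'u, hf₂.alternating, zero_smul, zero_smul, sub_zero] at h2
      exact hu h2.symm

end CfsgLib.OrthGeo
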