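import Cfsg.Agent.OrthGeo.DecompTwoRoot

/-! The stabiliser in Omega of an orthogonal decomposition into at least five planes is maximal, in every
characteristic, the small exceptions aside. -/

set_option autoImplicit false
set_option linter.unusedSectionVars false

namespace CfsgLib.OrthGeo

open Cfsg Cfsg.Geo Module CfsgLib.DecompProj
open scoped Matrix MatrixGroups

variable {ι : Type} [Fintype ι] [DecidableEq ι] {F : Type*} [Field F] [Fintype F]
variable {Q : (ι → F) → F} (hQ : IsNondegenerateQuadraticForm Q)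
include hQ

/-- The squared cosines of the lines of a plane with one line are too many for a proper subfield. -/
lemma exists_many_multipliers {U : Submodule F (ι → F)} (hU : ∀ x ∈ U, x ∈ perp hQ U → x = 0) (hF : Fat Q U)
    {y : ι → F} (hy : y ∈ U) (hyQ : Q y ≠ 0) :
    ∃ K : Finset F, (Fintype.card F < K.card ^ 2 ∨ (Fintype.card F).Prime) ∧
      ∀ r ∈ K, r = 0 ∨ ∃ x ∈ U, Q x ≠ 0 ∧ r = bform hQ x y ^ 2 / (Q x * Q y) := by
  classical
  by_cases hprime : (Fintype.card F).Prime
  · exact ⟨∅, Or.inr hprime, fun r hr => absurd hr (Finset.notMem_empty r)⟩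
  have hy0 : y ≠ 0 := fun h => hyQ (by rw [h, q_zero hQ])
  obtain ⟨u, hu, hind⟩ := exists_indep hQ hU hF hy0
  set b := bform hQ y u with hb
  set S := Finset.univ.filter fun s : F => Q (s • y + u) ≠ 0 with hS
  set κ : F → F := fun s => bform hQ (s • y + u) y ^ 2 / (Q (s • y + u) * Q y) with hκ
  refine ⟨insert 0 (S.image κ), Or.inl ?_, fun r hr => ?_⟩
  swap
  · rcases Finset.mem_insert.1 hr with h | h
    · exact Or.inl h
    obtain ⟨s, hs, rfl⟩ := Finset.mem_image.1 h
    simp only [hS, Finset.mem_filter, Finset.mem_univ, true_and] at hs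
    exact Or.inr ⟨s • y + u, U.add_mem (U.smul_mem _ hy) hu, hs, rfl⟩
  have hline : ∀ s : F, Q (s • y + u) = Q y * s ^ 2 + b * s + Q u := line_q hQ hU hF
  have hbl : ∀ s : F, bform hQ (s • y + u) y = 2 * Q y * s + b := fun s => by
    rw [map_add, map_smul, LinearMap.add_apply, LinearMap.smul_apply, b_self hQ, b_symm hQ u y, smul_eq_mul]; ring
  have hfib : ∀ c ∈ S.image κ, (S.filter fun s => κ s = c).card ≤ 2 := by
    intro c _
    refine le_trans (Finset.card_le_card (fun s hs => ?_))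
      (card_roots_le_two (a := 4 * Q y ^ 2 - c * Q y * Q y) (b := 4 * Q y * b - c * Q y * b)
        (c := b ^ 2 - c * Q y * Q u) ?_)
    · simp only [hS, Finset.mem_filter, Finset.mem_univ, true_and] at hs ⊢
      obtain ⟨hs, hsc⟩ := hs
      simp only [hκ] at hsc
      rw [div_eq_iff (mul_ne_zero hs hyQ), hbl, hline] at hsc
      linear_combination hsc
    · by_contra hcon
      push Not at hcon
      obtain ⟨h1, -, h3⟩ := hcon
      have hc : c = 4 := mul_right_cancel₀ (pow_ne_zero 2 hyQ) (by linear_combination -h1)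
      exact plane_disc_ne hQ hU hF hy hu hyQ hind (by rw [← hb]; linear_combination h3 + (Q y * Q u) * hc)
  have h1 := Finset.card_le_mul_card_image S 2 hfib
  have h2 : (Finset.univ.filter fun s : F => Q (s • y + u) = 0).card + S.card = Fintype.card F := by
    rw [hS, Finset.card_filter_add_card_filter_not, Finset.card_univ]
  obtain ⟨h3, h4⟩ := card_line_singular hQ hU hF hy hu hyQ hind
  rcases lt_or_ge (Fintype.card F) 8 with hq | hq
  · have hq7 : Fintype.card F ≠ 7 := fun h => hprime (h ▸ by norm_num)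
    rcases (hF.2.resolve_left (by omega)).1 with h | h | h
    · exact absurd (h ▸ Nat.prime_two) hprime
    · have h20 : (2 : F) = 0 := by
        have h4' : ((Fintype.card F : ℕ) : F) = 0 := Nat.cast_card_eq_zero F
        rw [h] at h4'
        exact (pow_eq_zero_iff (n := 2) two_ne_zero).1 (by push_cast at h4'; linear_combination h4')
      have h0 : (0 : F) ∉ S.image κ := fun hm => by
        obtain ⟨s, hs, hs0⟩ := Finset.mem_image.1 hm
        simp only [hS, Finset.mem_filter, Finset.mem_univ, true_and] at hs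
        simp only [hκ, div_eq_zero_iff, mul_eq_zero, hs, hyQ, or_self, or_false] at hs0
        refine plane_disc_ne hQ hU hF hy hu hyQ hind ?_
        rw [hbl, h20, zero_mul, zero_mul, zero_add] at hs0
        rw [← hb]
        linear_combination hs0 - 2 * (Q y * Q u) * h20
      rw [Finset.card_insert_of_notMem h0, h]
      have := h4 (by omega)
      have : 3 ≤ (S.image κ).card + 1 := by omega
      nlinarith
    · exact absurd (h ▸ Nat.prime_five) hprime
  · have hle : (S.image κ).card ≤ (insert 0 (S.image κ)).card := Finset.card_le_card (Finset.subset_insert _ _)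
    have h5 : Fintype.card F ≤ 2 * (insert 0 (S.image κ)).card + 2 := by omega
    by_contra hcon
    push Not at hcon
    nlinarith

variable {t k : ℕ} {D : Fin t → Submodule F (ι → F)} (hD : IsOrthogonalMDecomposition Q k D)
variable {M : Subgroup (GL ι F)} (hS : decompositionStabilizer D ⊓ omegaGL Q ≤ M)
variable (hn : 5 ≤ Fintype.card ι) (hMI : M ≤ Cfsg.isometryGroup F Q) (ht : 5 ≤ t) (hF : ∀ i, Fat Q (D i))
include hD hS hn hMI ht hF

/-- A root element into one member, with two empty slots, gives the whole member. -/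
lemma two_fill {d : ι → F} (hd : Q d = 0) {m o : Fin t} (hom : o ≠ m) (hdm : proj hD.decomp.decomp m d = 0)
    (hdo : proj hD.decomp.decomp o d = 0) {x₀ : ι → F} (hx₀ : x₀ ∈ D m) (hx₀0 : x₀ ≠ 0) (hE : EIn Q M d x₀) :
    ∀ x ∈ D m, EIn Q M d x := by
  classical
  have hU := member_radical_free hQ hD m
  have hb : ∀ x ∈ D m, bform hQ d x = 0 := fun x hx => by rw [b_symm hQ]; exact b_slot_zero hQ hD hx hdm
  have hzero : EIn Q M d 0 := ⟨1, M.one_mem, by rw [eichlerMat_zero hQ]; rfl⟩
  have step : ∀ w ∈ D m, EIn Q M d w → ∀ y ∈ D m, Q y ≠ 0 → EIn Q M d (((Q y)⁻¹ * bform hQ y w) • y) := by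
    intro w hw hEw y hy hyQ
    obtain ⟨y', hy', hy'Q⟩ := exists_value_any hQ (member_radical_free hQ hD o) (by rw [(hF o).1]) (Q y)
    have hy'Q' : Q y' ≠ 0 := hy'Q ▸ hyQ
    have hh := reflection_pair_mem hQ hD hS hn hy hy' hyQ hy'Q' hy'Q.symm
    have hfixd : ((reflection hQ hyQ * reflection hQ hy'Q' : GL ι F) : Matrix ι ι F) *ᵥ d = d := by
      rw [Units.val_mul, ← Matrix.mulVec_mulVec]
      simp only [reflection_mulVec hQ, b_slot_zero hQ hD hy hdm, b_slot_zero hQ hD hy' hdo, mul_zero, zero_smul,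
        sub_zero]
    have hw' : ((reflection hQ hyQ * reflection hQ hy'Q' : GL ι F) : Matrix ι ι F) *ᵥ w =
        w - ((Q y)⁻¹ * bform hQ y w) • y := by
      rw [Units.val_mul, ← Matrix.mulVec_mulVec]
      simp only [reflection_mulVec hQ, member_b_eq_zero hQ hD hom hy' hw, mul_zero, zero_smul, sub_zero]
    have h := hEw.displacement hQ hd (hb w hw) hh (hMI hh) hfixd
    rw [hw', sub_sub_cancel_left] at h
    simpa using h.neg hQ hd (by rw [map_neg, map_smul, hb y hy, smul_zero, neg_zero])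
  have line : ∀ y ∈ D m, Q y ≠ 0 → ∀ c : F, c ≠ 0 → EIn Q M d (c • y) → ∀ s : F, EIn Q M d (s • y) := by
    intro y hy hyQ c hc hEc
    let C : AddSubgroup F :=
      { carrier := {s | EIn Q M d (s • y)}
        zero_mem' := by show EIn Q M d _; rw [zero_smul]; exact hzero
        add_mem' := fun {a b} ha hb' => by
          show EIn Q M d _
          rw [add_smul]
          exact ha.add hQ hb' hd (hb _ ((D m).smul_mem _ hy)) (hb _ ((D m).smul_mem _ hy))
        neg_mem' := fun {a} ha => by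
          show EIn Q M d _
          rw [neg_smul]
          exact ha.neg hQ hd (hb _ ((D m).smul_mem _ hy)) }
    obtain ⟨K, hK, hKx⟩ := exists_many_multipliers hQ hU (hF m) hy hyQ
    refine addSubgroup_eq_top_of_multipliers C (show c ∈ C from hEc) hc K (fun r hr s hs => ?_) hK
    rcases hKx r hr with rfl | ⟨x, hx, hxQ, rfl⟩
    · rw [zero_mul]; exact C.zero_mem
    show EIn Q M d _
    have h1 := step _ ((D m).smul_mem s hy) hs x hx hxQ
    have h2 := step _ ((D m).smul_mem _ hx) h1 y hy hyQ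
    convert h2 using 2
    rw [map_smul, map_smul, b_symm hQ y x, smul_eq_mul, smul_eq_mul]
    field_simp
  obtain ⟨y, hy, hyQ, hyx⟩ := exists_avoid_one hQ hU (hF m) hx₀ hx₀0
  have hyall := line y hy hyQ _ (mul_ne_zero (inv_ne_zero hyQ) hyx) (step x₀ hx₀ hE y hy hyQ)
  obtain ⟨z, hz, hzQ, hyz, hind⟩ := exists_rot_partner hQ hU (hF m) hy hyQ
  have hzQ' : Q z ≠ 0 := hzQ ▸ hyQ
  have hy1 := hyall 1
  rw [one_smul] at hy1
  have hzall := line z hz hzQ' _ (mul_ne_zero (inv_ne_zero hzQ') (by rw [b_symm hQ]; exact hyz))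
    (step y hy hy1 z hz hzQ')
  intro x hx
  obtain ⟨α, β, rfl⟩ := plane_span_of_indep (hd := (hF m).1) hy hz (fun h => hyQ (by rw [h, q_zero hQ])) hind x hx
  exact (hyall α).add hQ (hzall β) hd (hb _ ((D m).smul_mem _ hy)) (hb _ ((D m).smul_mem _ hz))

/-- A root element into one member gives the root group over everything outside the support. -/
lemma two_outside {d : ι → F} (hd : Q d = 0) {A : Finset (Fin t)} (hA : A.card + 2 ≤ t)
    (hdA : ∀ l, l ∉ A → proj hD.decomp.decomp l d = 0) {m : Fin t} (hm : m ∉ A) {x₀ : ι → F} (hx₀ : x₀ ∈ D m)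
    (hx₀0 : x₀ ≠ 0) (hE : EIn Q M d x₀) :
    ∀ w, (∀ l ∈ A, proj hD.decomp.decomp l w = 0) → EIn Q M d w := by
  classical
  have hdec := hD.decomp.decomp
  obtain ⟨o, ho⟩ := exists_slot_not_mem hD (insert m A) (by have := Finset.card_insert_le m A; omega)
  rw [Finset.mem_insert, not_or] at ho
  have hfull := two_fill hQ hD hS hn hMI ht hF hd ho.1 (hdA m hm) (hdA o ho.2) hx₀ hx₀0 hE
  have hP : ∀ l, l ∉ A → ∀ x ∈ D l, EIn Q M d x := by
    intro l hl
    by_cases hlm : l = m
    · subst hlm; exact hfull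
    obtain ⟨s, hsI, -, hs, hsfix⟩ := exists_member_swap hQ hD (Ne.symm hlm : m ≠ l)
    obtain ⟨g, hgM, -, hgmaps, hgfix⟩ := exists_mem_extend hQ hD hS hn hsI hs (le_refl (D m))
      (fun r => exists_value_any hQ (member_radical_free hQ hD m) (by rw [(hF m).1]) r)
    have hgd : (g : Matrix ι ι F) *ᵥ d = d := fix_of_slots hQ hD fun j hj x hx => by
      have hjA : j ∈ A := by
        by_contra h
        exact hj (hdA j h)
      have hmj : m ≠ j := fun e => hm (e ▸ hjA)
      rw [hgfix x fun u hu => member_b_eq_zero hQ hD hmj hu hx]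
      exact hsfix j (Ne.symm hmj) (fun e => hl (e ▸ hjA)) x hx
    have hgl : ∀ x ∈ D m, (g : Matrix ι ι F) *ᵥ x ∈ D l := fun x hx => by simpa using hgmaps m x hx
    intro x hx
    obtain ⟨x', hx', rfl⟩ := map_eq_of_maps hQ hD hgl x hx
    have h := (hfull x' hx').conj hQ hd (by rw [b_symm hQ]; exact b_slot_zero hQ hD hx' (hdA m hm)) hgM (hMI hgM)
    rwa [hgd] at h
  intro w hw
  have hterm : ∀ l, bform hQ d (proj hdec l w) = 0 ∧ EIn Q M d (proj hdec l w) := fun l => by
    by_cases hl : l ∈ A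
    · rw [hw l hl, map_zero]
      exact ⟨rfl, 1, M.one_mem, by rw [eichlerMat_zero hQ]; rfl⟩
    · exact ⟨by rw [b_symm hQ]; exact b_slot_zero hQ hD (proj_mem hdec l w) (hdA l hl), hP l hl _ (proj_mem hdec l w)⟩
  have hsum : ∀ s : Finset (Fin t), bform hQ d (∑ l ∈ s, proj hdec l w) = 0 ∧
      EIn Q M d (∑ l ∈ s, proj hdec l w) := by
    intro s
    induction s using Finset.induction_on with
    | empty => exact ⟨by rw [Finset.sum_empty, map_zero],
        1, M.one_mem, by rw [Finset.sum_empty, eichlerMat_zero hQ]; rfl⟩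
    | insert l s hl ih =>
      rw [Finset.sum_insert hl]
      exact ⟨by rw [map_add, (hterm l).1, ih.1, add_zero], (hterm l).2.add hQ ih.2 hd (hterm l).1 ih.1⟩
  have h := (hsum Finset.univ).2
  rwa [sum_proj hdec] at h

omit hQ hD hS hn hMI ht hF in
/-- A singular vector carried by two members, with non-singular components. -/
def IsPairVec (Q : (ι → F) → F) (D : Fin t → Submodule F (ι → F)) (a b : Fin t) (f : ι → F) : Prop :=
  a ≠ b ∧ ∃ x ∈ D a, ∃ x' ∈ D b, Q x ≠ 0 ∧ Q x' = -Q x ∧ f = x + x'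

omit hS hn hMI ht hF in
lemma IsPairVec.slot {a b : Fin t} {f : ι → F} (h : IsPairVec Q D a b f) :
    Q f = 0 ∧ f ≠ 0 ∧ ∀ l, l ∉ ({a, b} : Finset (Fin t)) → proj hD.decomp.decomp l f = 0 := by
  obtain ⟨hab, x, hx, x', hx', hxQ, hx'Q, rfl⟩ := h
  refine ⟨by rw [q_add hQ, hx'Q, member_b_eq_zero hQ hD hab hx hx']; ring, fun h0 => hxQ ?_, fun l hl => ?_⟩
  · have := congrArg (proj hD.decomp.decomp a) h0
    rw [map_add, proj_of_mem hD.decomp.decomp hx, proj_of_mem hD.decomp.decomp hx', if_pos rfl, if_neg hab,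
      add_zero, map_zero] at this
    rw [this, q_zero hQ]
  · simp only [Finset.mem_insert, Finset.mem_singleton, not_or] at hl
    rw [map_add, proj_of_mem hD.decomp.decomp hx, proj_of_mem hD.decomp.decomp hx', if_neg hl.1, if_neg hl.2,
      add_zero]

lemma exists_pairVec {a b : Fin t} (hab : a ≠ b) : ∃ f, IsPairVec Q D a b f := by
  obtain ⟨x, hx, hxQ⟩ := exists_q_ne_zero hQ (member_radical_free hQ hD a) (by rw [(hF a).1]; omega)
  obtain ⟨x', hx', hx'Q⟩ := exists_value_any hQ (member_radical_free hQ hD b) (by rw [(hF b).1]) (-Q x)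
  exact ⟨_, hab, x, hx, x', hx', hxQ, hx'Q, rfl⟩

omit hQ hD hS hn hMI ht hF in
/-- All root elements over the members outside the pair. -/
def PairOut (hdec : Cfsg.Geo.IsMDecomposition k D) (Q : (ι → F) → F) (M : Subgroup (GL ι F)) (a b : Fin t) : Prop :=
  ∀ f, IsPairVec Q D a b f → ∀ w, (∀ l ∈ ({a, b} : Finset (Fin t)), proj hdec l w = 0) → EIn Q M f w

/-- The root group of one supported vector reaches every pair away from the support. -/
lemma pairOut_of_outside {d : ι → F} (hd : Q d = 0) (hd0 : d ≠ 0) {A : Finset (Fin t)}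
    (hdA : ∀ l, l ∉ A → proj hD.decomp.decomp l d = 0)
    (hout : ∀ w, (∀ l ∈ A, proj hD.decomp.decomp l w = 0) → EIn Q M d w) {a b : Fin t} (ha : a ∉ A) (hb : b ∉ A) :
    PairOut hD.decomp.decomp Q M a b := by
  classical
  have hdec := hD.decomp.decomp
  intro f hfp
  obtain ⟨hfQ, hf0, hfs⟩ := hfp.slot hQ hD
  obtain ⟨m, hm⟩ : ∃ m, proj hdec m d ≠ 0 := by
    by_contra hall
    push Not at hall
    exact hd0 (by rw [← sum_proj hdec d]; exact Finset.sum_eq_zero fun l _ => hall l)
  have hmA : m ∈ A := by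
    by_contra h
    exact hm (hdA m h)
  have hmP : m ∉ ({a, b} : Finset (Fin t)) := by
    simp only [Finset.mem_insert, Finset.mem_singleton, not_or]
    exact ⟨fun e => ha (e ▸ hmA), fun e => hb (e ▸ hmA)⟩
  have hdf : bform hQ d f = 0 := by
    obtain ⟨-, x, hx, x', hx', -, -, rfl⟩ := hfp
    rw [b_symm hQ, map_add, LinearMap.add_apply, b_slot_zero hQ hD hx (hdA a ha), b_slot_zero hQ hD hx' (hdA b hb),
      add_zero]
  have hEf : EIn Q M f d := (hout f fun l hl => hfs l (by
    simp only [Finset.mem_insert, Finset.mem_singleton, not_or]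
    exact ⟨fun e => ha (e ▸ hl), fun e => hb (e ▸ hl)⟩)).swap hQ hd hfQ hdf
  obtain ⟨x, hx, hx0, hEx⟩ := root_move hQ hD hS hn hMI ht hF hfQ (by rw [b_symm hQ]; exact hdf) (hfs m hmP) hm hEf
  exact two_outside hQ hD hS hn hMI ht hF hfQ (by have := Finset.card_le_two (a := a) (b := b); omega) hfs hmP hx hx0
    hEx

/-- The whole root group of every pair vector. -/
lemma pair_full {g : GL ι F} (hg : g ∈ M) (hgD : g ∉ decompositionStabilizer D) {a b : Fin t} {f : ι → F}
    (hfp : IsPairVec Q D a b f) : ∀ w, bform hQ f w = 0 → EIn Q M f w := by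
  classical
  have hdec := hD.decomp.decomp
  obtain ⟨d, hd, hd0, A, hA, hdA, m, hm, x₀, hx₀, hx₀0, hE⟩ :=
    root_reduce hQ hD hS hn hMI ht hF (exists_root_two hQ hD hS hn hMI ht hF hg hgD)
  have hout := two_outside hQ hD hS hn hMI ht hF hd hA hdA hm hx₀ hx₀0 hE
  have two_free : ∀ S : Finset (Fin t), S.card + 2 ≤ t → ∃ c e : Fin t, c ≠ e ∧ c ∉ S ∧ e ∉ S := fun S hS' => by
    obtain ⟨c, hc⟩ := exists_slot_not_mem hD S (by omega)
    obtain ⟨e, he⟩ := exists_slot_not_mem hD (insert c S) (by have := Finset.card_insert_le c S; omega)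
    rw [Finset.mem_insert, not_or] at he
    exact ⟨c, e, Ne.symm he.1, hc, he.2⟩
  have chain : ∀ {c e : Fin t}, c ≠ e → PairOut hdec Q M c e → ∀ {p q : Fin t}, p ∉ ({c, e} : Finset (Fin t)) →
      q ∉ ({c, e} : Finset (Fin t)) → PairOut hdec Q M p q := by
    intro c e hce hPO p q hp hq
    obtain ⟨f', hf'⟩ := exists_pairVec hQ hD hS hn hMI ht hF hce
    obtain ⟨hf'Q, hf'0, hf's⟩ := hf'.slot hQ hD
    exact pairOut_of_outside hQ hD hS hn hMI ht hF hf'Q hf'0 hf's (hPO f' hf') hp hq
  have hall : ∀ p q : Fin t, PairOut hdec Q M p q := by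
    intro p q
    obtain ⟨c, e, hce, hc, he⟩ := two_free A (by omega)
    have h1 := pairOut_of_outside hQ hD hS hn hMI ht hF hd hd0 hdA hout hc he
    by_cases hdis : p ∉ ({c, e} : Finset (Fin t)) ∧ q ∉ ({c, e} : Finset (Fin t))
    · exact chain hce h1 hdis.1 hdis.2
    obtain ⟨c', e', hce', hc', he'⟩ := two_free ({c, e} ∪ {p, q}) (by
      have h4 := Finset.card_union_add_card_inter ({c, e} : Finset (Fin t)) {p, q}
      have h5 : 0 < (({c, e} : Finset (Fin t)) ∩ {p, q}).card := Finset.card_pos.2 (by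
        rw [not_and_or, not_not, not_not] at hdis
        rcases hdis with h | h <;> exact ⟨_, Finset.mem_inter.2 ⟨h, by simp⟩⟩)
      have := Finset.card_le_two (a := c) (b := e)
      have := Finset.card_le_two (a := p) (b := q)
      omega)
    simp only [Finset.mem_union, Finset.mem_insert, Finset.mem_singleton, not_or] at hc' he'
    refine chain hce' (chain hce h1 (by simp [hc'.1.1, hc'.1.2]) (by simp [he'.1.1, he'.1.2])) ?_ ?_
    · simp [Ne.symm hc'.2.1, Ne.symm he'.2.1]
    · simp [Ne.symm hc'.2.2, Ne.symm he'.2.2]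
  obtain ⟨hfQ, hf0, hfs⟩ := hfp.slot hQ hD
  have hab : a ≠ b := hfp.1
  intro w hw
  set wi := proj hdec a w + proj hdec b w with hwi
  have hwo : ∀ l ∈ ({a, b} : Finset (Fin t)), proj hdec l (w - wi) = 0 := by
    intro l hl
    rw [hwi, map_sub, map_add, proj_of_mem hdec (proj_mem hdec a w), proj_of_mem hdec (proj_mem hdec b w)]
    simp only [Finset.mem_insert, Finset.mem_singleton] at hl
    rcases hl with rfl | rfl
    · rw [if_pos rfl, if_neg hab, add_zero, sub_self]
    · rw [if_neg (Ne.symm hab), if_pos rfl, zero_add, sub_self]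
  have hfo : ∀ v, (∀ l ∈ ({a, b} : Finset (Fin t)), proj hdec l v = 0) → bform hQ f v = 0 := fun v hv => by
    obtain ⟨-, x, hx, x', hx', -, -, rfl⟩ := hfp
    rw [map_add, LinearMap.add_apply, b_slot_zero hQ hD hx (hv a (by simp)),
      b_slot_zero hQ hD hx' (hv b (by simp)), add_zero]
  have hfwi : bform hQ f wi = 0 := by
    have h := hfo _ hwo
    rw [map_sub, hw, zero_sub, neg_eq_zero] at h
    exact h
  -- the part inside the pair, by displacement
  obtain ⟨c, e, hce, hc, he⟩ := two_free {a, b} (by have := Finset.card_le_two (a := a) (b := b); omega)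
  simp only [Finset.mem_insert, Finset.mem_singleton, not_or] at hc he
  obtain ⟨f', hf'⟩ := exists_pairVec hQ hD hS hn hMI ht hF hce
  obtain ⟨hf'Q, -, hf's⟩ := hf'.slot hQ hD
  obtain ⟨-, y, hy, y', hy', hyQ, hy'Q, hf'eq⟩ := hf'
  have hy0 : y ≠ 0 := fun h => hyQ (by rw [h, q_zero hQ])
  obtain ⟨v, hv, -, hvy⟩ := exists_avoid_one hQ (member_radical_free hQ hD c) (hF c) hy hy0
  set β := bform hQ f' v with hβ
  have hβ0 : β ≠ 0 := by
    rw [hβ, hf'eq, map_add, LinearMap.add_apply, member_b_eq_zero hQ hD (Ne.symm hce) hy' hv, add_zero, b_symm hQ]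
    exact hvy
  set u := (-β⁻¹) • wi with hu
  have hwis : ∀ l, l ≠ a → l ≠ b → proj hdec l wi = 0 := fun l h1 h2 => by
    rw [hwi, map_add, proj_of_mem hdec (proj_mem hdec a w), proj_of_mem hdec (proj_mem hdec b w), if_neg h1,
      if_neg h2, add_zero]
  have hf'wi : bform hQ f' wi = 0 := by
    rw [hf'eq, LinearMap.map_add₂, b_slot_zero hQ hD hy (hwis c hc.1 hc.2),
      b_slot_zero hQ hD hy' (hwis e he.1 he.2), add_zero]
  have hf'u : bform hQ f' u = 0 := by rw [hu, map_smul, hf'wi, smul_zero]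
  have hg' := (hall c e f' ⟨hce, y, hy, y', hy', hyQ, hy'Q, hf'eq⟩ u (fun l hl => by
    simp only [Finset.mem_insert, Finset.mem_singleton] at hl
    rcases hl with rfl | rfl <;> rw [hu, map_smul, hwis _ ?_ ?_, smul_zero]
    · exact hc.1
    · exact hc.2
    · exact he.1
    · exact he.2)).mem hQ hf'Q hf'u
  have hf'f : bform hQ f' f = 0 := by
    rw [b_symm hQ]
    refine hfo f' fun l hl => hf's l ?_
    simp only [Finset.mem_insert, Finset.mem_singleton] at hl ⊢
    rcases hl with rfl | rfl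
    · exact not_or.2 ⟨Ne.symm hc.1, Ne.symm he.1⟩
    · exact not_or.2 ⟨Ne.symm hc.2, Ne.symm he.2⟩
  have hvo : ∀ l ∈ ({a, b} : Finset (Fin t)), proj hdec l v = 0 := fun l hl => by
    simp only [Finset.mem_insert, Finset.mem_singleton] at hl
    rcases hl with rfl | rfl
    · rw [proj_of_mem hdec hv, if_neg (Ne.symm hc.1)]
    · rw [proj_of_mem hdec hv, if_neg (Ne.symm hc.2)]
  have huv : bform hQ u v = 0 := by
    rw [hu, map_smul, LinearMap.smul_apply, b_symm hQ, b_slot_zero hQ hD hv (hwis c hc.1 hc.2), smul_zero]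
  have hfu : bform hQ u f = 0 := by rw [hu, map_smul, LinearMap.smul_apply, b_symm hQ, hfwi, smul_zero]
  have hdisp := (hall a b f hfp v hvo).displacement hQ hfQ (hfo v hvo) hg' (hMI hg') (by
    rw [eichler_mulVec hQ, hf'f, hfu]; simp)
  rw [eichler_mulVec hQ, huv, ← hβ] at hdisp
  have hz : ∀ l ∈ ({a, b} : Finset (Fin t)), proj hdec l ((Q u * β) • f') = 0 := fun l hl => by
    rw [map_smul, hf's l (by
      simp only [Finset.mem_insert, Finset.mem_singleton] at hl ⊢
      rcases hl with rfl | rfl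
      · exact not_or.2 ⟨Ne.symm hc.1, Ne.symm he.1⟩
      · exact not_or.2 ⟨Ne.symm hc.2, Ne.symm he.2⟩), smul_zero]
  have hin := hdisp.add hQ (hall a b f hfp _ hz) hfQ
    (by simp [-bform_apply, b_symm hQ f u, hfu, b_symm hQ f f', hf'f]) (hfo _ hz)
  have hin' : EIn Q M f wi := by
    convert hin using 1
    rw [hu]
    match_scalars <;> field_simp <;> ring
  have h := hin'.add hQ (hall a b f hfp _ hwo) hfQ hfwi (hfo _ hwo)
  rwa [add_sub_cancel] at h

/-- Overgroups of the stabiliser not inside it contain Omega. -/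
theorem two_le_of_not_le (hM : ¬ M ≤ decompositionStabilizer D) : omegaGL Q ≤ M := by
  classical
  have hdec := hD.decomp.decomp
  obtain ⟨g, hg, hgD⟩ := SetLike.not_le_iff_exists.1 hM
  refine omega_le_of_root_vectors hQ hn hMI {f | ∃ a b, IsPairVec Q D a b f} ?_ ?_
  · rintro f ⟨a, b, hf⟩
    exact ⟨(hf.slot hQ hD).1, pair_full hQ hD hS hn hMI ht hF hg hgD hf⟩
  intro u huQ hu0
  obtain ⟨a, ha⟩ : ∃ a, proj hdec a u ≠ 0 := by
    by_contra hall
    push Not at hall
    exact hu0 (by rw [← sum_proj hdec u]; exact Finset.sum_eq_zero fun b _ => hall b)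
  have hUa := member_radical_free hQ hD a
  obtain ⟨x, hx, hxQ, hxu⟩ := exists_avoid_one hQ hUa (hF a) (proj_mem hdec a u) ha
  rw [← b_proj hQ hD hx] at hxu
  obtain ⟨b, hb⟩ := exists_slot_not_mem hD {a} (by rw [Finset.card_singleton]; omega)
  rw [Finset.mem_singleton] at hb
  have hUb := member_radical_free hQ hD b
  obtain ⟨x₁, hx₁, hx₁Q⟩ := exists_value_any hQ hUb (by rw [(hF b).1]) (-Q x)
  obtain ⟨x', hx', hx'Q, hne⟩ : ∃ x' ∈ D b, Q x' = -Q x ∧ bform hQ (x + x') u ≠ 0 := by
    by_cases h : bform hQ (x + x₁) u = 0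
    swap
    · exact ⟨x₁, hx₁, hx₁Q, h⟩
    have hub : proj hdec b u ≠ 0 := fun h0 => hxu (by
      rw [map_add, LinearMap.add_apply, b_slot_zero hQ hD hx₁ h0, add_zero] at h; exact h)
    obtain ⟨w, hw, hwQ, hw1, hw2⟩ := exists_avoid_two hQ hUb (hF b) hx₁ (proj_mem hdec b u)
      (fun h0 => hxQ (neg_eq_zero.1 (by rw [← hx₁Q, h0, q_zero hQ]))) hub
    rw [← b_proj hQ hD hw] at hw2
    refine ⟨(reflection hQ hwQ : Matrix ι ι F) *ᵥ x₁, reflection_maps_member hQ hD hw hwQ hx₁,
      by rw [mem_isometryGroup.1 (reflection_mem hQ hwQ), hx₁Q], ?_⟩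
    rw [reflection_mulVec hQ, add_sub, map_sub, LinearMap.sub_apply, h, zero_sub, neg_ne_zero, map_smul,
      LinearMap.smul_apply, smul_eq_mul]
    exact mul_ne_zero (mul_ne_zero (inv_ne_zero hwQ) hw1) hw2
  obtain ⟨w, hw, hwQ, hwx⟩ := exists_avoid_one hQ hUa (hF a) hx (fun h0 => hxQ (by rw [h0, q_zero hQ]))
  have hyD := reflection_maps_member hQ hD hw hwQ hx
  have hyQ : Q ((reflection hQ hwQ : Matrix ι ι F) *ᵥ x) = Q x := mem_isometryGroup.1 (reflection_mem hQ hwQ) x
  refine ⟨x + x', ⟨a, b, Ne.symm hb, x, hx, x', hx', hxQ, hx'Q, rfl⟩, _,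
    ⟨a, b, Ne.symm hb, _, hyD, x', hx', hyQ ▸ hxQ, by rw [hyQ]; exact hx'Q, rfl⟩, ?_, hne⟩
  have e : bform hQ (x + x') ((reflection hQ hwQ : Matrix ι ι F) *ᵥ x + x') =
      -((Q w)⁻¹ * bform hQ w x * bform hQ w x) := by
    rw [reflection_mulVec hQ]
    simp only [map_add, map_sub, map_smul, LinearMap.add_apply, b_self hQ, b_symm hQ x w,
      member_b_eq_zero hQ hD (Ne.symm hb) hx hx', member_b_eq_zero hQ hD hb hx' hx,
      member_b_eq_zero hQ hD hb hx' hw, hx'Q, smul_eq_mul]
    ring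
  rw [e, neg_ne_zero]
  exact mul_ne_zero (mul_ne_zero (inv_ne_zero hwQ) hwx) hwx

omit hS hMI

/-- The stabiliser is maximal. -/
theorem two_isMaximal : IsMaximalIn (omegaGL Q) (decompositionStabilizer D ⊓ omegaGL Q) := by
  have hdec := hD.decomp.decomp
  refine ⟨lt_of_le_not_ge inf_le_right fun hle => ?_, fun M hPM hMΩ => ?_⟩
  · let i0 : Fin t := ⟨0, by omega⟩
    let i1 : Fin t := ⟨1, by omega⟩
    let i2 : Fin t := ⟨2, by omega⟩
    have h01 : i0 ≠ i1 := by simp [i0, i1]
    have h02 : i0 ≠ i2 := by simp [i0, i2]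
    have h12 : i1 ≠ i2 := by simp [i1, i2]
    obtain ⟨x, hx, hxQ⟩ := exists_q_ne_zero hQ (member_radical_free hQ hD i0) (by rw [(hF i0).1]; omega)
    obtain ⟨y, hy, hyQ⟩ := exists_q_ne_zero hQ (member_radical_free hQ hD i1) (by rw [(hF i1).1]; omega)
    obtain ⟨y', hy', hy'Q⟩ := exists_value_any hQ (member_radical_free hQ hD i2) (by rw [(hF i2).1]) (-Q y)
    have hsum : Q (x + (y + y')) = Q x := by
      rw [q_add hQ, q_add hQ, hy'Q, member_b_eq_zero hQ hD h12 hy hy', map_add,
        member_b_eq_zero hQ hD h01 hx hy, member_b_eq_zero hQ hD h02 hx hy']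
      ring
    have hsum0 : x + (y + y') ≠ 0 := fun h => hxQ (by rw [← hsum, h, q_zero hQ])
    obtain ⟨g, hg, hgx⟩ := exists_map_value hQ hn (fun h => hxQ (by rw [h, q_zero hQ])) hsum0 hsum.symm
    obtain ⟨j, hj⟩ := image_mem_of_stabilizer (hle (eichlerGroup_le_omega hQ hn hg)).1 hx
    rw [hgx] at hj
    refine not_mem_of_two hdec h01 ?_ ?_ j hj <;>
      rw [map_add, map_add, proj_of_mem hdec hx, proj_of_mem hdec hy, proj_of_mem hdec hy']
    · rw [if_pos rfl, if_neg h01, if_neg h02, add_zero, add_zero]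
      exact fun h => hxQ (by rw [h, q_zero hQ])
    · rw [if_neg (Ne.symm h01), if_pos rfl, if_neg h12, add_zero, zero_add]
      exact fun h => hyQ (by rw [h, q_zero hQ])
  · by_cases hMP : M ≤ decompositionStabilizer D
    · exact Or.inl (le_antisymm (le_inf hMP hMΩ) hPM)
    · exact Or.inr (le_antisymm hMΩ (two_le_of_not_le hQ hD hPM hn (hMΩ.trans omegaGL_le) ht hF hMP))

end CfsgLib.OrthGeo
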