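import Cfsg.Agent.OrthGeo.DecompFour
import Cfsg.Agent.OrthGeo.DecompTwoSpread

/-! Maximality of stabilisers of orthogonal decompositions, all cases together. -/

set_option autoImplicit false
set_option linter.unusedSectionVars false

namespace CfsgLib.OrthGeo

open Cfsg Cfsg.Geo Module CfsgLib.DecompProj
open scoped Matrix MatrixGroups

variable {ι : Type} [Fintype ι] [DecidableEq ι] {F : Type*} [Field F] [Fintype F]
variable {Q : (ι → F) → F} (hQ : IsNondegenerateQuadraticForm Q)
variable {t k : ℕ} {D : Fin t → Submodule F (ι → F)} (hD : IsOrthogonalMDecomposition Q k D)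
include hQ hD

omit hQ in
lemma member_plus_transfer {i : Fin t} (h : IsPlusTypeOn Q (D i)) (j : Fin t) : IsPlusTypeOn Q (D j) := by
  obtain ⟨U, hU, hts, hdim⟩ := h
  obtain ⟨θ, hθ⟩ := hD.isometric i j
  refine ⟨(U.comap (D i).subtype).map ((D j).subtype ∘ₗ θ.toLinearMap), ?_, ?_, ?_⟩
  · rintro _ ⟨x, -, rfl⟩
    exact (θ x).2
  · rintro _ ⟨x, hx, rfl⟩
    show Q ((θ x : D j) : ι → F) = 0
    rw [hθ]; exact hts _ hx
  · rw [← (Submodule.equivMapOfInjective _ (Subtype.val_injective.comp θ.injective) _).finrank_eq,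
      (Submodule.comapSubtypeEquivOfLe hU).finrank_eq, hdim, hD.decomp.decomp.finrank_eq, hD.decomp.decomp.finrank_eq]

/-- All decompositions outside the known exceptions. -/
theorem decomp_isMaximal_all (hn : 13 ≤ Fintype.card ι) (heven : Even (Fintype.card ι)) (hk : 2 ≤ k)
    (hko : Odd k → Odd (Fintype.card F)) (h23 : ¬ ((k = 2 ∨ k = 3) ∧ Fintype.card F = 3))
    (h2p : k = 2 → (∀ i, IsPlusTypeOn Q (D i)) →
      Fintype.card F ≠ 2 ∧ Fintype.card F ≠ 4 ∧ Fintype.card F ≠ 5)
    (h4p : k = 4 → Fintype.card F = 2 → ¬ ∀ i, IsPlusTypeOn Q (D i)) (ht : 2 ≤ t) :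
    IsMaximalIn (omegaGL Q) (decompositionStabilizer D ⊓ omegaGL Q) := by
  have hcard : t * k = Fintype.card ι := mul_eq_card hD.decomp.decomp
  have hn5 : 5 ≤ Fintype.card ι := by omega
  rcases (show k = 2 ∨ k = 3 ∨ 4 ≤ k by omega) with h2 | h3 | h4
  · subst h2
    refine two_isMaximal hQ hD hn5 (by omega) fun i => ⟨hD.decomp.decomp.finrank_eq i, ?_⟩
    by_cases hq : 7 ≤ Fintype.card F
    · exact Or.inl hq
    right
    have hq3 : Fintype.card F ≠ 3 := fun h => h23 ⟨Or.inl rfl, h⟩
    have hpp : IsPrimePow (Fintype.card F) := FiniteField.isPrimePow_card F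
    have hq1 := Fintype.one_lt_card (α := F)
    have hq6 : Fintype.card F ≠ 6 := fun h => by
      rw [h, isPrimePow_nat_iff] at hpp
      obtain ⟨p, e, hp, he, hpe⟩ := hpp
      have hple : p ≤ 6 := Nat.le_of_dvd (by norm_num) ⟨p ^ (e - 1), by rw [← hpe, ← pow_succ']; congr 1; omega⟩
      interval_cases p <;> norm_num at hp
      all_goals (rcases e with _ | _ | _ | e <;> simp [pow_succ] at hpe; try omega)
    have hcases : Fintype.card F = 2 ∨ Fintype.card F = 4 ∨ Fintype.card F = 5 := by omega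
    refine ⟨hcases, fun x hx hxQ => ?_⟩
    by_contra hx0
    have hplus : IsPlusTypeOn Q (D i) := by
      refine ⟨Submodule.span F {x}, (Submodule.span_singleton_le_iff_mem _ _).2 hx, ?_, ?_⟩
      · intro y hy
        obtain ⟨c, rfl⟩ := Submodule.mem_span_singleton.1 hy
        rw [q_smul hQ, hxQ, mul_zero]
      · rw [finrank_span_singleton hx0, hD.decomp.decomp.finrank_eq]
    obtain ⟨a, b, c⟩ := h2p rfl (member_plus_transfer hD hplus)
    omega
  · subst h3
    have hodd := hko ⟨1, rfl⟩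
    have h20 : (2 : F) ≠ 0 := fun h => by
      have := FiniteField.even_card_of_char_two (ringChar_eq_two_of_two_eq_zero h)
      rw [Nat.odd_iff] at hodd
      omega
    have hq : 5 ≤ Fintype.card F := by
      have := Fintype.one_lt_card (α := F)
      rw [Nat.odd_iff] at hodd
      have : Fintype.card F ≠ 3 := fun h => h23 ⟨Or.inr rfl, h⟩
      omega
    exact decomp_isMaximal hQ hD hn5 h20 (by omega) (Or.inl hq) (Or.inl (by omega))
  · refine four_isMaximal hQ hD hn5 h4 ht fun i => Or.inr ⟨by rw [hD.decomp.decomp.finrank_eq]; exact h4, ?_⟩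
    intro hd hq hp
    rw [hD.decomp.decomp.finrank_eq] at hd
    exact h4p hd hq (member_plus_transfer hD hp)

end CfsgLib.OrthGeo
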