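import Cfsg.Agent.OrthGeo.DecompMonomial

/-! The stabiliser in Omega of an orthogonal decomposition into members of dimension at least four is maximal,
in every characteristic and for any number of members. -/

set_option autoImplicit false
set_option linter.unusedSectionVars false

namespace CfsgLib.OrthGeo

open Cfsg Cfsg.Geo Module CfsgLib.DecompProj
open scoped Matrix MatrixGroups commutatorElement

variable {ι : Type} [Fintype ι] [DecidableEq ι] {F : Type*} [Field F] [Fintype F]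
variable {Q : (ι → F) → F} (hQ : IsNondegenerateQuadraticForm Q)

section Member

variable {U : Submodule F (ι → F)} (hU : ∀ x ∈ U, x ∈ perp hQ U → x = 0)
include hU

lemma exists_partner_mem {v : ι → F} (hv : v ∈ U) (hv0 : v ≠ 0) (hvQ : Q v = 0) :
    ∃ f ∈ U, Q f = 0 ∧ bform hQ v f = 1 := by
  obtain ⟨y, hy, hyv⟩ := exists_mem_b_ne_zero hQ (fun h => hv0 (hU v hv h))
  obtain ⟨y', hy', h1⟩ : ∃ y' ∈ U, bform hQ v y' = 1 := ⟨(bform hQ y v)⁻¹ • y, U.smul_mem _ hy,
    by rw [map_smul, b_symm hQ v y, smul_eq_mul, inv_mul_cancel₀ hyv]⟩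
  refine ⟨y' - Q y' • v, U.sub_mem hy' (U.smul_mem _ hv), ?_, ?_⟩
  · rw [q_sub hQ, q_smul hQ, hvQ, map_smul, b_symm hQ y' v, h1, smul_eq_mul]; ring
  · rw [map_sub, map_smul, h1, b_self hQ, hvQ]; simp

variable (hd : 4 ≤ finrank F U)
include hd

/-- The perpendicular of a singular vector takes all values. -/
lemma exists_value_perp {c : ι → F} (hc : c ∈ U) (hcQ : Q c = 0) (r : F) :
    ∃ x ∈ U, bform hQ c x = 0 ∧ Q x = r := by
  by_cases hc0 : c = 0
  · obtain ⟨x, hx, hxQ⟩ := exists_value_any hQ hU (by omega) r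
    exact ⟨x, hx, by rw [hc0, map_zero]; rfl, hxQ⟩
  obtain ⟨f, hf, hfQ, hcf⟩ := exists_partner_mem hQ hU hc hc0 hcQ
  set S := U ⊓ perp hQ (Submodule.span F {c} ⊔ Submodule.span F {f})
  have hmem : ∀ x, x ∈ S ↔ x ∈ U ∧ bform hQ c x = 0 ∧ bform hQ f x = 0 := fun x => by
    rw [Submodule.mem_inf, mem_perp_pair hQ]
  have hS : ∀ x ∈ S, x ∈ perp hQ S → x = 0 := by
    intro x hx hxp
    obtain ⟨hxU, hcx, hfx⟩ := (hmem x).1 hx
    refine hU x hxU fun y hy => ?_
    have hy' : y - bform hQ c y • f - bform hQ f y • c ∈ S := (hmem _).2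
      ⟨U.sub_mem (U.sub_mem hy (U.smul_mem _ hf)) (U.smul_mem _ hc),
        by simp [-bform_apply, hcf, b_self hQ, hcQ],
        by simp [-bform_apply, b_symm hQ f c, hcf, b_self hQ, hfQ]⟩
    have h := hxp _ hy'
    change bform hQ y x = 0
    change bform hQ (y - bform hQ c y • f - bform hQ f y • c) x = 0 at h
    simpa [-bform_apply, hcx, hfx] using h
  have h1 := finrank_le_inf_perp hQ U (Submodule.span F {c} ⊔ Submodule.span F {f})
  have h2 := finrank_span_pair_le hQ c f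
  obtain ⟨x, hx, hxQ⟩ := exists_value_any hQ hS (show 2 ≤ finrank F S by show 2 ≤ finrank F ↥(U ⊓ _); omega) r
  exact ⟨x, ((hmem x).1 hx).1, ((hmem x).1 hx).2.1, hxQ⟩

/-- Every value is taken off every perpendicular hyperplane. -/
lemma exists_value_pairing {v : ι → F} (hv : v ∈ U) (hv0 : v ≠ 0) {c : F} :
    ∃ x ∈ U, bform hQ x v ≠ 0 ∧ Q x = c := by
  by_cases hvQ : Q v = 0
  · obtain ⟨f, hf, hfQ, hvf⟩ := exists_partner_mem hQ hU hv hv0 hvQ
    refine ⟨f + c • v, U.add_mem hf (U.smul_mem _ hv), ?_, ?_⟩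
    · rw [map_add, LinearMap.add_apply, map_smul, LinearMap.smul_apply, b_self hQ, hvQ, b_symm hQ f v, hvf]; simp
    · rw [q_add hQ, q_smul hQ, hfQ, hvQ, map_smul, b_symm hQ f v, hvf, smul_eq_mul]; ring
  · obtain ⟨x, hx, hvx, hxQ⟩ := exists_b_one_value hQ hU hd hv hvQ c
    exact ⟨x, hx, by rw [b_symm hQ, hvx]; exact one_ne_zero, hxQ⟩

/-- Two independent vectors of the same non-zero value perpendicular to a given vector. -/
lemma exists_pair_perp (v : ι → F) : ∃ x ∈ U, ∃ x' ∈ U, Q x ≠ 0 ∧ Q x' = Q x ∧ bform hQ x v = 0 ∧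
    bform hQ x' v = 0 ∧ x' ∉ Submodule.span F {x} := by
  set U' := U ⊓ perp hQ (Submodule.span F {v}) with hU'
  have hmem : ∀ x, x ∈ U' ↔ x ∈ U ∧ bform hQ x v = 0 := fun x => by
    rw [hU', Submodule.mem_inf, mem_perp_span_singleton hQ, b_symm hQ]
  have h1 : finrank F U ≤ finrank F U' + 1 := by
    have h := finrank_le_inf_perp hQ U (Submodule.span F {v})
    have h' : finrank F (Submodule.span F ({v} : Set (ι → F))) ≤ 1 := (finrank_span_le_card _).trans (by simp)
    rw [hU']; omega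
  obtain ⟨c, hc, hc0, hcQ⟩ := exists_singular hQ (S := U') (by omega)
  by_cases hw : ∃ w ∈ U', bform hQ c w ≠ 0
  · obtain ⟨w₀, hw₀, hcw₀⟩ := hw
    set w := (bform hQ c w₀)⁻¹ • w₀
    have hw : w ∈ U' := U'.smul_mem _ hw₀
    have hcw : bform hQ c w = 1 := by rw [map_smul, smul_eq_mul, inv_mul_cancel₀ hcw₀]
    obtain ⟨u, ⟨huU, hcu⟩, hu⟩ : ∃ u ∈ U' ⊓ perp hQ (Submodule.span F {c}), u ∉ Submodule.span F {c} := by
      refine SetLike.not_le_iff_exists.1 fun hle => ?_
      have h2 := Submodule.finrank_mono hle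
      have h3 := finrank_le_inf_perp hQ U' (Submodule.span F {c})
      rw [finrank_span_singleton hc0] at h2 h3
      omega
    replace hcu : bform hQ c u = 0 := (mem_perp_span_singleton hQ).1 hcu
    have hval : ∀ y ∈ U', bform hQ c y = 1 → y + (1 - Q y) • c ∈ U' ∧ Q (y + (1 - Q y) • c) = 1 := fun y hy hcy =>
      ⟨U'.add_mem hy (U'.smul_mem _ hc), by
        rw [q_add hQ, q_smul hQ, hcQ, map_smul, b_symm hQ y c, hcy, smul_eq_mul]; ring⟩
    have hcu' : bform hQ c (w + u) = 1 := by rw [map_add, hcw, hcu, add_zero]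
    obtain ⟨hx, hxQ⟩ := hval w hw hcw
    obtain ⟨hx', hx'Q⟩ := hval (w + u) (U'.add_mem hw huU) hcu'
    refine ⟨_, ((hmem _).1 hx).1, _, ((hmem _).1 hx').1, by rw [hxQ]; exact one_ne_zero, hx'Q.trans hxQ.symm,
      ((hmem _).1 hx).2, ((hmem _).1 hx').2, fun hspan => hu ?_⟩
    obtain ⟨r, hr⟩ := Submodule.mem_span_singleton.1 hspan
    have hr1 : r = 1 := by
      have h := congrArg (bform hQ c) hr
      simp only [map_add, map_smul, hcw, hcu, b_self hQ, hcQ, smul_eq_mul] at h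
      linear_combination h
    rw [hr1, one_smul] at hr
    refine Submodule.mem_span_singleton.2 ⟨(1 - Q w) - (1 - Q (w + u)), ?_⟩
    linear_combination (norm := module) hr
  · push Not at hw
    obtain ⟨x, hx, hxQ⟩ : ∃ x ∈ U', Q x ≠ 0 := by
      by_contra hall
      push Not at hall
      have : 2 * finrank F U' ≤ finrank F U := two_mul_finrank_le_of_le hQ hU inf_le_left hall
      omega
    refine ⟨x, ((hmem _).1 hx).1, x + c, ((hmem _).1 (U'.add_mem hx hc)).1, hxQ, ?_, ((hmem _).1 hx).2,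
      ((hmem _).1 (U'.add_mem hx hc)).2, fun hspan => ?_⟩
    · rw [q_add hQ, hcQ, b_symm hQ, hw x hx]; ring
    · have h := Submodule.sub_mem _ hspan (Submodule.mem_span_singleton_self x)
      rw [add_sub_cancel_left] at h
      obtain ⟨r, rfl⟩ := Submodule.mem_span_singleton.1 h
      rw [q_smul hQ] at hcQ
      rcases mul_eq_zero.1 hcQ with h | h
      · exact hc0 (by rw [pow_eq_zero_iff two_ne_zero |>.1 h, zero_smul])
      · exact hxQ h

/-- A non-singular vector perpendicular to a singular vector and to another vector, both of the member. -/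
lemma exists_aniso_perp {c z : ι → F} (hc : c ∈ U) (hz : z ∈ U) (hzQ : Q z = 0 → z = 0) :
    ∃ x ∈ U, Q x ≠ 0 ∧ bform hQ c x = 0 ∧ bform hQ z x = 0 := by
  set S := Submodule.span F {c} ⊔ Submodule.span F {z}
  have hSU : S ≤ U :=
    sup_le ((Submodule.span_singleton_le_iff_mem _ _).2 hc) ((Submodule.span_singleton_le_iff_mem _ _).2 hz)
  by_contra hall
  push Not at hall
  have hts : IsTotallySingularQuad Q (U ⊓ perp hQ S) := fun x hx => by
    by_contra hxQ
    exact hall x hx.1 hxQ ((mem_perp_pair hQ).1 hx.2).1 ((mem_perp_pair hQ).1 hx.2).2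
  have h1 := finrank_inf_perp_of_le hQ hU hSU
  have h2 := two_mul_finrank_le_of_le hQ hU inf_le_left hts
  have h3 := finrank_span_pair_le hQ c z
  change finrank F S ≤ 2 at h3
  have h4 := finrank_inf_perp_of_le hQ hU (inf_le_left : U ⊓ perp hQ S ≤ U)
  have hle : S ≤ U ⊓ perp hQ (U ⊓ perp hQ S) := le_inf hSU fun s hs y hy => by
    change bform hQ y s = 0
    rw [b_symm hQ]
    exact hy.2 s hs
  have heq : U ⊓ perp hQ S = U ⊓ perp hQ (U ⊓ perp hQ S) :=
    Submodule.eq_of_le_of_finrank_le (le_inf inf_le_left (le_perp_self hQ hts)) (by omega)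
  have hzmem : z ∈ U ⊓ perp hQ S := by
    rw [heq]; exact hle (Submodule.mem_sup_right (Submodule.mem_span_singleton_self z))
  have hz0 : z = 0 := hzQ (hts z hzmem)
  have h5 : finrank F S ≤ 1 := by
    have : S ≤ Submodule.span F {c} := sup_le le_rfl ((Submodule.span_singleton_le_iff_mem _ _).2 (by
      rw [hz0]; exact zero_mem _))
    have h6 : finrank F (Submodule.span F ({c} : Set (ι → F))) ≤ 1 := (finrank_span_le_card _).trans (by simp)
    have := Submodule.finrank_mono this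
    omega
  omega

/-- Orthogonal vectors of one value have a common non-neighbour of that value. -/
lemma exists_eta_link (hR : Rich Q U) {x y : ι → F} (hx : x ∈ U) (hy : y ∈ U) {η : F} (hη : η ≠ 0)
    (hxQ : Q x = η) (hyQ : Q y = η) (hxy : bform hQ x y = 0) :
    ∃ z ∈ U, Q z = η ∧ bform hQ z x ≠ 0 ∧ bform hQ z y ≠ 0 := by
  by_cases h2 : (2 : F) = 0
  · obtain ⟨z, hz, hzQ, hzx, hzy⟩ := exists_common_nonorth hQ hU hR hx hy (hxQ ▸ hη) (hyQ ▸ hη) hxy
    obtain ⟨s, hs⟩ := isSquare_of_two_eq_zero h2 (η / Q z)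
    have hs0 : s ≠ 0 := fun h => div_ne_zero hη hzQ (by rw [hs, h, mul_zero])
    refine ⟨s • z, U.smul_mem _ hz, by rw [q_smul hQ, sq, ← hs, div_mul_cancel₀ _ hzQ], ?_, ?_⟩ <;>
      rw [map_smul, LinearMap.smul_apply, smul_eq_mul]
    · exact mul_ne_zero hs0 hzx
    · exact mul_ne_zero hs0 hzy
  · set S := U ⊓ perp hQ (Submodule.span F {x} ⊔ Submodule.span F {y})
    have hmem : ∀ w, w ∈ S ↔ w ∈ U ∧ bform hQ x w = 0 ∧ bform hQ y w = 0 := fun w => by
      rw [Submodule.mem_inf, mem_perp_pair hQ]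
    have hS : ∀ w ∈ S, w ∈ perp hQ S → w = 0 := by
      intro w hw hwp
      obtain ⟨hwU, hxw, hyw⟩ := (hmem w).1 hw
      refine hU w hwU fun u hu => ?_
      have hu' : u - (bform hQ x u / (2 * η)) • x - (bform hQ y u / (2 * η)) • y ∈ S := (hmem _).2
        ⟨U.sub_mem (U.sub_mem hu (U.smul_mem _ hx)) (U.smul_mem _ hy),
          by simp [-bform_apply, b_self hQ, hxQ, hxy, hη, h2],
          by simp [-bform_apply, b_self hQ, hyQ, b_symm hQ y x, hxy, hη, h2]⟩
      have h := hwp _ hu'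
      change bform hQ u w = 0
      change bform hQ (u - (bform hQ x u / (2 * η)) • x - (bform hQ y u / (2 * η)) • y) w = 0 at h
      simpa [-bform_apply, hxw, hyw] using h
    have h1 := finrank_le_inf_perp hQ U (Submodule.span F {x} ⊔ Submodule.span F {y})
    have h3 := finrank_span_pair_le hQ x y
    set z₁ := (2 * η)⁻¹ • (x + y) with hz₁
    obtain ⟨h, hh, hhQ⟩ := exists_value_any hQ hS (show 2 ≤ finrank F S by show 2 ≤ finrank F ↥(U ⊓ _); omega)
      (η - Q z₁)
    obtain ⟨hhU, hxh, hyh⟩ := (hmem h).1 hh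
    have hzh : bform hQ z₁ h = 0 := by simp [-bform_apply, hz₁, hxh, hyh]
    refine ⟨z₁ + h, U.add_mem (U.smul_mem _ (U.add_mem hx hy)) hhU,
      by rw [q_add hQ, hhQ, hzh]; ring, ?_, ?_⟩ <;>
      simp [-bform_apply, hz₁, b_symm hQ h, hxh, hyh, b_self hQ, hxQ, hyQ, hxy, b_symm hQ y x, hη, h2]

end Member

variable {t k : ℕ} {D : Fin t → Submodule F (ι → F)} (hD : IsOrthogonalMDecomposition Q k D)
variable {M : Subgroup (GL ι F)} (hS : decompositionStabilizer D ⊓ omegaGL Q ≤ M)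
variable (hn : 5 ≤ Fintype.card ι) (hMI : M ≤ Cfsg.isometryGroup F Q)
variable (hk : 4 ≤ k) (ht : 2 ≤ t) (hR : ∀ i, Rich Q (D i))
include hQ hD hS hn hMI hk ht hR

lemma four_dim (i : Fin t) : 4 ≤ finrank F (D i) := by rw [hD.decomp.decomp.finrank_eq]; exact hk

/-- An element outside the stabiliser fixing a non-singular member vector. -/
lemma four_exists_fixed {g : GL ι F} (hg : g ∈ M) (hgD : g ∉ decompositionStabilizer D) :
    ∃ g' ∈ M, g' ∉ decompositionStabilizer D ∧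
      ∃ i, ∃ a ∈ D i, Q a ≠ 0 ∧ (g' : Matrix ι ι F) *ᵥ a = a := by
  have hdec := hD.decomp.decomp
  let i₀ : Fin t := ⟨0, by omega⟩
  have hd := fun i => four_dim hQ hD hS hn hMI hk ht hR i
  obtain ⟨y, hy, hyQ⟩ := exists_q_ne_zero hQ (member_radical_free hQ hD i₀) (by have := hd i₀; omega)
  set v := ((g⁻¹ : GL ι F) : Matrix ι ι F) *ᵥ y with hv
  have hgI := hMI hg
  obtain ⟨x, hx, x', hx', hxQ, hx'Q, hxv, hx'v, hind⟩ :=
    exists_pair_perp hQ (member_radical_free hQ hD i₀) (hd i₀) v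
  have hx'Q' : Q x' ≠ 0 := hx'Q ▸ hxQ
  set u := (g : Matrix ι ι F) *ᵥ x with hu
  set u' := (g : Matrix ι ι F) *ᵥ x' with hu'
  have huQ : Q u = Q x := mem_isometryGroup.1 hgI x
  have hu'Q : Q u' = Q x' := mem_isometryGroup.1 hgI x'
  have hxx := reflection_pair_mem hQ hD hS hn hx hx' hxQ hx'Q' hx'Q.symm
  set g' := g * (reflection hQ hxQ * reflection hQ hx'Q') * g⁻¹ with hg'
  have hg'M : g' ∈ M := mul_mem (mul_mem hg hxx) (inv_mem hg)
  have e1 := conj_reflection hQ hgI hxQ (huQ ▸ hxQ : Q u ≠ 0) hu.symm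
  have e2 := conj_reflection hQ hgI hx'Q' (hu'Q ▸ hx'Q' : Q u' ≠ 0) hu'.symm
  have hg'eq : g' = reflection hQ (huQ ▸ hxQ : Q u ≠ 0) * reflection hQ (hu'Q ▸ hx'Q' : Q u' ≠ 0) := by
    rw [← e1, ← e2, hg']; group
  have hbg : ∀ a, bform hQ ((g : Matrix ι ι F) *ᵥ a) y = bform hQ a v := fun a => by
    conv_lhs => rw [← mulVec_inv_cancel g y]
    rw [isometry_b hQ hgI]
  by_cases hg'D : g' ∈ decompositionStabilizer D
  swap
  · refine ⟨g', hg'M, hg'D, i₀, y, hy, hyQ, ?_⟩
    rw [hg'eq, Units.val_mul, ← Matrix.mulVec_mulVec]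
    simp only [reflection_mulVec hQ, hu, hu', hbg, hx'v, hxv, mul_zero, zero_smul, sub_zero]
  obtain ⟨σ, hσ⟩ := hg'D
  have hmove : ∀ a, (g' : Matrix ι ι F) *ᵥ a - a ∈ Submodule.span F {u} ⊔ Submodule.span F {u'} := fun a => by
    rw [hg'eq, Units.val_mul, ← Matrix.mulVec_mulVec, reflection_mulVec hQ, reflection_mulVec hQ,
      show ∀ p r : F, a - p • u' - r • u - a = -(r • u + p • u') from fun p r => by abel]
    exact neg_mem (add_mem
      (Submodule.mem_sup_left (Submodule.smul_mem _ _ (Submodule.mem_span_singleton_self u)))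
      (Submodule.mem_sup_right (Submodule.smul_mem _ _ (Submodule.mem_span_singleton_self u'))))
  have hσ1 : ∀ i, σ i = i := by
    intro i
    by_contra hne
    have hle : D i ≤ (Submodule.span F {u} ⊔ Submodule.span F {u'}).map (proj hdec i) := fun a ha => by
      refine ⟨-((g' : Matrix ι ι F) *ᵥ a - a), neg_mem (hmove a), ?_⟩
      have hga : (g' : Matrix ι ι F) *ᵥ a ∈ D (σ i) := hσ i ▸ ⟨a, ha, Matrix.toLin'_apply _ _⟩
      rw [map_neg, map_sub, proj_of_mem hdec hga, proj_of_mem hdec ha, if_neg (Ne.symm hne), if_pos rfl]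
      simp
    have h1 := Submodule.finrank_mono hle
    have h2 := Submodule.finrank_map_le (proj hdec i) (Submodule.span F {u} ⊔ Submodule.span F {u'})
    have h3 := finrank_span_pair_le hQ u u'
    have h4 := hd i
    omega
  have hind' : u ∉ Submodule.span F {u'} := fun h => by
    obtain ⟨r, hr⟩ := Submodule.mem_span_singleton.1 h
    have hrx : r • x' = x := by
      have := congrArg (((g⁻¹ : GL ι F) : Matrix ι ι F) *ᵥ ·) hr
      simpa [hu, hu', Matrix.mulVec_smul, inv_mulVec_cancel] using this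
    refine hind (Submodule.mem_span_singleton.2 ⟨r⁻¹, ?_⟩)
    rw [← hrx, inv_smul_smul₀ (fun h0 => hxQ (by rw [← hrx, h0, zero_smul, q_zero hQ]))]
  obtain ⟨a, hau', hau⟩ := exists_b_one_zero hQ hind'
  have hga : (g' : Matrix ι ι F) *ᵥ a - a = -((Q u)⁻¹ • u) := by
    rw [hg'eq, Units.val_mul, ← Matrix.mulVec_mulVec]
    simp only [reflection_mulVec hQ, hau', hau, mul_zero, zero_smul, sub_zero, mul_one]
    abel
  have hproj : ∀ i, (g' : Matrix ι ι F) *ᵥ proj hdec i a - proj hdec i a = -((Q u)⁻¹ • proj hdec i u) :=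
    fun i => by
      have := congrArg (proj hdec i) hga
      rwa [map_sub, map_neg, map_smul,
        show proj hdec i ((g' : Matrix ι ι F) *ᵥ a) = (g' : Matrix ι ι F) *ᵥ proj hdec i a by
          conv_lhs => rw [← hσ1 i]
          exact proj_mulVec hdec hσ i a] at this
  obtain ⟨i, hi⟩ : ∃ i, Q (proj hdec i u) ≠ 0 := by
    by_contra hall
    push Not at hall
    apply hxQ
    rw [← huQ, q_sum_proj hQ hD]
    exact Finset.sum_eq_zero fun i _ => hall i
  have hmem : proj hdec i u ∈ Submodule.span F {u} ⊔ Submodule.span F {u'} := by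
    have h := hmove (proj hdec i a)
    rw [hproj i, neg_mem_iff] at h
    exact (Submodule.smul_mem_iff _ (inv_ne_zero (huQ ▸ hxQ))).1 h
  obtain ⟨p, hp, r, hr, hpr⟩ := Submodule.mem_sup.1 hmem
  obtain ⟨α, rfl⟩ := Submodule.mem_span_singleton.1 hp
  obtain ⟨β, rfl⟩ := Submodule.mem_span_singleton.1 hr
  have hw : (g : Matrix ι ι F) *ᵥ (α • x + β • x') = proj hdec i u := by
    rw [Matrix.mulVec_add, Matrix.mulVec_smul, Matrix.mulVec_smul]; exact hpr
  have hwi : α • x + β • x' ∈ D i₀ := (D i₀).add_mem ((D i₀).smul_mem _ hx) ((D i₀).smul_mem _ hx')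
  have hwQ : Q (α • x + β • x') ≠ 0 := by rw [← mem_isometryGroup.1 hgI (α • x + β • x'), hw]; exact hi
  obtain ⟨g'', h1, h2, h3⟩ := exists_fix_of_map hQ hD hS hn ht (by omega) hg hgI hgD hwi hwQ
    (hw ▸ proj_mem hdec i u)
  exact ⟨g'', h1, h2, i₀, _, hwi, hwQ, h3⟩

/-- Outside the stabiliser some member vector of any given non-zero value leaves every member. -/
lemma four_exists_leave {g : GL ι F} (hgI : g ∈ Cfsg.isometryGroup F Q) (hgD : g ∉ decompositionStabilizer D)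
    {η : F} (hη : η ≠ 0) : ∃ i, ∃ a ∈ D i, Q a = η ∧ ∀ j, (g : Matrix ι ι F) *ᵥ a ∉ D j := by
  have hdec := hD.decomp.decomp
  have hd := fun i => four_dim hQ hD hS hn hMI hk ht hR i
  obtain ⟨i, v, hv, hgv⟩ := exists_not_mem_of_not_stabilizer hdec hgD
  by_contra hall
  push Not at hall
  have hU := member_radical_free hQ hD i
  obtain ⟨x, hx, hxQ⟩ := exists_value_any hQ hU (by have := hd i; omega) η
  obtain ⟨l, hl⟩ := hall i x hx hxQ
  have heq : ∀ a ∈ D i, ∀ b ∈ D i, Q a = η → Q b = η → bform hQ a b ≠ 0 →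
      ∀ m, (g : Matrix ι ι F) *ᵥ a ∈ D m → (g : Matrix ι ι F) *ᵥ b ∈ D m := by
    intro a ha b hb haQ hbQ hab m hm
    obtain ⟨m', hm'⟩ := hall i b hb hbQ
    by_cases h : m = m'
    · rw [h]; exact hm'
    · exact absurd (by rw [← isometry_b hQ hgI]; exact member_b_eq_zero hQ hD h hm hm') hab
  have hl' : ∀ b ∈ D i, Q b = η → (g : Matrix ι ι F) *ᵥ b ∈ D l := by
    intro b hb hbQ
    by_cases hxb : bform hQ x b = 0
    swap
    · exact heq x hx b hb hxQ hbQ hxb l hl
    obtain ⟨z, hz, hzQ, hzx, hzb⟩ := exists_eta_link hQ hU (hd i) (hR i) hx hb hη hxQ hbQ hxb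
    exact heq z hz b hb hzQ hbQ hzb l (heq x hx z hz hxQ hzQ (by rw [b_symm hQ]; exact hzx) l hl)
  set A := D i ⊓ (D l).comap (Matrix.toLin' (g : Matrix ι ι F))
  have hmemA : ∀ b, b ∈ A ↔ b ∈ D i ∧ (g : Matrix ι ι F) *ᵥ b ∈ D l := fun b => by
    rw [Submodule.mem_inf, Submodule.mem_comap, Matrix.toLin'_apply]
  have hA : A = D i := by
    refine Submodule.eq_of_le_of_finrank_le inf_le_left ?_
    by_contra hlt
    have h1 : finrank F ↥(D i ⊓ perp hQ A) + finrank F A = finrank F (D i) :=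
      finrank_inf_perp_of_le hQ hU inf_le_left
    change ¬ finrank F (D i) ≤ finrank F A at hlt
    obtain ⟨u, ⟨hu, hup⟩, hu0⟩ : ∃ u ∈ D i ⊓ perp hQ A, u ≠ 0 := by
      refine (Submodule.ne_bot_iff _).1 fun h => ?_
      rw [h, finrank_bot] at h1
      omega
    obtain ⟨b, hb, hbu, hbQ⟩ := exists_value_pairing hQ hU (hd i) hu hu0 (c := η)
    exact hbu (hup b ((hmemA b).2 ⟨hb, hl' b hb hbQ⟩))
  exact hgv l ((hmemA v).1 (hA.ge hv)).2

/-- A root element with a singular member vector and a second vector outside that member. -/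
lemma four_exists_root {g : GL ι F} (hg : g ∈ M) (hgD : g ∉ decompositionStabilizer D) :
    ∃ j, ∃ c ∈ D j, Q c = 0 ∧ c ≠ 0 ∧ ∃ z, bform hQ c z = 0 ∧ (∃ l, l ≠ j ∧ proj hD.decomp.decomp l z ≠ 0) ∧
      Q (proj hD.decomp.decomp j z) ≠ 0 ∧ EAll Q M c z := by
  have hdec := hD.decomp.decomp
  have hd := fun i => four_dim hQ hD hS hn hMI hk ht hR i
  obtain ⟨g', hg', hg'D, i₁, a₀, ha₀, ha₀Q, hfix⟩ := four_exists_fixed hQ hD hS hn hMI hk ht hR hg hgD
  have hg'I := hMI hg'
  obtain ⟨i, a, ha, haQ, hleave⟩ := four_exists_leave hQ hD hS hn hMI hk ht hR hg'I hg'D ha₀Q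
  set z := (g' : Matrix ι ι F) *ᵥ a with hz
  have hzQ : Q z = Q a₀ := by rw [hz, mem_isometryGroup.1 hg'I, haQ]
  have haQ' : Q a ≠ 0 := haQ ▸ ha₀Q
  have hzQ' : Q z ≠ 0 := hzQ ▸ ha₀Q
  have hpair : reflection hQ hzQ' * reflection hQ ha₀Q ∈ M := by
    have h := mul_mem (mul_mem hg' (reflection_pair_mem hQ hD hS hn ha ha₀ haQ' ha₀Q haQ)) (inv_mem hg')
    rwa [show g' * (reflection hQ haQ' * reflection hQ ha₀Q) * g'⁻¹ =
      g' * reflection hQ haQ' * g'⁻¹ * (g' * reflection hQ ha₀Q * g'⁻¹) by group,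
      conj_reflection hQ hg'I haQ' hzQ' hz.symm, conj_reflection hQ hg'I ha₀Q ha₀Q hfix] at h
  obtain ⟨j, hj⟩ : ∃ j, Q (proj hdec j z) ≠ 0 := by
    by_contra hall
    push Not at hall
    apply hzQ'
    rw [q_sum_proj hQ hD]
    exact Finset.sum_eq_zero fun i _ => hall i
  obtain ⟨l, hlj, hl⟩ : ∃ l, l ≠ j ∧ proj hdec l z ≠ 0 := by
    by_contra hall
    push Not at hall
    refine hleave j ?_
    rw [← sum_proj hdec z, Finset.sum_eq_single j (fun l _ h => hall l h) (by simp)]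
    exact proj_mem hdec j z
  have hU := member_radical_free hQ hD j
  set y := proj hdec j z with hy
  have hyD : y ∈ D j := proj_mem hdec j z
  have hy0 : y ≠ 0 := fun h => hj (by rw [h, q_zero hQ])
  obtain ⟨c, ⟨hc, hcy⟩, hc0, hcQ⟩ := exists_singular hQ (S := D j ⊓ perp hQ (Submodule.span F {y})) (by
    have h := finrank_le_inf_perp hQ (D j) (Submodule.span F {y})
    rw [finrank_span_singleton hy0] at h
    have := hd j; omega)
  replace hcy : bform hQ y c = 0 := (mem_perp_span_singleton hQ).1 hcy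
  have hcz : bform hQ c z = 0 := by rw [b_proj hQ hD hc, ← hy, b_symm hQ]; exact hcy
  refine ⟨j, c, hc, hcQ, hc0, z, hcz, ⟨l, hlj, hl⟩, hj, fun s => ?_⟩
  obtain ⟨w, hw, hwc, hyw⟩ := exists_b_one_mem hQ (S := D j) (T := Submodule.span F {c}) (v := y) (by
    intro hm
    obtain ⟨p, hp, r, hr, e⟩ := Submodule.mem_sup.1 hm
    have hpD : p ∈ D j := (Submodule.span_singleton_le_iff_mem _ _).2 hc hp
    have hr0 : r = 0 := hU r (by rw [eq_sub_of_add_eq' e]; exact (D j).sub_mem hyD hpD) hr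
    obtain ⟨q, rfl⟩ := Submodule.mem_span_singleton.1 hp
    rw [hr0, add_zero] at e
    exact hj (by rw [← e, q_smul hQ, hcQ, mul_zero]))
  rw [mem_perp_span_singleton hQ] at hwc
  set s' := s * Q z with hs'
  have hcw : bform hQ c (s' • w) = 0 := bform_smul_right_zero hQ hwc s'
  have hwz : bform hQ (s' • w) z = s' := by
    rw [map_smul, LinearMap.smul_apply, b_proj hQ hD hw, ← hy, b_symm hQ w y, hyw, smul_eq_mul, mul_one]
  have hh := eichler_member_mem hQ hD hS hn hc ((D j).smul_mem s' hw) hcQ hcw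
  have hhD : eichler hQ hcQ hcw ∈ decompositionStabilizer D := by
    refine mem_decompositionStabilizer_of_maps hdec 1 fun m x hx => ?_
    rw [eichler_mulVec hQ]
    by_cases hmj : m = j
    · subst hmj
      exact (D m).sub_mem ((D m).sub_mem ((D m).add_mem hx ((D m).smul_mem _ hc))
        ((D m).smul_mem _ ((D m).smul_mem s' hw))) ((D m).smul_mem _ hc)
    · rw [member_b_eq_zero hQ hD (Ne.symm hmj) ((D j).smul_mem s' hw) hx, member_b_eq_zero hQ hD (Ne.symm hmj) hc hx]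
      simpa using hx
  have hhz : (eichler hQ hcQ hcw : Matrix ι ι F) *ᵥ z = z + s' • c := by
    rw [eichler_mulVec hQ, hwz, hcz]; simp
  have hQ' : Q (z + s' • c) ≠ 0 := by rw [← hhz, mem_isometryGroup.1 (hMI hh)]; exact hzQ'
  refine ⟨_, reflection_move_mem hQ hD hS (hMI hh) hh hhD hzQ' ha₀Q ha₀ hQ'
    hhz hpair, ?_⟩
  rw [reflection_shift_eq hQ hD hzQ' hcQ hcz hQ', hs', mul_div_cancel_right₀ _ hzQ']

/-- All multiples of some non-singular vector of another member. -/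
lemma four_exists_single {g : GL ι F} (hg : g ∈ M) (hgD : g ∉ decompositionStabilizer D) :
    ∃ j, ∃ c ∈ D j, Q c = 0 ∧ c ≠ 0 ∧ ∃ l, l ≠ j ∧ ∃ x ∈ D l, Q x ≠ 0 ∧ EAll Q M c x := by
  have hdec := hD.decomp.decomp
  have hd := fun i => four_dim hQ hD hS hn hMI hk ht hR i
  obtain ⟨j, c, hc, hcQ, hc0, z, hcz, ⟨l, hlj, hl⟩, hjz, hE⟩ := four_exists_root hQ hD hS hn hMI hk ht hR hg hgD
  obtain ⟨x', hx', hx'Q, hcx', hzx'⟩ := exists_aniso_perp hQ (member_radical_free hQ hD j) (hd j) hc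
    (proj_mem hdec j z) (fun h => absurd h hjz)
  obtain ⟨x, hx, hxz, hxQ⟩ := exists_value_pairing hQ (member_radical_free hQ hD l) (hd l) (proj_mem hdec l z) hl
    (c := Q x')
  rw [← b_proj hQ hD hx] at hxz
  have hxQ' : Q x ≠ 0 := hxQ ▸ hx'Q
  have hzx : bform hQ x' z = 0 := by rw [b_proj hQ hD hx', b_symm hQ]; exact hzx'
  have hh := reflection_pair_mem hQ hD hS hn hx hx' hxQ' hx'Q hxQ
  have hcalc : ∀ a, bform hQ x' a = 0 → ((reflection hQ hxQ' * reflection hQ hx'Q : GL ι F) : Matrix ι ι F) *ᵥ a =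
      a - ((Q x)⁻¹ * bform hQ x a) • x := fun a ha => by
    rw [Units.val_mul, ← Matrix.mulVec_mulVec]
    simp only [reflection_mulVec hQ, ha, mul_zero, zero_smul, sub_zero]
  refine ⟨j, c, hc, hcQ, hc0, l, hlj, x, hx, hxQ', ?_⟩
  have h := hE.displacement hQ hcQ hcz hh (hMI hh) (by
    rw [hcalc c (by rw [b_symm hQ]; exact hcx'), member_b_eq_zero hQ hD hlj hx hc]; simp)
  rw [hcalc z hzx, sub_sub_cancel_left, ← neg_smul] at h
  exact h.of_smul hQ (neg_ne_zero.2 (mul_ne_zero (inv_ne_zero hxQ') hxz))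

/-- A root element into another member gives all of them. -/
lemma four_fill {j l : Fin t} (hlj : l ≠ j) {c : ι → F} (hc : c ∈ D j) (hcQ : Q c = 0) {w : ι → F} (hw : w ∈ D l)
    (hw0 : w ≠ 0) (hE : EAll Q M c w) : ∀ x ∈ D l, EAll Q M c x := by
  have hd := fun i => four_dim hQ hD hS hn hMI hk ht hR i
  have hU := member_radical_free hQ hD l
  have hzero : ∀ x ∈ D l, bform hQ c x = 0 := fun x hx => member_b_eq_zero hQ hD (Ne.symm hlj) hc hx
  let A : Submodule F (ι → F) :=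
    { carrier := {x | x ∈ D l ∧ EAll Q M c x}
      zero_mem' := ⟨(D l).zero_mem, fun s => ⟨1, M.one_mem, by rw [smul_zero, eichlerMat_zero hQ]; rfl⟩⟩
      add_mem' := fun {a b} ha hb =>
        ⟨(D l).add_mem ha.1 hb.1, ha.2.add hQ hb.2 hcQ (hzero a ha.1) (hzero b hb.1)⟩
      smul_mem' := fun r a ha => ⟨(D l).smul_mem r ha.1, ha.2.smul hQ r⟩ }
  have step : ∀ a ∈ A, ∀ y ∈ D l, Q y ≠ 0 → bform hQ y a ≠ 0 → y ∈ A := by
    intro a ha y hy hyQ hya
    obtain ⟨y', hy', hcy', hy'Q⟩ := exists_value_perp hQ (member_radical_free hQ hD j) (hd j) hc hcQ (Q y)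
    have hy'Q' : Q y' ≠ 0 := hy'Q ▸ hyQ
    have hh := reflection_pair_mem hQ hD hS hn hy hy' hyQ hy'Q' hy'Q.symm
    have hcalc : ∀ b, bform hQ y' b = 0 → ((reflection hQ hyQ * reflection hQ hy'Q' : GL ι F) : Matrix ι ι F) *ᵥ b =
        b - ((Q y)⁻¹ * bform hQ y b) • y := fun b hb => by
      rw [Units.val_mul, ← Matrix.mulVec_mulVec]
      simp only [reflection_mulVec hQ, hb, mul_zero, zero_smul, sub_zero]
    have h := ha.2.displacement hQ hcQ (hzero a ha.1) hh (hMI hh) (by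
      rw [hcalc c (by rw [b_symm hQ]; exact hcy'), b_symm hQ y c, hzero y hy]; simp)
    rw [hcalc a (member_b_eq_zero hQ hD (Ne.symm hlj) hy' ha.1), sub_sub_cancel_left, ← neg_smul] at h
    exact ⟨hy, h.of_smul hQ (neg_ne_zero.2 (mul_ne_zero (inv_ne_zero hyQ) hya))⟩
  obtain ⟨y, hy, hyQ, hyw⟩ : ∃ y ∈ D l, Q y ≠ 0 ∧ bform hQ y w ≠ 0 := by
    by_contra hall
    push Not at hall
    exact hw0 (hU w hw fun u hu => by
      have := le_of_nonsingular_mem hQ hU (hR l) (A := perp hQ (Submodule.span F {w})) (fun y hy hyQ => by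
        rw [mem_perp_span_singleton hQ, b_symm hQ]; exact hall y hy hyQ) hu
      rw [mem_perp_span_singleton hQ, b_symm hQ] at this
      exact this)
  have hyA : y ∈ A := step w ⟨hw, hE⟩ y hy hyQ hyw
  have hall : ∀ v ∈ D l, Q v ≠ 0 → v ∈ A := by
    intro v hv hvQ
    by_cases hvy : bform hQ v y = 0
    swap
    · exact step y hyA v hv hvQ hvy
    obtain ⟨z, hz, hzQ, hzy, hzv⟩ := exists_common_nonorth hQ hU (hR l) hy hv hyQ hvQ (by rw [b_symm hQ]; exact hvy)
    exact step z (step y hyA z hz hzQ hzy) v hv hvQ (by rw [b_symm hQ]; exact hzv)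
  intro x hx
  exact (le_of_nonsingular_mem hQ hU (hR l) hall hx).2

/-- One filled member gives the whole root group. -/
lemma four_full {j l : Fin t} (hlj : l ≠ j) {c : ι → F} (hc : c ∈ D j) (hcQ : Q c = 0)
    (hfull : ∀ x ∈ D l, EAll Q M c x) : ∀ v, bform hQ c v = 0 → EAll Q M c v := by
  have hdec := hD.decomp.decomp
  have hd := fun i => four_dim hQ hD hS hn hMI hk ht hR i
  have hP : ∀ m, m ≠ j → ∀ x ∈ D m, EAll Q M c x := by
    intro m hmj
    by_cases hml : m = l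
    · subst hml; exact hfull
    obtain ⟨s, hsI, -, hs, hsfix⟩ := exists_member_swap hQ hD (Ne.symm hml : l ≠ m)
    obtain ⟨g, hgM, -, hgmaps, hgfix⟩ := exists_mem_extend hQ hD hS hn hsI hs (le_refl (D l))
      (fun r => exists_value_any hQ (member_radical_free hQ hD l) (by have := hd l; omega) r)
    have hgc : (g : Matrix ι ι F) *ᵥ c = c := by
      rw [hgfix c fun u hu => member_b_eq_zero hQ hD hlj hu hc, hsfix j (Ne.symm hlj) (Ne.symm hmj) c hc]
    have hgl : ∀ x ∈ D l, (g : Matrix ι ι F) *ᵥ x ∈ D m := fun x hx => by simpa using hgmaps l x hx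
    intro x hx
    obtain ⟨x', hx', rfl⟩ := map_eq_of_maps hQ hD hgl x hx
    have h := (hfull x' hx').conj hQ hcQ (member_b_eq_zero hQ hD (Ne.symm hlj) hc hx') hgM (hMI hgM)
    rwa [hgc] at h
  intro v hv
  have hterm : ∀ m, bform hQ c (proj hdec m v) = 0 ∧ EAll Q M c (proj hdec m v) := by
    intro m
    by_cases hmj : m = j
    · subst hmj
      have h0 : bform hQ c (proj hdec m v) = 0 := by rw [← b_proj hQ hD hc]; exact hv
      exact ⟨h0, eAll_member hQ hD hS hn hc (proj_mem hdec m v) hcQ h0⟩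
    · exact ⟨member_b_eq_zero hQ hD (Ne.symm hmj) hc (proj_mem hdec m v), hP m hmj _ (proj_mem hdec m v)⟩
  have hsum : ∀ s : Finset (Fin t), bform hQ c (∑ m ∈ s, proj hdec m v) = 0 ∧
      EAll Q M c (∑ m ∈ s, proj hdec m v) := by
    intro s
    induction s using Finset.induction_on with
    | empty => exact ⟨by rw [Finset.sum_empty, map_zero],
        fun r => ⟨1, M.one_mem, by rw [Finset.sum_empty, smul_zero, eichlerMat_zero hQ]; rfl⟩⟩
    | insert m s hm ih =>
      rw [Finset.sum_insert hm]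
      exact ⟨by rw [map_add, (hterm m).1, ih.1, add_zero], (hterm m).2.add hQ ih.2 hcQ (hterm m).1 ih.1⟩
  have h := (hsum Finset.univ).2
  rwa [sum_proj hdec] at h

/-- Overgroups of the stabiliser not inside it contain Omega. -/
theorem four_le_of_not_le (hM : ¬ M ≤ decompositionStabilizer D) : omegaGL Q ≤ M := by
  classical
  have hd := fun i => four_dim hQ hD hS hn hMI hk ht hR i
  obtain ⟨g, hg, hgD⟩ := SetLike.not_le_iff_exists.1 hM
  obtain ⟨j, c, hc, hcQ, hc0, l, hlj, x, hx, hxQ, hE⟩ := four_exists_single hQ hD hS hn hMI hk ht hR hg hgD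
  let Full : (ι → F) → Prop := fun u => ∀ v, bform hQ u v = 0 → EAll Q M u v
  have hcfull : Full c := four_full hQ hD hS hn hMI hk ht hR hlj hc hcQ
    (four_fill hQ hD hS hn hMI hk ht hR hlj hc hcQ hx (fun h => hxQ (by rw [h, q_zero hQ])) hE)
  have hspread : ∀ {a b : Fin t}, a ≠ b → ∀ u ∈ D a, Q u = 0 → u ≠ 0 → Full u →
      ∀ v ∈ D b, Q v = 0 → Full v := by
    intro a b hab u hu huQ hu0 hfu v hv hvQ
    have huv := member_b_eq_zero hQ hD hab hu hv
    exact four_full hQ hD hS hn hMI hk ht hR hab hv hvQ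
      (four_fill hQ hD hS hn hMI hk ht hR hab hv hvQ hu hu0 ((hfu v huv).swap hQ huQ hvQ huv))
  obtain ⟨c', hc', hc'0, hc'Q⟩ := exists_singular hQ (S := D l) (by have := hd l; omega)
  have hall : ∀ m, ∀ v ∈ D m, Q v = 0 → Full v := fun m v hv hvQ => by
    by_cases hmj : m = j
    · subst hmj
      exact hspread hlj c' hc' hc'Q hc'0 (hspread (Ne.symm hlj) c hc hcQ hc0 hcfull c' hc' hc'Q) v hv hvQ
    · exact hspread (Ne.symm hmj) c hc hcQ hc0 hcfull v hv hvQ
  refine omega_le_of_root_vectors hQ hn hMI {v | Q v = 0 ∧ ∃ a, v ∈ D a} ?_ ?_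
  · rintro v ⟨hvQ, a, hv⟩
    refine ⟨hvQ, fun w hvw => ?_⟩
    have h := hall a v hv hvQ w hvw 1
    rwa [one_smul] at h
  · intro u huQ hu0
    obtain ⟨a, ha⟩ : ∃ a, proj hD.decomp.decomp a u ≠ 0 := by
      by_contra hall'
      push Not at hall'
      exact hu0 (by rw [← sum_proj hD.decomp.decomp u]; exact Finset.sum_eq_zero fun b _ => hall' b)
    have hU := member_radical_free hQ hD a
    obtain ⟨z, hz, hzQ, hzu⟩ := exists_singular_b_ne_zero hQ (T := D a) (by have := hd a; omega)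
      (proj_mem hD.decomp.decomp a u)
      (fun x hx hx0 => by
        obtain ⟨w, hw, hwx⟩ := exists_mem_b_ne_zero hQ (fun h => hx0 (hU x hx h))
        exact ⟨w, hw, by rw [b_symm hQ]; exact hwx⟩) ha
    obtain ⟨f, hf, hfQ, hzf⟩ := exists_partner_mem hQ hU hz (fun h0 => hzu (by rw [h0]; simp)) hzQ
    exact ⟨z, ⟨hzQ, a, hz⟩, f, ⟨hfQ, a, hf⟩, by rw [hzf]; exact one_ne_zero,
      by rw [b_proj hQ hD hz]; exact hzu⟩

omit hS hMI

/-- The stabiliser is maximal. -/
theorem four_isMaximal : IsMaximalIn (omegaGL Q) (decompositionStabilizer D ⊓ omegaGL Q) := by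
  have hdec := hD.decomp.decomp
  refine ⟨lt_of_le_not_ge inf_le_right fun hle => ?_, fun M hPM hMΩ => ?_⟩
  · let i0 : Fin t := ⟨0, by omega⟩
    let i1 : Fin t := ⟨1, by omega⟩
    have h01 : i0 ≠ i1 := by simp [i0, i1]
    have hU := member_radical_free hQ hD i0
    obtain ⟨c, hc, hc0, hcQ⟩ := exists_singular hQ (S := D i0) (by rw [hdec.finrank_eq]; omega)
    obtain ⟨f, hf, -, hcf⟩ := exists_partner_mem hQ hU hc hc0 hcQ
    obtain ⟨a, ha, ha0⟩ := exists_ne_zero hdec i1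
    have hca := member_b_eq_zero hQ hD h01 hc ha
    obtain ⟨j, hj⟩ := image_mem_of_stabilizer (hle (eichler_mem_omega hQ hn hcQ hca)).1 hf
    refine not_mem_of_two hdec h01 ?_ ?_ j hj <;>
      rw [eichler_mulVec hQ, member_b_eq_zero hQ hD (Ne.symm h01) ha hf, hcf]
    · intro h0
      have := congrArg (bform hQ c) h0
      simp [-bform_apply, proj_of_mem hdec hf, proj_of_mem hdec ha, proj_of_mem hdec hc, h01,
        b_self_eq_zero hQ hcQ, hcf] at this
    · simp [-bform_apply, proj_of_mem hdec hf, proj_of_mem hdec ha, proj_of_mem hdec hc, Ne.symm h01, ha0]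
  · by_cases hMP : M ≤ decompositionStabilizer D
    · exact Or.inl (le_antisymm (le_inf hMP hMΩ) hPM)
    · exact Or.inr (le_antisymm hMΩ (four_le_of_not_le hQ hD hPM hn (hMΩ.trans omegaGL_le) hk ht hR hMP))

end CfsgLib.OrthGeo
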