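import Cfsg.Agent.OrthGeo.DecompPure
import Cfsg.Agent.Classical.TransvGL
import Cfsg.Agent.OrthGeo.Parity

/-! The stabiliser in Omega of an orthogonal decomposition into members of dimension at least three is
maximal, in odd characteristic. -/

set_option autoImplicit false
set_option linter.unusedSectionVars false

namespace CfsgLib.OrthGeo

open Cfsg Cfsg.Geo Module CfsgLib.DecompProj
open scoped Matrix MatrixGroups commutatorElement

variable {ι : Type} [Fintype ι] [DecidableEq ι] {F : Type*} [Field F] [Fintype F]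
variable {Q : (ι → F) → F} (hQ : IsNondegenerateQuadraticForm Q)
variable {t k : ℕ} {D : Fin t → Submodule F (ι → F)} (hD : IsOrthogonalMDecomposition Q k D)
variable {M : Subgroup (GL ι F)} (hS : decompositionStabilizer D ⊓ omegaGL Q ≤ M)
variable (hn : 5 ≤ Fintype.card ι) (hMI : M ≤ Cfsg.isometryGroup F Q)
include hQ hD

lemma map_eq_of_maps {g : GL ι F} {i j : Fin t} (h : ∀ x ∈ D i, (g : Matrix ι ι F) *ᵥ x ∈ D j) :
    ∀ y ∈ D j, ∃ x ∈ D i, (g : Matrix ι ι F) *ᵥ x = y := by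
  have heq : (D i).map (Matrix.toLin' (g : Matrix ι ι F)) = D j := by
    refine Submodule.eq_of_le_of_finrank_eq ?_ ?_
    · rintro _ ⟨x, hx, rfl⟩
      rw [Matrix.toLin'_apply]
      exact h x hx
    · rw [← (Submodule.equivMapOfInjective _ (toLin'_injective g) (D i)).finrank_eq, hD.decomp.decomp.finrank_eq,
        hD.decomp.decomp.finrank_eq]
  intro y hy
  obtain ⟨x, hx, rfl⟩ := heq.ge hy
  exact ⟨x, hx, (Matrix.toLin'_apply _ _).symm⟩

lemma q_sum_proj (x : ι → F) : Q x = ∑ i, Q (proj hD.decomp.decomp i x) := by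
  conv_lhs => rw [← sum_proj hD.decomp.decomp x]
  exact q_sum_orth hQ _ _ fun i _ j _ hij =>
    member_b_eq_zero hQ hD hij (proj_mem hD.decomp.decomp i x) (proj_mem hD.decomp.decomp j x)

/-- An isometry exchanging two members. -/
lemma exists_member_swap {a b : Fin t} (hab : a ≠ b) : ∃ g : GL ι F, g ∈ Cfsg.isometryGroup F Q ∧ g⁻¹ = g ∧
    (∀ i, ∀ x ∈ D i, (g : Matrix ι ι F) *ᵥ x ∈ D (Equiv.swap a b i)) ∧
    ∀ i, i ≠ a → i ≠ b → ∀ x ∈ D i, (g : Matrix ι ι F) *ᵥ x = x := by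
  have hd := hD.decomp.decomp
  obtain ⟨θ, hθ⟩ := hD.isometric a b
  have hθ' : ∀ w : D b, Q (θ.symm w : ι → F) = Q (w : ι → F) := fun w => by
    have := hθ (θ.symm w)
    rw [θ.apply_symm_apply] at this
    exact this.symm
  let pa : (ι → F) →ₗ[F] D a := (proj hd a).codRestrict (D a) (proj_mem hd a)
  let pb : (ι → F) →ₗ[F] D b := (proj hd b).codRestrict (D b) (proj_mem hd b)
  let L : (ι → F) →ₗ[F] (ι → F) := LinearMap.id - proj hd a - proj hd b +
    (D b).subtype ∘ₗ θ.toLinearMap ∘ₗ pa + (D a).subtype ∘ₗ θ.symm.toLinearMap ∘ₗ pb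
  have hL : ∀ x, L x = x - proj hd a x - proj hd b x + (θ (pa x) : ι → F) + (θ.symm (pb x) : ι → F) := fun _ => rfl
  have hPa : ∀ x, proj hd a (L x) = (θ.symm (pb x) : ι → F) := fun x => by
    rw [hL, map_add, map_add, map_sub, map_sub, proj_of_mem hd (proj_mem hd a x),
      if_pos rfl, proj_of_mem hd (proj_mem hd b x), if_neg hab,
      proj_of_mem hd (θ (pa x)).2, if_neg hab,
      proj_of_mem hd (θ.symm (pb x)).2, if_pos rfl]
    abel
  have hPb : ∀ x, proj hd b (L x) = (θ (pa x) : ι → F) := fun x => by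
    rw [hL, map_add, map_add, map_sub, map_sub, proj_of_mem hd (proj_mem hd a x),
      if_neg (Ne.symm hab), proj_of_mem hd (proj_mem hd b x), if_pos rfl,
      proj_of_mem hd (θ (pa x)).2, if_pos rfl,
      proj_of_mem hd (θ.symm (pb x)).2, if_neg (Ne.symm hab)]
    abel
  have hPo : ∀ x i, i ≠ a → i ≠ b → proj hd i (L x) = proj hd i x := fun x i hia hib => by
    rw [hL, map_add, map_add, map_sub, map_sub, proj_of_mem hd (proj_mem hd a x),
      if_neg hia, proj_of_mem hd (proj_mem hd b x), if_neg hib,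
      proj_of_mem hd (θ (pa x)).2, if_neg hib,
      proj_of_mem hd (θ.symm (pb x)).2, if_neg hia]
    abel
  have hLL : ∀ x, L (L x) = x := fun x => by
    have e1 : pa (L x) = θ.symm (pb x) := Subtype.ext (hPa x)
    have e2 : pb (L x) = θ (pa x) := Subtype.ext (hPb x)
    rw [hL (L x), hPa, hPb, e1, e2, θ.apply_symm_apply, θ.symm_apply_apply, hL]
    show _ = x
    simp only [pa, pb, LinearMap.codRestrict_apply]
    abel
  refine ⟨TransvGL.ofEquiv (LinearEquiv.ofInvolutive L hLL), mem_isometryGroup.2 fun x => ?_, ?_, fun i x hx => ?_,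
    fun i hia hib x hx => ?_⟩
  · rw [TransvGL.ofEquiv_mulVec]
    show Q (L x) = Q x
    rw [q_sum_proj hQ hD, q_sum_proj hQ hD x]
    refine Fintype.sum_equiv (Equiv.swap a b) _ _ fun i => ?_
    rcases eq_or_ne i a with rfl | hia
    · rw [Equiv.swap_apply_left, hPa, hθ']; rfl
    rcases eq_or_ne i b with rfl | hib
    · rw [Equiv.swap_apply_right, hPb, hθ]; rfl
    · rw [Equiv.swap_apply_of_ne_of_ne hia hib, hPo x i hia hib]
  · refine inv_eq_of_mul_eq_one_right (gl_ext fun x => ?_)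
    rw [Units.val_mul, ← Matrix.mulVec_mulVec, TransvGL.ofEquiv_mulVec, TransvGL.ofEquiv_mulVec, Units.val_one,
      Matrix.one_mulVec]
    exact hLL x
  · rw [TransvGL.ofEquiv_mulVec]
    show L x ∈ _
    rw [hL, proj_of_mem hd hx, proj_of_mem hd hx]
    have za : a ≠ i → pa x = 0 := fun h => Subtype.ext (by
      show proj hd a x = 0
      rw [proj_of_mem hd hx, if_neg h])
    have zb : b ≠ i → pb x = 0 := fun h => Subtype.ext (by
      show proj hd b x = 0
      rw [proj_of_mem hd hx, if_neg h])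
    rcases eq_or_ne i a with rfl | hia
    · rw [Equiv.swap_apply_left, if_pos rfl, if_neg (Ne.symm hab), zb (Ne.symm hab)]
      simp
    rcases eq_or_ne i b with rfl | hib
    · rw [Equiv.swap_apply_right, if_pos rfl, if_neg hab, za hab]
      simp
    · rw [Equiv.swap_apply_of_ne_of_ne hia hib, za (Ne.symm hia), zb (Ne.symm hib),
        if_neg (Ne.symm hia), if_neg (Ne.symm hib)]
      simpa using hx
  · rw [TransvGL.ofEquiv_mulVec]
    show L x = x
    have za : pa x = 0 := Subtype.ext (by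
      show proj hd a x = 0
      rw [proj_of_mem hd hx, if_neg (Ne.symm hia)])
    have zb : pb x = 0 := Subtype.ext (by
      show proj hd b x = 0
      rw [proj_of_mem hd hx, if_neg (Ne.symm hib)])
    rw [hL, proj_of_mem hd hx, proj_of_mem hd hx, za, zb, if_neg (Ne.symm hia), if_neg (Ne.symm hib)]
    simp

include hS in
/-- A three-cycle of members inside `M`. -/
lemma exists_member_cycle {a b c : Fin t} (hab : a ≠ b) (hbc : b ≠ c) (hac : a ≠ c) :
    ∃ g ∈ M, g ∈ Cfsg.isometryGroup F Q ∧ (∀ x ∈ D a, (g : Matrix ι ι F) *ᵥ x ∈ D c) ∧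
      (∀ x ∈ D c, (g : Matrix ι ι F) *ᵥ x ∈ D b) ∧ (∀ x ∈ D b, (g : Matrix ι ι F) *ᵥ x ∈ D a) := by
  obtain ⟨s, hsI, hs, hsD, -⟩ := exists_member_swap hQ hD hab
  obtain ⟨r, hrI, hr, hrD, -⟩ := exists_member_swap hQ hD hbc
  set π : Equiv.Perm (Fin t) := Equiv.swap a b * (Equiv.swap b c * (Equiv.swap a b * Equiv.swap b c)) with hπ
  have hmaps : ∀ i, ∀ x ∈ D i, ((⁅s, r⁆ : GL ι F) : Matrix ι ι F) *ᵥ x ∈ D (π i) := by
    intro i x hx
    rw [commutatorElement_def, hs, hr, Units.val_mul, Units.val_mul, Units.val_mul, ← Matrix.mulVec_mulVec,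
      ← Matrix.mulVec_mulVec, ← Matrix.mulVec_mulVec]
    exact hsD _ _ (hrD _ _ (hsD _ _ (hrD _ _ hx)))
  refine ⟨⁅s, r⁆, hS ⟨mem_decompositionStabilizer_of_maps hD.decomp.decomp π hmaps, commutator_mem_omegaGL hsI hrI⟩,
    omegaGL_le (commutator_mem_omegaGL hsI hrI), ?_, ?_, ?_⟩
  · have h := hmaps a
    rwa [show π a = c by simp [hπ, Equiv.swap_apply_def, hab, hbc, hac, Ne.symm hab, Ne.symm hbc, Ne.symm hac]] at h
  · have h := hmaps c
    rwa [show π c = b by simp [hπ, Equiv.swap_apply_def, hab, hbc, hac, Ne.symm hab, Ne.symm hbc, Ne.symm hac]] at h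
  · have h := hmaps b
    rwa [show π b = a by simp [hπ, Equiv.swap_apply_def, hab, hbc, hac, Ne.symm hab, Ne.symm hbc, Ne.symm hac]] at h

include hS hn hMI

/-- Either a pure root element exists or `M` is inside the stabiliser. -/
lemma exists_pure (h2 : (2 : F) ≠ 0) (hk : 3 ≤ k) (hq : 5 ≤ Fintype.card F ∨ 5 ≤ k)
    (ht : 4 ≤ t ∨ (3 ≤ k ∧ 3 ≤ t)) {η : F} (hη : η ≠ 0) (hpv : ∀ i, IsPerpValue (U := D i) hQ η) {g : GL ι F}
    (hg : g ∈ M) (hgD : g ∉ decompositionStabilizer D) :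
    ∃ j, ∃ c ∈ D j, Q c = 0 ∧ c ≠ 0 ∧ ∃ r, bform hQ c r = 0 ∧ r ∉ D j ∧ EAll Q M c r := by
  classical
  have hdec := hD.decomp.decomp
  have hgI := hMI hg
  have ht3 : 3 ≤ t := by omega
  have hdim : ∀ i, finrank F (D i) = k := hdec.finrank_eq
  obtain ⟨i₀, u, hu, huQ, hgu⟩ : ∃ i₀, ∃ u ∈ D i₀, Q u = 0 ∧ ∀ j, (g : Matrix ι ι F) *ᵥ u ∉ D j := by
    obtain ⟨i, x, hx, hgx⟩ := exists_not_mem_of_not_stabilizer hdec hgD
    obtain ⟨s, hs, s', hs', hsQ, hs'Q, rfl⟩ :=
      exists_two_singular hQ (member_radical_free hQ hD i) (by rw [hdim]; exact hk) hx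
    by_contra hcon
    push Not at hcon
    by_cases hb : bform hQ s s' = 0
    · obtain ⟨j, hj⟩ := hcon i (s + s') hx (by rw [q_add hQ, hsQ, hs'Q, hb]; simp)
      exact hgx j hj
    obtain ⟨j, hj⟩ := hcon i s hs hsQ
    obtain ⟨j', hj'⟩ := hcon i s' hs' hs'Q
    have hjj : j = j' := by
      by_contra hne
      exact hb (by rw [← isometry_b hQ hgI]; exact member_b_eq_zero hQ hD hne hj hj')
    subst hjj
    exact hgx j (by rw [Matrix.mulVec_add]; exact (D j).add_mem hj hj')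
  set z := (g : Matrix ι ι F) *ᵥ u with hz
  have hzQ : Q z = 0 := by rw [hz, mem_isometryGroup.1 hgI, huQ]
  have hu0 : u ≠ 0 := fun h0 => hgu i₀ (by rw [hz, h0, Matrix.mulVec_zero]; exact zero_mem _)
  have hW : ∀ w ∈ D i₀, bform hQ u w = 0 →
      bform hQ z ((g : Matrix ι ι F) *ᵥ w) = 0 ∧ EAll Q M z ((g : Matrix ι ι F) *ᵥ w) := fun w hw huw =>
    ⟨by rw [hz, isometry_b hQ hgI, huw],
      (eAll_member hQ hD hS hn hu hw huQ huw).conj hQ huQ huw hg hgI⟩
  by_cases hgen : ∃ j, ∃ w ∈ D i₀, bform hQ u w = 0 ∧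
      proj hdec j ((g : Matrix ι ι F) *ᵥ w) ∉ Submodule.span F {proj hdec j z}
  · obtain ⟨j, w, hw, huw, hwj⟩ := hgen
    obtain ⟨hzw, hE⟩ := hW w hw huw
    set w' := (g : Matrix ι ι F) *ᵥ w
    have hUj := member_radical_free hQ hD j
    have hPz := proj_mem hdec j z
    have hPw := proj_mem hdec j w'
    obtain ⟨a, ha, haQ, haz, haw⟩ : ∃ a ∈ D j, Q a = η ∧ bform hQ a (proj hdec j z) = 0 ∧
        bform hQ a (proj hdec j w') ≠ 0 := by
      by_cases hz0 : proj hdec j z = 0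
      · obtain ⟨a, ha, haQ, hab⟩ := exists_value_b_ne_zero hQ h2 hUj (by rw [hdim]; omega)
          (by rw [hdim]; exact hq.imp_right fun _ => by omega) hη hPw (fun h0 => hwj (by rw [h0]; exact zero_mem _))
        exact ⟨a, ha, haQ, by rw [hz0, map_zero], hab⟩
      by_cases hzQ' : Q (proj hdec j z) = 0
      swap
      · obtain ⟨hU1, hd1⟩ := inf_perp_split hQ hUj hPz (b_self_ne_zero hQ h2 hUj hzQ')
        obtain ⟨r, hr⟩ := orth_step hQ hPz (b_self_ne_zero hQ h2 hUj hzQ') hPw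
        rw [hdim] at hd1
        obtain ⟨a, ha, haQ, hab⟩ := exists_value_b_ne_zero hQ h2 hU1 (by omega) (hq.imp_right fun _ => by omega) hη hr
          (fun h0 => hwj (by rw [sub_eq_zero.1 h0]; exact Submodule.smul_mem _ _ (Submodule.mem_span_singleton_self _)))
        have haz : bform hQ a (proj hdec j z) = 0 := by rw [b_symm hQ]; exact (mem_perp_span_singleton hQ).1 ha.2
        rw [map_sub, map_smul, haz, smul_zero, sub_zero] at hab
        exact ⟨a, ha.1, haQ, haz, hab⟩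
      obtain ⟨a', ha', hza', ha'Q⟩ := hpv j _ hPz
      have ha'z : bform hQ a' (proj hdec j z) = 0 := by rw [b_symm hQ]; exact hza'
      by_cases hb : bform hQ (proj hdec j z) (proj hdec j w') = 0
      swap
      · refine ⟨a' + ((1 - bform hQ a' (proj hdec j w')) / bform hQ (proj hdec j z) (proj hdec j w')) • proj hdec j z,
          (D j).add_mem ha' ((D j).smul_mem _ hPz), ?_, ?_, ?_⟩
        · rw [q_add hQ, q_smul hQ, hzQ', map_smul, ha'z, ha'Q]; simp
        · rw [map_add, map_smul, LinearMap.add_apply, LinearMap.smul_apply, ha'z, b_self_eq_zero hQ hzQ']; simp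
        · rw [map_add, map_smul, LinearMap.add_apply, LinearMap.smul_apply, smul_eq_mul, div_mul_cancel₀ _ hb,
            add_sub_cancel]
          exact one_ne_zero
      obtain ⟨f, hf, hfQ, hzf, U', hle, hperp, hU', hd', hdecU⟩ := exists_hyp_split hQ h2 hUj hPz hz0 hzQ'
      have hy := hdecU _ hPw
      rw [hb, zero_smul, sub_zero] at hy
      set y := proj hdec j w' - bform hQ f (proj hdec j w') • proj hdec j z with hydef
      have hy0 : y ≠ 0 := fun h0 => hwj (by
        rw [hydef, sub_eq_zero] at h0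
        rw [h0]; exact Submodule.smul_mem _ _ (Submodule.mem_span_singleton_self _))
      have hsame : ∀ a ∈ U', bform hQ a (proj hdec j w') = bform hQ a y := fun a ha => by
        rw [hydef, map_sub, map_smul, b_symm hQ a (proj hdec j z), (hperp a ha).1, smul_zero, sub_zero]
      rw [hdim] at hd'
      by_cases hd2 : 2 ≤ finrank F U'
      · obtain ⟨a, ha, haQ, hab⟩ := exists_value_b_ne_zero hQ h2 hU' hd2 (hq.imp_right fun _ => by omega) hη hy hy0
        exact ⟨a, hle ha, haQ, by rw [b_symm hQ]; exact (hperp a ha).1, by rw [hsame a ha]; exact hab⟩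
      have ha'' := hdecU a' ha'
      rw [hza', zero_smul, sub_zero] at ha''
      set a'' := a' - bform hQ f a' • proj hdec j z with ha''def
      have ha''Q : Q a'' = η := by
        rw [ha''def, q_sub hQ, q_smul hQ, hzQ', map_smul, ha'z, ha'Q]; simp
      have ha''0 : a'' ≠ 0 := fun h0 => hη (by rw [← ha''Q, h0, q_zero hQ])
      have hspan : Submodule.span F {a''} = U' := Submodule.eq_of_le_of_finrank_le
        ((Submodule.span_singleton_le_iff_mem _ _).2 ha'') (by rw [finrank_span_singleton ha''0]; omega)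
      obtain ⟨r, hr⟩ := Submodule.mem_span_singleton.1 (hspan ▸ hy : y ∈ Submodule.span F {a''})
      refine ⟨a'', hle ha'', ha''Q, by rw [b_symm hQ]; exact (hperp a'' ha'').1, ?_⟩
      rw [hsame a'' ha'', ← hr, map_smul, b_self hQ, ha''Q, smul_eq_mul]
      exact mul_ne_zero (fun h0 => hy0 (by rw [← hr, h0, zero_smul])) (mul_ne_zero h2 hη)
    rw [← b_proj hQ hD ha] at haz haw
    obtain ⟨m, hm, m', hm', hmm⟩ := Finset.one_lt_card.1 (show 1 < (Finset.univ.erase j).card by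
      rw [Finset.card_erase_of_mem (Finset.mem_univ j), Finset.card_univ, Fintype.card_fin]; omega)
    obtain ⟨a', ha', hza', ha'Q⟩ := hpv m (proj hdec m z) (proj_mem hdec m z)
    obtain ⟨a'', ha'', hza'', ha''Q⟩ := hpv m' (proj hdec m' z) (proj_mem hdec m' z)
    rw [b_symm hQ, ← b_proj hQ hD ha'] at hza'
    rw [b_symm hQ, ← b_proj hQ hD ha''] at hza''
    exact pure_of_short hQ hD hS hn hMI h2 hk hq ht hη hpv hzQ ha haQ haz
      (isolate hQ hD hS hn hMI h2 hzQ hzw hE ha ha' ha'' (Ne.symm (Finset.ne_of_mem_erase hm))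
        (Ne.symm (Finset.ne_of_mem_erase hm')) hmm hη haQ ha'Q ha''Q haz hza' hza'' haw) (hgu j)
  push Not at hgen
  obtain ⟨e, he, hue, heQ⟩ := hpv i₀ u hu
  obtain ⟨hzy, hE⟩ := hW e he hue
  set y := (g : Matrix ι ι F) *ᵥ e
  have hyQ : Q y = η := by rw [mem_isometryGroup.1 hgI, heQ]
  choose lam hlam using fun j => Submodule.mem_span_singleton.1 (hgen j e he hue)
  have hlam' : ∀ j, proj hdec j y = lam j • proj hdec j z := fun j => (hlam j).symm
  obtain ⟨m₀, hm₀⟩ : ∃ m, Q (proj hdec m z) ≠ 0 := by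
    by_contra hall
    push Not at hall
    apply hη
    rw [← hyQ, q_sum_proj hQ hD]
    exact Finset.sum_eq_zero fun j _ => by rw [hlam', q_smul hQ, hall, mul_zero]
  obtain ⟨m₁, hm10, hm₁⟩ : ∃ m, m ≠ m₀ ∧ Q (proj hdec m z) ≠ 0 := by
    by_contra hall
    push Not at hall
    apply hm₀
    have h := q_sum_proj hQ hD z
    rw [hzQ, Finset.sum_eq_single m₀ (fun j _ hj => hall j hj) (by simp)] at h
    exact h.symm
  have hne : ∀ m, Q (proj hdec m z) ≠ 0 → proj hdec m z ≠ 0 := fun m hm h0 => hm (by rw [h0, q_zero hQ])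
  have hnons : ∀ i : Fin t, ∃ m, m ≠ i ∧ Q (proj hdec m z) ≠ 0 := fun i => by
    by_cases h : m₀ = i
    · exact ⟨m₁, h ▸ hm10, hm₁⟩
    · exact ⟨m₀, h, hm₀⟩
  by_cases hq5 : 5 ≤ Fintype.card F
  · obtain ⟨s, hs⟩ : ∃ s : F, s ∉ ({0, (lam m₁ - lam m₀) / η, (lam m₁ - lam m₀) / (2 * η)} : Finset F) := by
      by_contra hall
      push Not at hall
      have h1 := Finset.card_le_card (s := (Finset.univ : Finset F)) (fun m _ => hall m)
      have h3 := Finset.card_insert_le (0 : F) ({(lam m₁ - lam m₀) / η, (lam m₁ - lam m₀) / (2 * η)} : Finset F)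
      have h4 := Finset.card_le_two (a := (lam m₁ - lam m₀) / η) (b := (lam m₁ - lam m₀) / (2 * η))
      rw [Finset.card_univ] at h1
      omega
    simp only [Finset.mem_insert, Finset.mem_singleton, not_or] at hs
    refine pure_of_proportional hQ hD hS hn hMI h2 hk hq ht3 hη hpv hzQ hzy hE (hyQ ▸ hη) lam hlam' hm10
      (hne _ hm₁) (hne _ hm₀) (hnons m₁) ⟨s, hs.1, ?_, ?_⟩
    · intro h0
      refine hs.2.1 ?_
      rw [eq_div_iff hη]
      rw [hyQ] at h0
      linear_combination h0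
    · intro h0
      refine hs.2.2 ?_
      rw [eq_div_iff (mul_ne_zero h2 hη)]
      rw [hyQ] at h0
      linear_combination h0
  have hk5 : 5 ≤ k := hq.resolve_left hq5
  set T : Finset (Fin t) := Finset.univ.filter fun m => proj hdec m z ≠ 0 with hT
  have hTcard : k ≤ T.card + 1 := by
    have hle : (D i₀ ⊓ perp hQ (Submodule.span F {u})).map (Matrix.toLin' (g : Matrix ι ι F)) ≤
        Submodule.span F ((fun m => proj hdec m z) '' (T : Set (Fin t))) := by
      rintro _ ⟨x, hx, rfl⟩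
      rw [Matrix.toLin'_apply, ← sum_proj hdec ((g : Matrix ι ι F) *ᵥ x)]
      refine Submodule.sum_mem _ fun m _ => ?_
      obtain ⟨r, hr⟩ := Submodule.mem_span_singleton.1 (hgen m x hx.1 ((mem_perp_span_singleton hQ).1 hx.2))
      rw [← hr]
      by_cases hm : proj hdec m z = 0
      · rw [hm, smul_zero]; exact zero_mem _
      · exact Submodule.smul_mem _ _ (Submodule.subset_span ⟨m, by simp [hT, hm], rfl⟩)
    have h1 := Submodule.finrank_mono hle
    rw [← (Submodule.equivMapOfInjective _ (toLin'_injective g) _).finrank_eq] at h1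
    have h3 := finrank_le_inf_perp hQ (D i₀) (Submodule.span F {u})
    rw [finrank_span_singleton hu0, hdim] at h3
    rw [← Finset.coe_image] at h1
    have h4 := finrank_span_finset_le_card (R := F) (T.image fun m => proj hdec m z)
    have h5 := Finset.card_image_le (s := T) (f := fun m => proj hdec m z)
    unfold Set.finrank at h4
    omega
  obtain ⟨i, hi, l, hl, hil, heq⟩ := Finset.exists_ne_map_eq_of_card_lt_of_maps_to (s := T)
    (t := (Finset.univ : Finset F)) (by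
      rw [Finset.card_univ]
      have hodd : Fintype.card F % 2 = 1 := FiniteField.odd_card_of_char_ne_two fun hch => h2 (by
        have : CharP F 2 := by rw [← hch]; exact ringChar.charP F
        exact_mod_cast CharP.cast_eq_zero F 2)
      omega) (f := lam) (fun a _ => Finset.mem_univ _)
  simp only [hT, Finset.mem_filter, Finset.mem_univ, true_and] at hi hl
  refine pure_of_proportional hQ hD hS hn hMI h2 hk hq ht3 hη hpv hzQ hzy hE (hyQ ▸ hη) lam hlam' hil hi hl
    (hnons i) ⟨1, one_ne_zero, ?_, ?_⟩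
  · rw [heq, sub_self, sub_zero, one_mul, hyQ]; exact hη
  · rw [heq, sub_self, sub_zero, one_mul, hyQ]; exact mul_ne_zero h2 hη

/-- A long root element across two members gives all root elements from the one member to the other. -/
lemma full_of_long (h2 : (2 : F) ≠ 0) (hk : 3 ≤ k) {η : F} (hη : η ≠ 0) (hpv : ∀ i, IsPerpValue (U := D i) hQ η)
    {j l : Fin t} (hjl : j ≠ l) {c c' : ι → F} (hc : c ∈ D j) (hcQ : Q c = 0) (hc' : c' ∈ D l) (hc'Q : Q c' = 0)
    (hc'0 : c' ≠ 0) (h : EAll Q M c c') : ∀ x ∈ D l, EAll Q M c x := by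
  have hzero : ∀ x ∈ D l, bform hQ c x = 0 := fun x hx => member_b_eq_zero hQ hD hjl hc hx
  let A : Submodule F (ι → F) :=
    { carrier := {x | x ∈ D l ∧ EAll Q M c x}
      zero_mem' := ⟨(D l).zero_mem, fun s => ⟨1, M.one_mem, by rw [smul_zero, eichlerMat_zero hQ]; rfl⟩⟩
      add_mem' := fun {a b} ha hb =>
        ⟨(D l).add_mem ha.1 hb.1, ha.2.add hQ hb.2 hcQ (hzero a ha.1) (hzero b hb.1)⟩
      smul_mem' := fun r a ha => ⟨(D l).smul_mem r ha.1, ha.2.smul hQ r⟩ }
  have hU := member_radical_free hQ hD l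
  have hTn : ∀ x ∈ D l, x ≠ 0 → ∃ w ∈ D l, bform hQ x w ≠ 0 := fun x hx hx0 => by
    obtain ⟨w, hw, hwx⟩ := exists_mem_b_ne_zero hQ (fun h => hx0 (hU x hx h))
    exact ⟨w, hw, by rw [b_symm hQ]; exact hwx⟩
  have hd : 3 ≤ finrank F (D l) := by rw [hD.decomp.decomp.finrank_eq]; exact hk
  have step : ∀ v ∈ D l, Q v = 0 → ∀ x ∈ A, bform hQ v x ≠ 0 → v ∈ A := by
    intro v hv hvQ x hx hvx
    obtain ⟨e, he, hve, heQ⟩ := hpv l v hv
    have disp : ∀ e' ∈ D l, ∀ (hve' : bform hQ v e' = 0), (eichler hQ hvQ hve' : Matrix ι ι F) *ᵥ x - x ∈ A := by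
      intro e' he' hve'
      have hg := eichler_member_mem hQ hD hS hn hv he' hvQ hve'
      refine ⟨?_, hx.2.displacement hQ hcQ (hzero x hx.1) hg (hMI hg) (eichler_fix hQ hvQ hve'
        (member_b_eq_zero hQ hD (Ne.symm hjl) hv hc) (member_b_eq_zero hQ hD (Ne.symm hjl) he' hc))⟩
      rw [eichler_mulVec hQ]
      exact (D l).sub_mem ((D l).sub_mem ((D l).sub_mem ((D l).add_mem hx.1 ((D l).smul_mem _ hv))
        ((D l).smul_mem _ he')) ((D l).smul_mem _ hv)) hx.1
    have h1 := A.add_mem (disp e he hve) (disp (-e) ((D l).neg_mem he) (by rw [map_neg, hve, neg_zero]))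
    rw [eichler_mulVec hQ, eichler_mulVec hQ, q_neg hQ, heQ, map_neg, LinearMap.neg_apply] at h1
    refine (A.smul_mem_iff (mul_ne_zero (mul_ne_zero h2 hη) hvx)).1 ?_
    convert A.neg_mem h1 using 1
    module
  have hc'A : c' ∈ A := ⟨hc', h⟩
  have hsing : ∀ v ∈ D l, Q v = 0 → v ∈ A := by
    intro v hv hvQ
    by_cases hv0 : v = 0
    · rw [hv0]; exact A.zero_mem
    by_cases hvc : bform hQ v c' = 0
    swap
    · exact step v hv hvQ c' hc'A hvc
    obtain ⟨e, he, heQ, hec⟩ := exists_singular_b_ne_zero hQ hd hc' hTn hc'0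
    have heA := step e he heQ c' hc'A hec
    by_cases hve : bform hQ v e = 0
    swap
    · exact step v hv hvQ e heA hve
    obtain ⟨f, hf, hfQ, hfv⟩ := exists_singular_b_ne_zero hQ hd hv hTn hv0
    have hvf : bform hQ v f ≠ 0 := by rw [b_symm hQ]; exact hfv
    by_cases hfc : bform hQ f c' = 0
    swap
    · exact step v hv hvQ f (step f hf hfQ c' hc'A hfc) hvf
    by_cases hfe : bform hQ f e = 0
    swap
    · exact step v hv hvQ f (step f hf hfQ e heA hfe) hvf
    have hs : f + c' ∈ A := step _ ((D l).add_mem hf hc') (by rw [q_add hQ, hfQ, hc'Q, hfc]; simp) e heA (by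
      rw [map_add, LinearMap.add_apply, hfe, zero_add, b_symm hQ]; exact hec)
    exact step v hv hvQ _ hs (by rw [map_add, hvc, add_zero]; exact hvf)
  intro x hx
  obtain ⟨a, ha, b, hb, haQ, hbQ, rfl⟩ := exists_two_singular hQ hU hd hx
  exact (A.add_mem (hsing a ha haQ) (hsing b hb hbQ)).2

/-- In odd characteristic the stabiliser of an orthogonal decomposition into members of dimension at least
three is maximal in Omega. -/
theorem decomp_le_of_not_le (h2 : (2 : F) ≠ 0) (hk : 3 ≤ k) (hq : 5 ≤ Fintype.card F ∨ 5 ≤ k)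
    (ht : 4 ≤ t ∨ (3 ≤ k ∧ 3 ≤ t)) (hM : ¬ M ≤ decompositionStabilizer D) : omegaGL Q ≤ M := by
  classical
  have hdec := hD.decomp.decomp
  have ht3 : 3 ≤ t := by omega
  have hdim : ∀ i, finrank F (D i) = k := hdec.finrank_eq
  let i0 : Fin t := ⟨0, by omega⟩
  obtain ⟨η, hη, hη0⟩ := exists_perp_value hQ h2 (member_radical_free hQ hD i0) (by rw [hdim]; exact hk)
  have hpv : ∀ i, IsPerpValue (U := D i) hQ η := by
    intro i v hv
    obtain ⟨θ, hθ⟩ := hD.isometric i0 i
    obtain ⟨a, ha, hva, haQ⟩ := hη0 (θ.symm ⟨v, hv⟩ : D i0) (θ.symm ⟨v, hv⟩).2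
    refine ⟨(θ ⟨a, ha⟩ : D i), (θ ⟨a, ha⟩).2, ?_, by rw [hθ, haQ]⟩
    rw [← hva]
    have h1 := hθ (θ.symm ⟨v, hv⟩ + ⟨a, ha⟩)
    rw [map_add, θ.apply_symm_apply, Submodule.coe_add, Submodule.coe_add] at h1
    have h3 := hθ (θ.symm ⟨v, hv⟩)
    rw [θ.apply_symm_apply] at h3
    simp only [bform_apply, QuadraticMap.polar]
    rw [h1, hθ]
    simp only [← h3]
  obtain ⟨g, hg, hgD⟩ := SetLike.not_le_iff_exists.1 hM
  obtain ⟨j, c, hc, hcQ, hc0, r, hcr, hr, hE⟩ := exists_pure hQ hD hS hn hMI h2 hk hq ht hη hpv hg hgD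
  obtain ⟨l, hlj, hrl⟩ : ∃ l, l ≠ j ∧ proj hdec l r ≠ 0 := by
    by_contra hall
    push Not at hall
    apply hr
    rw [← sum_proj hdec r, Finset.sum_eq_single j (fun l _ h => hall l h) (by simp)]
    exact proj_mem hdec j r
  obtain ⟨c', hc', hc'Q, hc'0, hcc'⟩ := long_of_missing hQ hD hS hn hMI h2 hk hq ht3 hη hpv (l := l) hcQ hcr hE
    (by rw [proj_of_mem hdec hc, if_neg hlj]) hrl
  let Full : Fin t → Fin t → Prop := fun a b => ∀ v ∈ D a, Q v = 0 → ∀ x ∈ D b, EAll Q M v x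
  have hlj' : Full l j := fun v hv hvQ => full_of_long hQ hD hS hn hMI h2 hk hη hpv hlj hv hvQ hc hcQ hc0
    ((full_of_long hQ hD hS hn hMI h2 hk hη hpv (Ne.symm hlj) hc hcQ hc' hc'Q hc'0 hcc' v hv).swap hQ hcQ hvQ
      (member_b_eq_zero hQ hD (Ne.symm hlj) hc hv))
  have hsymm : ∀ {a b}, a ≠ b → Full a b → Full b a := by
    intro a b hab hf v hv hvQ
    obtain ⟨s, hs, hs0, hsQ⟩ := exists_singular hQ (S := D a) (by rw [hdim]; exact hk)
    exact full_of_long hQ hD hS hn hMI h2 hk hη hpv (Ne.symm hab) hv hvQ hs hsQ hs0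
      ((hf s hs hsQ v hv).swap hQ hsQ hvQ (member_b_eq_zero hQ hD hab hs hv))
  have hcyc : ∀ {a b p}, a ≠ b → p ≠ a → p ≠ b → Full a b → Full a p := by
    intro a b p hab hpa hpb hf
    obtain ⟨g, hg, hgI, h1, h2', h3⟩ := exists_member_cycle hQ hD hS (a := a) (b := b) (c := p) hab (Ne.symm hpb)
      (Ne.symm hpa)
    refine hsymm hpa fun v hv hvQ x hx => ?_
    obtain ⟨v', hv', rfl⟩ := map_eq_of_maps hQ hD h1 v hv
    obtain ⟨x', hx', rfl⟩ := map_eq_of_maps hQ hD h3 x hx
    rw [mem_isometryGroup.1 hgI] at hvQ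
    exact (hf v' hv' hvQ x' hx').conj hQ hvQ (member_b_eq_zero hQ hD hab hv' hx') hg hgI
  have hfromj : ∀ p, p ≠ j → Full j p := fun p hp => by
    by_cases hpl : p = l
    · subst hpl; exact hsymm hlj hlj'
    · exact hcyc (Ne.symm hlj) hp hpl (hsymm hlj hlj')
  have hall : ∀ a b, a ≠ b → Full a b := by
    intro a b hab
    by_cases haj : a = j
    · subst haj; exact hfromj b (Ne.symm hab)
    by_cases hbj : b = j
    · subst hbj; exact hsymm (Ne.symm hab) (hfromj a haj)
    exact hcyc haj (Ne.symm hab) hbj (hsymm (Ne.symm haj) (hfromj a haj))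
  refine omega_le_of_root_vectors hQ hn hMI {v | Q v = 0 ∧ ∃ a, v ∈ D a} ?_ ?_
  · rintro v ⟨hvQ, a, hv⟩
    refine ⟨hvQ, fun w hvw => ?_⟩
    have hP : ∀ b, bform hQ v (proj hdec b w) = 0 ∧ EAll Q M v (proj hdec b w) := by
      intro b
      by_cases hba : a = b
      · subst hba
        have h0 : bform hQ v (proj hdec a w) = 0 := by rw [← b_proj hQ hD hv]; exact hvw
        exact ⟨h0, eAll_member hQ hD hS hn hv (proj_mem hdec a w) hvQ h0⟩
      · exact ⟨member_b_eq_zero hQ hD hba hv (proj_mem hdec b w), hall a b hba v hv hvQ _ (proj_mem hdec b w)⟩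
    have hsum : ∀ S : Finset (Fin t), bform hQ v (∑ b ∈ S, proj hdec b w) = 0 ∧
        EAll Q M v (∑ b ∈ S, proj hdec b w) := by
      intro S
      induction S using Finset.induction_on with
      | empty => exact ⟨by rw [Finset.sum_empty, map_zero], fun s => ⟨1, M.one_mem, by rw [Finset.sum_empty, smul_zero, eichlerMat_zero hQ]; rfl⟩⟩
      | insert b S hb ih =>
        rw [Finset.sum_insert hb]
        exact ⟨by rw [map_add, (hP b).1, ih.1, add_zero], (hP b).2.add hQ ih.2 hvQ (hP b).1 ih.1⟩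
    have h := (hsum Finset.univ).2 1
    rwa [sum_proj hdec, one_smul] at h
  · intro u huQ hu0
    obtain ⟨a, ha⟩ : ∃ a, proj hdec a u ≠ 0 := by
      by_contra hall'
      push Not at hall'
      exact hu0 (by rw [← sum_proj hdec u]; exact Finset.sum_eq_zero fun b _ => hall' b)
    have hU := member_radical_free hQ hD a
    obtain ⟨z, hz, hzQ, hzu⟩ := exists_singular_b_ne_zero hQ (T := D a) (by rw [hdim]; exact hk) (proj_mem hdec a u)
      (fun x hx hx0 => by
        obtain ⟨w, hw, hwx⟩ := exists_mem_b_ne_zero hQ (fun h => hx0 (hU x hx h))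
        exact ⟨w, hw, by rw [b_symm hQ]; exact hwx⟩) ha
    obtain ⟨f, hf, hfQ, hzf, -⟩ := exists_hyp_split hQ h2 hU hz (fun h0 => hzu (by rw [h0]; simp)) hzQ
    exact ⟨z, ⟨hzQ, a, hz⟩, f, ⟨hfQ, a, hf⟩, by rw [hzf]; exact one_ne_zero,
      by rw [b_proj hQ hD hz]; exact hzu⟩

omit hS hMI

/-- The theorem: maximality. -/
theorem decomp_isMaximal (h2 : (2 : F) ≠ 0) (hk : 3 ≤ k) (hq : 5 ≤ Fintype.card F ∨ 5 ≤ k)
    (ht : 4 ≤ t ∨ (3 ≤ k ∧ 3 ≤ t)) :
    IsMaximalIn (omegaGL Q) (decompositionStabilizer D ⊓ omegaGL Q) := by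
  have hdec := hD.decomp.decomp
  refine ⟨lt_of_le_not_ge inf_le_right fun hle => ?_, fun M hPM hMΩ => ?_⟩
  · let i0 : Fin t := ⟨0, by omega⟩
    let i1 : Fin t := ⟨1, by omega⟩
    have h01 : i0 ≠ i1 := by simp [i0, i1]
    have hU := member_radical_free hQ hD i0
    obtain ⟨c, hc, hc0, hcQ⟩ := exists_singular hQ (S := D i0) (by rw [hdec.finrank_eq]; exact hk)
    obtain ⟨f, hf, -, hcf, -⟩ := exists_hyp_split hQ h2 hU hc hc0 hcQ
    obtain ⟨a, ha, ha0⟩ := exists_ne_zero hdec i1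
    have hca := member_b_eq_zero hQ hD h01 hc ha
    obtain ⟨j, hj⟩ := image_mem_of_stabilizer (hle (eichler_mem_omega hQ hn hcQ hca)).1 hf
    refine not_mem_of_two hdec h01 ?_ ?_ j hj <;>
      rw [eichler_mulVec hQ, member_b_eq_zero hQ hD (Ne.symm h01) ha hf, hcf]
    · intro h0
      have := congrArg (bform hQ c) h0
      simp [-bform_apply, proj_of_mem hdec hf, proj_of_mem hdec ha, proj_of_mem hdec hc, h01,
        b_self_eq_zero hQ hcQ, hcf] at this
    · simp [-bform_apply, proj_of_mem hdec hf, proj_of_mem hdec ha, proj_of_mem hdec hc, Ne.symm h01, ha0]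
  · by_cases hMP : M ≤ decompositionStabilizer D
    · exact Or.inl (le_antisymm (le_inf hMP hMΩ) hPM)
    · exact Or.inr (le_antisymm hMΩ (decomp_le_of_not_le hQ hD hPM hn (hMΩ.trans omegaGL_le) h2 hk hq ht hMP))

end CfsgLib.OrthGeo
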