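import Cfsg.Agent.OrthGeo.DecompMember
import Cfsg.Agent.OrthGeo.DecompOvergroup

/-! Monomial isometries of an orthogonal decomposition, any characteristic: every one of them agrees with an
element of the stabiliser in Omega outside any one member-subspace taking all values. -/

set_option autoImplicit false
set_option linter.unusedSectionVars false

namespace CfsgLib.OrthGeo

open Cfsg Cfsg.Geo Module CfsgLib.DecompProj
open scoped Matrix MatrixGroups commutatorElement

variable {ι : Type} [Fintype ι] [DecidableEq ι] {F : Type*} [Field F] [Fintype F]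
variable {Q : (ι → F) → F} (hQ : IsNondegenerateQuadraticForm Q)
include hQ

lemma conj_mem_omegaGL (hn : 5 ≤ Fintype.card ι) {h g : GL ι F} (hh : h ∈ Cfsg.isometryGroup F Q)
    (hg : g ∈ omegaGL Q) : h * g * h⁻¹ ∈ omegaGL Q := by
  rw [omegaGL_eq_eichlerGroup hQ hn] at hg ⊢
  exact conj_mem_eichlerGroup hQ hh hg

/-- The reflections of a subspace. -/
def reflSet (U : Submodule F (ι → F)) : Set (GL ι F) :=
  {g | ∃ (x : ι → F) (_ : x ∈ U) (hx : Q x ≠ 0), g = reflection hQ hx}

lemma reflSet_closure_le (U : Submodule F (ι → F)) :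
    Subgroup.closure (reflSet hQ U) ≤ Cfsg.isometryGroup F Q := (Subgroup.closure_le _).2 (by
  rintro _ ⟨x, -, hx, rfl⟩; exact reflection_mem hQ hx)

/-- Modulo Omega every isometry is a product of reflections in any subspace taking all values. -/
lemma exists_closure_mul_mem_omega (hn : 5 ≤ Fintype.card ι) {U : Submodule F (ι → F)}
    (hval : ∀ c : F, ∃ x ∈ U, Q x = c) {g : GL ι F} (hg : g ∈ Cfsg.isometryGroup F Q) :
    ∃ c ∈ Subgroup.closure (reflSet hQ U), g * c ∈ omegaGL Q := by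
  have hC := reflSet_closure_le hQ U
  let G₀ : Subgroup (GL ι F) :=
    { carrier := {g | g ∈ Cfsg.isometryGroup F Q ∧ ∃ c ∈ Subgroup.closure (reflSet hQ U), g * c ∈ omegaGL Q}
      one_mem' := ⟨one_mem _, 1, one_mem _, by rw [one_mul]; exact one_mem _⟩
      mul_mem' := by
        rintro a b ⟨haI, c, hc, hac⟩ ⟨hbI, c', hc', hbc⟩
        refine ⟨mul_mem haI hbI, c' * c, mul_mem hc' hc, ?_⟩
        have h1 := conj_mem_omegaGL hQ hn (inv_mem (hC hc)) hbc
        rw [inv_inv] at h1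
        have h2 := mul_mem hac h1
        rwa [show a * c * (c⁻¹ * (b * c') * c) = a * b * (c' * c) by group] at h2
      inv_mem' := by
        rintro a ⟨haI, c, hc, hac⟩
        refine ⟨inv_mem haI, c⁻¹, inv_mem hc, ?_⟩
        have h1 := inv_mem (conj_mem_omegaGL hQ hn (hC hc) hac)
        rwa [show (c * (a * c) * c⁻¹)⁻¹ = a⁻¹ * c⁻¹ by group] at h1 }
  refine (isometry_mem_of_generators hQ G₀ (fun a ha => ⟨reflection_mem hQ ha, ?_⟩)
    (fun s s' hs _ hw => ⟨eichler_mem_isometryGroup hQ hs hw, 1, one_mem _, by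
      rw [mul_one]; exact eichler_mem_omega hQ hn hs hw⟩) hg).2
  obtain ⟨x, hx, hxQ⟩ := hval (Q a)
  exact ⟨reflection hQ (hxQ ▸ ha : Q x ≠ 0), Subgroup.subset_closure ⟨x, hx, _, rfl⟩,
    reflection_pair_mem_omega_of_eq hQ hn ha _ hxQ.symm⟩

variable {t k : ℕ} {D : Fin t → Submodule F (ι → F)} (hD : IsOrthogonalMDecomposition Q k D)
include hD

lemma reflection_maps_member {l : Fin t} {b : ι → F} (hb : b ∈ D l) (hbQ : Q b ≠ 0) {j : Fin t} {y : ι → F}
    (hy : y ∈ D j) : (reflection hQ hbQ : Matrix ι ι F) *ᵥ y ∈ D j := by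
  rw [reflection_mulVec hQ]
  by_cases hjl : j = l
  · subst hjl; exact (D j).sub_mem hy ((D j).smul_mem _ hb)
  · rw [member_b_eq_zero hQ hD (Ne.symm hjl) hb hy]; simpa using hy

lemma closure_maps_member {U : Submodule F (ι → F)} {l : Fin t} (hU : U ≤ D l) {c : GL ι F}
    (hc : c ∈ Subgroup.closure (reflSet hQ U)) :
    (∀ j, ∀ y ∈ D j, (c : Matrix ι ι F) *ᵥ y ∈ D j) ∧
      ∀ x, (∀ u ∈ U, bform hQ u x = 0) → (c : Matrix ι ι F) *ᵥ x = x := by
  induction hc using Subgroup.closure_induction with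
  | mem g hg =>
    obtain ⟨b, hb, hbQ, rfl⟩ := hg
    exact ⟨fun j y hy => reflection_maps_member hQ hD (hU hb) hbQ hy,
      fun x hx => by rw [reflection_mulVec hQ, hx b hb]; simp⟩
  | one => exact ⟨fun j y hy => by simpa using hy, fun x _ => by simp⟩
  | mul a b _ _ ha hb =>
    exact ⟨fun j y hy => by rw [Units.val_mul, ← Matrix.mulVec_mulVec]; exact ha.1 j _ (hb.1 j y hy),
      fun x hx => by rw [Units.val_mul, ← Matrix.mulVec_mulVec, hb.2 x hx, ha.2 x hx]⟩
  | inv a _ ha =>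
    refine ⟨fun j y hy => ?_, fun x hx => ?_⟩
    · obtain ⟨w, hw, rfl⟩ := map_eq_of_maps hQ hD (ha.1 j) y hy
      rwa [inv_mulVec_cancel]
    · conv_lhs => rw [← ha.2 x hx]
      rw [inv_mulVec_cancel]

variable {M : Subgroup (GL ι F)} (hS : decompositionStabilizer D ⊓ omegaGL Q ≤ M)
variable (hn : 5 ≤ Fintype.card ι)
include hS hn

lemma monomial_mem {g : GL ι F} (hg : g ∈ omegaGL Q) {σ : Equiv.Perm (Fin t)}
    (hσ : ∀ i, ∀ x ∈ D i, (g : Matrix ι ι F) *ᵥ x ∈ D (σ i)) : g ∈ M :=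
  hS ⟨mem_decompositionStabilizer_of_maps hD.decomp.decomp σ hσ, hg⟩

/-- A monomial isometry can be corrected into the stabiliser in Omega inside any member-subspace taking all
values. -/
lemma exists_mem_extend {g : GL ι F} (hg : g ∈ Cfsg.isometryGroup F Q) {σ : Equiv.Perm (Fin t)}
    (hσ : ∀ i, ∀ x ∈ D i, (g : Matrix ι ι F) *ᵥ x ∈ D (σ i)) {U : Submodule F (ι → F)} {l : Fin t} (hU : U ≤ D l)
    (hval : ∀ c : F, ∃ x ∈ U, Q x = c) :
    ∃ m ∈ M, m ∈ decompositionStabilizer D ∧ (∀ i, ∀ x ∈ D i, (m : Matrix ι ι F) *ᵥ x ∈ D (σ i)) ∧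
      ∀ x, (∀ u ∈ U, bform hQ u x = 0) → (m : Matrix ι ι F) *ᵥ x = (g : Matrix ι ι F) *ᵥ x := by
  obtain ⟨c, hc, hgc⟩ := exists_closure_mul_mem_omega hQ hn hval hg
  obtain ⟨h1, h2⟩ := closure_maps_member hQ hD hU hc
  have hmaps : ∀ i, ∀ x ∈ D i, ((g * c : GL ι F) : Matrix ι ι F) *ᵥ x ∈ D (σ i) := fun i x hx => by
    rw [Units.val_mul, ← Matrix.mulVec_mulVec]; exact hσ i _ (h1 i x hx)
  exact ⟨g * c, monomial_mem hQ hD hS hn hgc hmaps, mem_decompositionStabilizer_of_maps hD.decomp.decomp σ hmaps,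
    hmaps, fun x hx => by rw [Units.val_mul, ← Matrix.mulVec_mulVec, h2 x hx]⟩

omit hS in
/-- Vectors of the same non-zero value in one member differ by an isometry of that member. -/
lemma exists_member_isometry {i : Fin t} {a b : ι → F} (ha : a ∈ D i) (hb : b ∈ D i) (haQ : Q a ≠ 0)
    (hab : Q a = Q b) : ∃ g ∈ Cfsg.isometryGroup F Q, (∀ j, ∀ y ∈ D j, (g : Matrix ι ι F) *ᵥ y ∈ D j) ∧
      (g : Matrix ι ι F) *ᵥ a = b := by
  set d := a - b with hd
  have hdD : d ∈ D i := (D i).sub_mem ha hb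
  have hda : bform hQ d a = Q d := by
    rw [hd, q_sub hQ, map_sub, LinearMap.sub_apply, b_self hQ, b_symm hQ b a, ← hab]; ring
  by_cases hdQ : Q d = 0
  swap
  · refine ⟨reflection hQ hdQ, reflection_mem hQ hdQ, fun j y hy => reflection_maps_member hQ hD hdD hdQ hy, ?_⟩
    rw [reflection_mulVec hQ, hda, inv_mul_cancel₀ hdQ, one_smul, hd, sub_sub_cancel]
  have hU := member_radical_free hQ hD i
  by_cases hd0 : d = 0
  · exact ⟨1, one_mem _, fun j y hy => by simpa using hy, by simpa using sub_eq_zero.1 hd0⟩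
  obtain ⟨w, hw, hwd, haw⟩ := exists_b_one_mem hQ (S := D i) (T := Submodule.span F {d}) (v := a) (by
    intro hm
    obtain ⟨p, hp, r, hr, e⟩ := Submodule.mem_sup.1 hm
    have hpD : p ∈ D i := (Submodule.span_singleton_le_iff_mem _ _).2 hdD hp
    have hr0 : r = 0 := hU r (by rw [eq_sub_of_add_eq' e]; exact (D i).sub_mem ha hpD) hr
    obtain ⟨s, rfl⟩ := Submodule.mem_span_singleton.1 hp
    rw [hr0, add_zero] at e
    exact haQ (by rw [← e, q_smul hQ, hdQ, mul_zero]))
  rw [mem_perp_span_singleton hQ] at hwd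
  have hw' : bform hQ d (-w) = 0 := by rw [map_neg, hwd, neg_zero]
  refine ⟨eichler hQ hdQ hw', eichler_mem_isometryGroup hQ hdQ hw', fun j y hy => ?_, ?_⟩
  · rw [eichler_mulVec hQ]
    by_cases hji : j = i
    · subst hji
      exact (D j).sub_mem ((D j).sub_mem ((D j).add_mem hy ((D j).smul_mem _ hdD)) ((D j).smul_mem _ ((D j).neg_mem hw)))
        ((D j).smul_mem _ hdD)
    · rw [map_neg, LinearMap.neg_apply, member_b_eq_zero hQ hD (Ne.symm hji) hw hy,
        member_b_eq_zero hQ hD (Ne.symm hji) hdD hy]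
      simpa using hy
  · rw [eichler_mulVec hQ, map_neg, LinearMap.neg_apply, b_symm hQ w a, haw, hda, hdQ, hd]
    module

/-- From an element outside the stabiliser mapping a non-singular member vector into a member we get one
fixing that vector. -/
lemma exists_fix_of_map (ht : 2 ≤ t) (hk : 2 ≤ k) {g : GL ι F} (hgM : g ∈ M) (hgI : g ∈ Cfsg.isometryGroup F Q)
    (hgD : g ∉ decompositionStabilizer D) {i j : Fin t} {a : ι → F} (ha : a ∈ D i) (haQ : Q a ≠ 0)
    (hga : (g : Matrix ι ι F) *ᵥ a ∈ D j) :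
    ∃ g' ∈ M, g' ∉ decompositionStabilizer D ∧ (g' : Matrix ι ι F) *ᵥ a = a := by
  set a' := (g : Matrix ι ι F) *ᵥ a with ha'
  have haQ' : Q a' = Q a := mem_isometryGroup.1 hgI a
  obtain ⟨s, hsI, hsmaps, hsa⟩ : ∃ s ∈ Cfsg.isometryGroup F Q,
      (∀ l, ∀ x ∈ D l, (s : Matrix ι ι F) *ᵥ x ∈ D (Equiv.swap j i l)) ∧ (s : Matrix ι ι F) *ᵥ a' ∈ D i := by
    by_cases hji : j = i
    · exact ⟨1, one_mem _, fun l x hx => by simpa [hji] using hx, by simpa [hji] using hji ▸ hga⟩
    · obtain ⟨s, hsI, -, hs, -⟩ := exists_member_swap hQ hD hji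
      exact ⟨s, hsI, hs, by simpa using hs j a' hga⟩
  obtain ⟨h, hhI, hh, hha⟩ := exists_member_isometry hQ hD hn hsa ha
    (by rw [mem_isometryGroup.1 hsI, haQ']; exact haQ) (by rw [mem_isometryGroup.1 hsI, haQ'])
  have hmaps : ∀ l, ∀ x ∈ D l, ((h * s : GL ι F) : Matrix ι ι F) *ᵥ x ∈ D (Equiv.swap j i l) := fun l x hx => by
    rw [Units.val_mul, ← Matrix.mulVec_mulVec]; exact hh _ _ (hsmaps l x hx)
  obtain ⟨l, hlj⟩ : ∃ l, l ≠ j := by
    haveI : Nontrivial (Fin t) := Fin.nontrivial_iff_two_le.2 ht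
    exact exists_ne j
  obtain ⟨m, hm, hmD, -, hmfix⟩ := exists_mem_extend hQ hD hS hn (mul_mem hhI hsI) hmaps (le_refl (D l))
    (fun c => exists_value_any hQ (member_radical_free hQ hD l) (by rw [hD.decomp.decomp.finrank_eq]; exact hk) c)
  refine ⟨m * g, mul_mem hm hgM, fun h' => hgD ?_, ?_⟩
  · have := mul_mem (inv_mem hmD) h'
    rwa [inv_mul_cancel_left] at this
  · rw [Units.val_mul, ← Matrix.mulVec_mulVec, ← ha', hmfix a' fun u hu => member_b_eq_zero hQ hD hlj hu hga,
      Units.val_mul, ← Matrix.mulVec_mulVec, hha]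

omit hn in
/-- The commutator with a stabiliser element turns one reflection pair into another. -/
lemma reflection_move_mem {z a h : ι → F} {g : GL ι F} (hgI : g ∈ Cfsg.isometryGroup F Q) (hgM : g ∈ M)
    (hgD : g ∈ decompositionStabilizer D) (hz : Q z ≠ 0) (ha : Q a ≠ 0) {i : Fin t}
    (haD : a ∈ D i) (hh : Q h ≠ 0) (hgz : (g : Matrix ι ι F) *ᵥ z = h)
    (hpair : reflection hQ hz * reflection hQ ha ∈ M) : reflection hQ hh * reflection hQ hz ∈ M := by
  have hr : reflection hQ ha ∈ decompositionStabilizer D :=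
    mem_decompositionStabilizer_of_maps hD.decomp.decomp 1 fun j y hy => reflection_maps_member hQ hD haD ha hy
  have hc' : ⁅g, reflection hQ ha⁆ ∈ decompositionStabilizer D := by
    rw [commutatorElement_def]; exact mul_mem (mul_mem (mul_mem hgD hr) (inv_mem hgD)) (inv_mem hr)
  have hc : ⁅g, reflection hQ ha⁆ ∈ M := hS ⟨hc', commutator_mem_omegaGL hgI (reflection_mem hQ ha)⟩
  have e1 := conj_reflection hQ hgI hz hh hgz
  have key : g * (reflection hQ hz * reflection hQ ha) * g⁻¹ * ⁅g, reflection hQ ha⁆ *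
      (reflection hQ hz * reflection hQ ha)⁻¹ = reflection hQ hh * reflection hQ hz := by
    have e2 : g * reflection hQ ha * g⁻¹ * ⁅g, reflection hQ ha⁆ * (reflection hQ ha)⁻¹ =
        g * reflection hQ ha * g⁻¹ * (g * reflection hQ ha * g⁻¹) * (reflection hQ ha)⁻¹ * (reflection hQ ha)⁻¹ := by
      rw [commutatorElement_def]; group
    rw [← e1, mul_inv_rev, reflection_inv hQ, reflection_inv hQ,
      show g * (reflection hQ hz * reflection hQ ha) * g⁻¹ * ⁅g, reflection hQ ha⁆ *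
        (reflection hQ ha * reflection hQ hz) =
        g * reflection hQ hz * g⁻¹ * (g * reflection hQ ha * g⁻¹) * (g * reflection hQ ha * g⁻¹) *
          ((reflection hQ ha)⁻¹ * reflection hQ ha) * reflection hQ hz by rw [commutatorElement_def]; group]
    rw [inv_mul_cancel, mul_one, mul_assoc (g * reflection hQ hz * g⁻¹) (g * reflection hQ ha * g⁻¹),
      show g * reflection hQ ha * g⁻¹ * (g * reflection hQ ha * g⁻¹) =
        g * (reflection hQ ha * reflection hQ ha) * g⁻¹ by group,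
      reflection_mul_reflection_self hQ ha, mul_one, mul_inv_cancel, mul_one]
  rw [← key]
  exact mul_mem (mul_mem (mul_mem (mul_mem hgM hpair) (inv_mem hgM)) hc) (inv_mem hpair)

omit hS hn in
/-- The product of the reflections in a non-singular vector and in its translate along a perpendicular
singular vector is a root element. -/
lemma reflection_shift_eq {z c : ι → F} (hz : Q z ≠ 0) (hc : Q c = 0) (hcz : bform hQ c z = 0) {s : F}
    (h : Q (z + s • c) ≠ 0) :
    ((reflection hQ h * reflection hQ hz : GL ι F) : Matrix ι ι F) = eichlerMat Q c ((s / Q z) • z) := by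
  refine Matrix.ext_of_mulVec_single fun i => ?_
  generalize (Pi.single i 1 : ι → F) = x
  rw [Units.val_mul, ← Matrix.mulVec_mulVec, reflection_mulVec hQ, reflection_mulVec hQ, eichlerMat_mulVec hQ]
  have e0 : Q (z + s • c) = Q z := by rw [q_add hQ, q_smul hQ, hc, map_smul, b_symm hQ z c, hcz]; simp
  rw [e0]
  simp only [q_add hQ, q_neg hQ, q_smul hQ, map_add, map_sub, map_neg, map_smul, LinearMap.add_apply,
    LinearMap.smul_apply, LinearMap.neg_apply, smul_eq_mul, b_self hQ, hc, hcz, b_symm hQ z c]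
  match_scalars <;> field_simp <;> ring

end CfsgLib.OrthGeo
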