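import Cfsg.Agent.OrthGeo.DecompMember

/-! A member plane of an orthogonal decomposition: non-singular vectors avoiding a few lines, rotations, and
pairs of reflections in two planes moving a vector by a singular vector. -/

set_option autoImplicit false
set_option linter.unusedSectionVars false

namespace CfsgLib.OrthGeo

open Cfsg Cfsg.Geo Module
open scoped Matrix MatrixGroups

variable {F : Type*} [Field F] [Fintype F]

/-- A quadratic function which is not identically zero has at most two roots. -/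
lemma card_roots_le_two [DecidableEq F] {a b c : F} (h : a ≠ 0 ∨ b ≠ 0 ∨ c ≠ 0) :
    (Finset.univ.filter fun s : F => a * s ^ 2 + b * s + c = 0).card ≤ 2 := by
  by_contra hcon
  obtain ⟨r₁, r₂, r₃, h₁, h₂, h₃, h12, h13, h23⟩ := Finset.two_lt_card_iff.1 (not_le.1 hcon)
  simp only [Finset.mem_filter, Finset.mem_univ, true_and] at h₁ h₂ h₃
  have e1 : a * (r₁ + r₂) + b = 0 :=
    (mul_eq_zero.1 (show (r₁ - r₂) * (a * (r₁ + r₂) + b) = 0 by linear_combination h₁ - h₂)).resolve_left
      (sub_ne_zero.2 h12)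
  have e2 : a * (r₁ + r₃) + b = 0 :=
    (mul_eq_zero.1 (show (r₁ - r₃) * (a * (r₁ + r₃) + b) = 0 by linear_combination h₁ - h₃)).resolve_left
      (sub_ne_zero.2 h13)
  have ha : a = 0 :=
    (mul_eq_zero.1 (show (r₂ - r₃) * a = 0 by linear_combination e1 - e2)).resolve_left (sub_ne_zero.2 h23)
  subst ha
  have hb : b = 0 := by linear_combination e1
  subst hb
  rcases h with h | h | h
  · exact h rfl
  · exact h rfl
  · exact h (by linear_combination h₁)

lemma exists_not_mem_finset [DecidableEq F] (s : Finset F) (h : s.card < Fintype.card F) : ∃ r : F, r ∉ s := by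
  by_contra hall
  push Not at hall
  have := Finset.card_le_card (s := (Finset.univ : Finset F)) (fun r _ => hall r)
  rw [Finset.card_univ] at this
  omega

lemma isSquare_div_of_three {a b c : F} (ha : a ≠ 0) (hb : b ≠ 0) (hc : c ≠ 0) :
    IsSquare (a / b) ∨ IsSquare (a / c) ∨ IsSquare (b / c) := by
  classical
  by_contra h
  push Not at h
  obtain ⟨h1, h2, h3⟩ := h
  rw [← quadraticChar_neg_one_iff_not_isSquare] at h1 h2 h3
  have h4 : quadraticChar F (a / b) * quadraticChar F (b / c) = quadraticChar F (a / c) := by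
    rw [← map_mul]; congr 1; field_simp
  rw [h1, h2, h3] at h4
  norm_num at h4

variable {ι : Type} [Fintype ι] [DecidableEq ι]
variable {Q : (ι → F) → F} (hQ : IsNondegenerateQuadraticForm Q)
variable {U : Submodule F (ι → F)}

/-- Member planes for which the stabiliser of the decomposition can be maximal. -/
def Fat (Q : (ι → F) → F) (U : Submodule F (ι → F)) : Prop :=
  finrank F U = 2 ∧ (7 ≤ Fintype.card F ∨
    ((Fintype.card F = 2 ∨ Fintype.card F = 4 ∨ Fintype.card F = 5) ∧ ∀ x ∈ U, Q x = 0 → x = 0))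

variable (hU : ∀ x ∈ U, x ∈ perp hQ U → x = 0) (hF : Fat Q U)
include hU hF

lemma exists_indep {x : ι → F} (hx0 : x ≠ 0) : ∃ u ∈ U, u ∉ Submodule.span F {x} := by
  refine SetLike.not_le_iff_exists.1 fun hle => ?_
  have := Submodule.finrank_mono hle
  rw [finrank_span_singleton hx0, hF.1] at this
  omega

lemma plane_eq_zero {x u v : ι → F} (hx : x ∈ U) (hu : u ∈ U) (hx0 : x ≠ 0) (hind : u ∉ Submodule.span F {x})
    (hv : v ∈ U) (h1 : bform hQ x v = 0) (h2 : bform hQ u v = 0) : v = 0 := by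
  refine hU v hv fun y hy => ?_
  obtain ⟨a, b, rfl⟩ := plane_span_of_indep (hd := hF.1) hx hu hx0 hind y hy
  change bform hQ (a • x + b • u) v = 0
  simp [-bform_apply, h1, h2]

lemma plane_disc_ne {x u : ι → F} (hx : x ∈ U) (hu : u ∈ U) (hxQ : Q x ≠ 0) (hind : u ∉ Submodule.span F {x}) :
    bform hQ x u ^ 2 ≠ 4 * Q x * Q u := by
  intro h
  have hx0 : x ≠ 0 := fun h0 => hxQ (by rw [h0, q_zero hQ])
  set v := (2 * Q x) • u - bform hQ x u • x with hv
  have hv0 : v = 0 := plane_eq_zero hQ hU hF hx hu hx0 hind (U.sub_mem (U.smul_mem _ hu) (U.smul_mem _ hx))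
    (by rw [hv, map_sub, map_smul, map_smul, b_self hQ, smul_eq_mul, smul_eq_mul]; ring)
    (by rw [hv, map_sub, map_smul, map_smul, b_self hQ, b_symm hQ u x, smul_eq_mul, smul_eq_mul]
        linear_combination -h)
  by_cases h2 : 2 * Q x = 0
  · rw [hv, h2, zero_smul, zero_sub, neg_eq_zero, smul_eq_zero] at hv0
    exact hx0 (plane_eq_zero hQ hU hF hx hu hx0 hind hx (by rw [b_self hQ, h2])
      (by rw [b_symm hQ]; exact hv0.resolve_right hx0))
  · refine hind (Submodule.mem_span_singleton.2 ⟨(2 * Q x)⁻¹ * bform hQ x u, ?_⟩)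
    rw [mul_smul, ← sub_eq_zero.1 hv0, inv_smul_smul₀ h2]

lemma line_q {x u : ι → F} (s : F) : Q (s • x + u) = Q x * s ^ 2 + bform hQ x u * s + Q u := by
  rw [q_add hQ, q_smul hQ, map_smul, LinearMap.smul_apply, smul_eq_mul]; ring

/-- At most two points of a line through the plane are singular; none if the field is small. -/
lemma card_line_singular [DecidableEq F] {x u : ι → F} (hx : x ∈ U) (hu : u ∈ U) (hxQ : Q x ≠ 0)
    (hind : u ∉ Submodule.span F {x}) :
    (Finset.univ.filter fun s : F => Q (s • x + u) = 0).card ≤ 2 ∧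
      (Fintype.card F < 7 → (Finset.univ.filter fun s : F => Q (s • x + u) = 0).card = 0) := by
  refine ⟨?_, fun hq => ?_⟩
  · simp only [line_q hQ hU hF]
    exact card_roots_le_two (Or.inl hxQ)
  · rw [Finset.card_eq_zero, Finset.filter_eq_empty_iff]
    intro s _ hs
    refine hind ?_
    rw [show u = -(s • x) from eq_neg_of_add_eq_zero_right
      ((hF.2.resolve_left (by omega)).2 _ (U.add_mem (U.smul_mem _ hx) hu) hs)]
    exact neg_mem (Submodule.smul_mem _ _ (Submodule.mem_span_singleton_self x))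

/-- A non-singular vector meeting two given ones. -/
lemma exists_avoid_two {p r : ι → F} (hp : p ∈ U) (hr : r ∈ U) (hp0 : p ≠ 0) (hr0 : r ≠ 0) :
    ∃ w ∈ U, Q w ≠ 0 ∧ bform hQ w p ≠ 0 ∧ bform hQ w r ≠ 0 := by
  classical
  obtain ⟨x, hx, hxQ⟩ := exists_q_ne_zero hQ hU (by rw [hF.1]; omega)
  have hx0 : x ≠ 0 := fun h => hxQ (by rw [h, q_zero hQ])
  by_cases hxpr : bform hQ x p ≠ 0 ∧ bform hQ x r ≠ 0
  · exact ⟨x, hx, hxQ, hxpr⟩
  obtain ⟨u, hu, hind⟩ := exists_indep hQ hU hF hx0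
  have key : ∀ e ∈ U, e ≠ 0 → bform hQ x e ≠ 0 ∨ bform hQ u e ≠ 0 := fun e he he0 => by
    by_contra h
    push Not at h
    exact he0 (plane_eq_zero hQ hU hF hx hu hx0 hind he h.1 h.2)
  have hlin : ∀ e, e ∈ U → e ≠ 0 →
      (Finset.univ.filter fun s : F => bform hQ (s • x + u) e = 0).card ≤ 1 ∧
      (bform hQ x e = 0 → (Finset.univ.filter fun s : F => bform hQ (s • x + u) e = 0).card = 0) := by
    intro e he he0
    have hval : ∀ s : F, bform hQ (s • x + u) e = s * bform hQ x e + bform hQ u e := fun s => by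
      simp [-bform_apply]
    refine ⟨Finset.card_le_one.2 fun a ha b hb => ?_, fun h0 => ?_⟩
    · simp only [Finset.mem_filter, Finset.mem_univ, true_and, hval] at ha hb
      by_contra hab
      rcases key e he he0 with h | h
      · exact hab (mul_right_cancel₀ h (by linear_combination ha - hb))
      · refine h ?_
        have hxe : bform hQ x e = 0 :=
          (mul_eq_zero.1 (show (a - b) * bform hQ x e = 0 by linear_combination ha - hb)).resolve_left
            (sub_ne_zero.2 hab)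
        rw [hxe, mul_zero, zero_add] at ha
        exact ha
    · rw [Finset.card_eq_zero, Finset.filter_eq_empty_iff]
      intro s _ hs
      rw [hval, h0, mul_zero, zero_add] at hs
      exact (key e he he0).elim (fun h => h h0) (fun h => h hs)
  obtain ⟨hp1, hp2⟩ := hlin p hp hp0
  obtain ⟨hr1, hr2⟩ := hlin r hr hr0
  obtain ⟨hs1, hs2⟩ := card_line_singular hQ hU hF hx hu hxQ hind
  obtain ⟨s, hs⟩ := exists_not_mem_finset ((Finset.univ.filter fun s : F => Q (s • x + u) = 0) ∪
      ((Finset.univ.filter fun s : F => bform hQ (s • x + u) p = 0) ∪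
        Finset.univ.filter fun s : F => bform hQ (s • x + u) r = 0)) (by
    refine lt_of_le_of_lt ((Finset.card_union_le _ _).trans (Nat.add_le_add_left (Finset.card_union_le _ _) _)) ?_
    have hxpr' : bform hQ x p = 0 ∨ bform hQ x r = 0 := by
      by_contra h
      push Not at h
      exact hxpr h
    have := Fintype.one_lt_card (α := F)
    rcases hxpr' with h | h
    · have := hp2 h
      rcases lt_or_ge (Fintype.card F) 7 with hq | hq
      · have := hs2 hq; omega
      · omega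
    · have := hr2 h
      rcases lt_or_ge (Fintype.card F) 7 with hq | hq
      · have := hs2 hq; omega
      · omega)
  simp only [Finset.mem_union, Finset.mem_filter, Finset.mem_univ, true_and, not_or] at hs
  exact ⟨s • x + u, U.add_mem (U.smul_mem _ hx) hu, hs.1, hs.2.1, hs.2.2⟩

/-- A non-singular vector meeting a given one. -/
lemma exists_avoid_one {p : ι → F} (hp : p ∈ U) (hp0 : p ≠ 0) : ∃ w ∈ U, Q w ≠ 0 ∧ bform hQ w p ≠ 0 :=
  let ⟨w, h1, h2, h3, _⟩ := exists_avoid_two hQ hU hF hp hp hp0 hp0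
  ⟨w, h1, h2, h3⟩

/-- A second vector of the same value, neither orthogonal nor proportional. -/
lemma exists_rot_partner {x : ι → F} (hx : x ∈ U) (hxQ : Q x ≠ 0) :
    ∃ y ∈ U, Q y = Q x ∧ bform hQ x y ≠ 0 ∧ y ∉ Submodule.span F {x} := by
  classical
  have hx0 : x ≠ 0 := fun h => hxQ (by rw [h, q_zero hQ])
  obtain ⟨u, hu, hind⟩ := exists_indep hQ hU hF hx0
  set b := bform hQ x u with hb
  obtain ⟨hs1, hs2⟩ := card_line_singular hQ hU hF hx hu hxQ hind
  set A := Finset.univ.filter fun s : F => Q (s • x + u) = 0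
  set B := Finset.univ.filter fun s : F => 2 * Q x * s + b = 0 with hB
  set C := Finset.univ.filter fun s : F => 2 * Q x ^ 2 * s ^ 2 + 2 * Q x * b * s + (b ^ 2 - 2 * Q x * Q u) = 0
    with hC
  have hB' : B.card ≤ 1 ∧ ((2 : F) = 0 → B.card = 0) := by
    refine ⟨Finset.card_le_one.2 fun p hp r hr => ?_, fun h2 => ?_⟩
    · simp only [hB, Finset.mem_filter, Finset.mem_univ, true_and] at hp hr
      by_contra hne
      have h2 : (2 : F) * Q x = 0 :=
        (mul_eq_zero.1 (show (2 * Q x) * (p - r) = 0 by linear_combination hp - hr)).resolve_right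
          (sub_ne_zero.2 hne)
      rw [h2, zero_mul, zero_add] at hp
      refine plane_disc_ne hQ hU hF hx hu hxQ hind ?_
      rw [← hb, hp]
      linear_combination -(2 * Q u) * h2
    · rw [hB, Finset.card_eq_zero, Finset.filter_eq_empty_iff]
      intro s _ hs
      refine plane_disc_ne hQ hU hF hx hu hxQ hind ?_
      rw [← hb]
      linear_combination b * hs - (b * Q x * s + 2 * Q x * Q u) * h2
  have hC' : C.card ≤ 2 ∧ ((2 : F) = 0 → C.card = 0) := by
    refine ⟨card_roots_le_two ?_, fun h2 => ?_⟩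
    · by_cases h2 : (2 : F) = 0
      · refine Or.inr (Or.inr fun h => plane_disc_ne hQ hU hF hx hu hxQ hind ?_)
        rw [← hb]
        linear_combination h - (Q x * Q u) * h2
      · exact Or.inl (mul_ne_zero h2 (pow_ne_zero 2 hxQ))
    · rw [hC, Finset.card_eq_zero, Finset.filter_eq_empty_iff]
      intro s _ hs
      refine plane_disc_ne hQ hU hF hx hu hxQ hind ?_
      rw [← hb]
      linear_combination hs - (Q x ^ 2 * s ^ 2 + Q x * b * s + Q x * Q u) * h2
  obtain ⟨s, hs⟩ := exists_not_mem_finset (A ∪ (B ∪ C)) (by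
    refine lt_of_le_of_lt ((Finset.card_union_le _ _).trans (Nat.add_le_add_left (Finset.card_union_le _ _) _)) ?_
    rcases lt_or_ge (Fintype.card F) 7 with hq | hq
    · have hA := hs2 hq
      rcases (hF.2.resolve_left (by omega)).1 with h | h | h
      · have h2 : (2 : F) = 0 := CfsgLib.SmallField.two_eq_zero_of_card_two h
        have := hB'.2 h2; have := hC'.2 h2; omega
      · have h2 : (2 : F) = 0 := by
          have h4 : ((Fintype.card F : ℕ) : F) = 0 := Nat.cast_card_eq_zero F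
          rw [h] at h4
          exact (pow_eq_zero_iff (n := 2) two_ne_zero).1 (by push_cast at h4; linear_combination h4)
        have := hB'.2 h2; have := hC'.2 h2; omega
      · omega
    · omega)
  simp only [A, hB, hC, Finset.mem_union, Finset.mem_filter, Finset.mem_univ, true_and, not_or] at hs
  obtain ⟨hsA, hsB, hsC⟩ := hs
  set w := s • x + u with hw
  have hwU : w ∈ U := U.add_mem (U.smul_mem _ hx) hu
  have hxw : bform hQ x w = 2 * Q x * s + b := by
    rw [hw, map_add, map_smul, b_self hQ, smul_eq_mul, ← hb]; ring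
  set c := (Q w)⁻¹ * bform hQ x w with hc
  have hwQ : Q w = Q x * s ^ 2 + b * s + Q u := line_q hQ hU hF s
  refine ⟨x - c • w, U.sub_mem hx (U.smul_mem _ hwU), ?_, ?_, ?_⟩
  · rw [q_sub hQ, q_smul hQ, map_smul, smul_eq_mul, hc]; field_simp; ring
  · rw [map_sub, map_smul, b_self hQ, smul_eq_mul, hc]
    intro h
    refine hsC ?_
    field_simp at h
    rw [hxw, hwQ] at h
    linear_combination -h
  · intro h
    have h' := Submodule.sub_mem _ (Submodule.mem_span_singleton_self x) h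
    rw [sub_sub_cancel, Submodule.smul_mem_iff _ (mul_ne_zero (inv_ne_zero hsA) (hxw ▸ hsB))] at h'
    refine hind ?_
    have h'' := Submodule.sub_mem _ h' (Submodule.smul_mem _ s (Submodule.mem_span_singleton_self x))
    rwa [hw, add_sub_cancel_left] at h''

/-- Three pairwise independent non-singular vectors. -/
lemma exists_three_aniso (hq : 7 ≤ Fintype.card F) : ∃ y₁ ∈ U, ∃ y₂ ∈ U, ∃ y₃ ∈ U, Q y₁ ≠ 0 ∧ Q y₂ ≠ 0 ∧
    Q y₃ ≠ 0 ∧ y₂ ∉ Submodule.span F {y₁} ∧ y₃ ∉ Submodule.span F {y₁} ∧ y₃ ∉ Submodule.span F {y₂} := by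
  classical
  obtain ⟨x, hx, hxQ⟩ := exists_q_ne_zero hQ hU (by rw [hF.1]; omega)
  have hx0 : x ≠ 0 := fun h => hxQ (by rw [h, q_zero hQ])
  obtain ⟨u, hu, hind⟩ := exists_indep hQ hU hF hx0
  obtain ⟨h1, -⟩ := card_line_singular hQ hU hF hx hu hxQ hind
  set A := Finset.univ.filter fun s : F => Q (s • x + u) = 0
  obtain ⟨s, hs⟩ := exists_not_mem_finset A (by omega)
  obtain ⟨r, hr⟩ := exists_not_mem_finset (insert s A) (by have := Finset.card_insert_le s A; omega)
  simp only [A, Finset.mem_insert, Finset.mem_filter, Finset.mem_univ, true_and, not_or] at hs hr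
  have hnot : ∀ c : F, c • x + u ∉ Submodule.span F {x} := fun c hc => hind (by
    have := Submodule.sub_mem _ hc (Submodule.smul_mem _ c (Submodule.mem_span_singleton_self x))
    rwa [add_sub_cancel_left] at this)
  refine ⟨x, hx, s • x + u, U.add_mem (U.smul_mem _ hx) hu, r • x + u, U.add_mem (U.smul_mem _ hx) hu, hxQ, hs,
    hr.2, hnot s, hnot r, fun h => ?_⟩
  obtain ⟨c, hc⟩ := Submodule.mem_span_singleton.1 h
  by_cases hc1 : c = 1
  · rw [hc1, one_smul] at hc
    refine hr.1 (smul_left_injective F hx0 ?_).symm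
    exact add_right_cancel hc
  · refine hind (Submodule.mem_span_singleton.2 ⟨(r - c * s) / (c - 1), ?_⟩)
    have hc' : (c - 1) • u = (r - c * s) • x := by linear_combination (norm := module) hc
    rw [div_eq_inv_mul, mul_smul, ← hc', inv_smul_smul₀ (sub_ne_zero.2 hc1)]

omit hU hF in
/-- The values by which a reflection in the plane can move a vector. -/
def Moves (hQ : IsNondegenerateQuadraticForm Q) (U : Submodule F (ι → F)) (z : ι → F) (v : F) : Prop :=
  ∃ d ∈ U, Q d ≠ 0 ∧ bform hQ d z ≠ 0 ∧ bform hQ d z ^ 2 = v * Q d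

lemma exists_moves {z : ι → F} (hz : z ∈ U) (hz0 : z ≠ 0) : ∃ v : F, v ≠ 0 ∧ Moves hQ U z v := by
  obtain ⟨d, hd, hdQ, hdz⟩ := exists_avoid_one hQ hU hF hz hz0
  exact ⟨bform hQ d z ^ 2 / Q d, div_ne_zero (pow_ne_zero 2 hdz) hdQ, d, hd, hdQ, hdz,
    (div_mul_cancel₀ _ hdQ).symm⟩

lemma moves_of_singular {z : ι → F} (hz : z ∈ U) (hz0 : z ≠ 0) (hzQ : Q z = 0) {v : F} (hv : v ≠ 0) :
    Moves hQ U z v := by
  obtain ⟨y, hy, hyz⟩ := exists_mem_b_ne_zero hQ (fun h => hz0 (hU z hz h))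
  obtain ⟨y', hy', h1⟩ : ∃ y' ∈ U, bform hQ y' z = 1 := ⟨(bform hQ y z)⁻¹ • y, U.smul_mem _ hy,
    by rw [map_smul, LinearMap.smul_apply, smul_eq_mul, inv_mul_cancel₀ hyz]⟩
  have hd : Q (y' + (v⁻¹ - Q y') • z) = v⁻¹ := by
    rw [q_add hQ, q_smul hQ, hzQ, map_smul, h1, smul_eq_mul]; ring
  have hb : bform hQ (y' + (v⁻¹ - Q y') • z) z = 1 := by
    rw [map_add, map_smul, LinearMap.add_apply, LinearMap.smul_apply, h1, b_self hQ, hzQ]; simp
  refine ⟨_, U.add_mem hy' (U.smul_mem _ hz), by rw [hd]; exact inv_ne_zero hv, by rw [hb]; exact one_ne_zero, ?_⟩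
  rw [hd, hb, one_pow, mul_inv_cancel₀ hv]

omit hU hF in
lemma exists_conic_point (h2 : (2 : F) ≠ 0) {A B : F} (hA : A ≠ 0) (hB : B ≠ 0) (C : F) :
    ∃ u v : F, A * u ^ 2 + B * v ^ 2 = C := by
  have hodd : Fintype.card F % 2 = 1 := FiniteField.odd_card_of_char_ne_two fun hch => h2 (by
    have : CharP F 2 := by rw [← hch]; exact ringChar.charP F
    exact_mod_cast CharP.cast_eq_zero F 2)
  obtain ⟨u, v, h⟩ := FiniteField.exists_root_sum_quadratic
    (f := Polynomial.C A * Polynomial.X ^ 2 + Polynomial.C (-C))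
    (g := Polynomial.C B * Polynomial.X ^ 2)
    (by compute_degree <;> first | assumption | simp [hA] | norm_num)
    (by compute_degree <;> first | assumption | simp [hB] | norm_num) hodd
  simp at h
  exact ⟨u, v, by linear_combination h⟩

variable {U' : Submodule F (ι → F)} (hU' : ∀ x ∈ U', x ∈ perp hQ U' → x = 0) (hF' : Fat Q U')
include hU' hF'

/-- Two planes, odd characteristic: opposite moves. -/
lemma exists_opposite_moves (h2 : (2 : F) ≠ 0) {z z' : ι → F} (hz : z ∈ U) (hz' : z' ∈ U') (hzQ : Q z ≠ 0)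
    (hz'Q : Q z' ≠ 0) : ∃ v : F, v ≠ 0 ∧ Moves hQ U z v ∧ Moves hQ U' z' (-v) := by
  classical
  have perpVec : ∀ {W : Submodule F (ι → F)}, (∀ x ∈ W, x ∈ perp hQ W → x = 0) → Fat Q W → ∀ {a : ι → F},
      a ∈ W → Q a ≠ 0 → ∃ w ∈ W, bform hQ a w = 0 ∧ Q w ≠ 0 := by
    intro W hW hFW a ha haQ
    have ha0 : a ≠ 0 := fun h => haQ (by rw [h, q_zero hQ])
    obtain ⟨u, hu, hind⟩ := exists_indep hQ hW hFW ha0
    have h2a : 2 * Q a ≠ 0 := mul_ne_zero h2 haQ
    refine ⟨u - (bform hQ a u / (2 * Q a)) • a, W.sub_mem hu (W.smul_mem _ ha),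
      by rw [map_sub, map_smul, b_self hQ, smul_eq_mul, div_mul_cancel₀ _ h2a, sub_self], ?_⟩
    intro h
    refine plane_disc_ne hQ hW hFW ha hu haQ hind ?_
    rw [q_sub hQ, q_smul hQ, map_smul, b_symm hQ u a, smul_eq_mul] at h
    field_simp at h
    linear_combination -h
  obtain ⟨w, hw, hzw, hwQ⟩ := perpVec hU hF hz hzQ
  obtain ⟨w', hw', hzw', hw'Q⟩ := perpVec hU' hF' hz' hz'Q
  set ζ := Q z
  set ζ' := Q z'
  set ω := Q w
  set ω' := Q w'
  suffices ∃ u u' : F, ζ + u ^ 2 * ω ≠ 0 ∧ ζ ^ 2 * (ζ' + u' ^ 2 * ω') + ζ' ^ 2 * (ζ + u ^ 2 * ω) = 0 by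
    obtain ⟨u, u', hden, heq⟩ := this
    have hden' : ζ' + u' ^ 2 * ω' ≠ 0 := fun h => mul_ne_zero (pow_ne_zero 2 hz'Q) hden (by
      linear_combination heq - ζ ^ 2 * h)
    have hd : Q (z + u • w) = ζ + u ^ 2 * ω := by
      rw [q_add hQ, q_smul hQ, map_smul, hzw, smul_zero, add_zero]
    have hd' : Q (z' + u' • w') = ζ' + u' ^ 2 * ω' := by
      rw [q_add hQ, q_smul hQ, map_smul, hzw', smul_zero, add_zero]
    have hb : bform hQ (z + u • w) z = 2 * ζ := by
      rw [map_add, map_smul, LinearMap.add_apply, LinearMap.smul_apply, b_self hQ, b_symm hQ w z, hzw, smul_zero,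
        add_zero]
    have hb' : bform hQ (z' + u' • w') z' = 2 * ζ' := by
      rw [map_add, map_smul, LinearMap.add_apply, LinearMap.smul_apply, b_self hQ, b_symm hQ w' z', hzw', smul_zero,
        add_zero]
    refine ⟨4 * ζ ^ 2 / (ζ + u ^ 2 * ω), div_ne_zero (mul_ne_zero ?_ (pow_ne_zero 2 hzQ)) hden,
      ⟨_, U.add_mem hz (U.smul_mem _ hw), hd ▸ hden, hb ▸ mul_ne_zero h2 hzQ, ?_⟩,
      ⟨_, U'.add_mem hz' (U'.smul_mem _ hw'), hd' ▸ hden', hb' ▸ mul_ne_zero h2 hz'Q, ?_⟩⟩
    · rw [show (4 : F) = 2 * 2 by norm_num]; exact mul_ne_zero h2 h2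
    · rw [hd, hb, div_mul_cancel₀ _ hden]; ring
    · rw [hd', hb', neg_div', div_mul_eq_mul_div, eq_div_iff hden]
      linear_combination 4 * heq
  have hA : ζ' ^ 2 * ω ≠ 0 := mul_ne_zero (pow_ne_zero 2 hz'Q) hwQ
  have hB : ζ ^ 2 * ω' ≠ 0 := mul_ne_zero (pow_ne_zero 2 hzQ) hw'Q
  by_cases hC : ζ + ζ' = 0
  · exact ⟨0, 0, by simpa using hzQ, by linear_combination (ζ * ζ') * hC⟩
  obtain ⟨u₀, v₀, h₀⟩ := exists_conic_point h2 hA hB (-(ζ * ζ' * (ζ + ζ')))
  by_cases hden : ζ + u₀ ^ 2 * ω ≠ 0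
  · exact ⟨u₀, v₀, hden, by linear_combination h₀⟩
  push Not at hden
  have hq : 7 ≤ Fintype.card F := by
    rcases hF.2 with h | ⟨-, h⟩
    · exact h
    exfalso
    have hz0 : z + u₀ • w = 0 := h _ (U.add_mem hz (U.smul_mem _ hw))
      (by rw [q_add hQ, q_smul hQ, map_smul, hzw, smul_zero, add_zero]; exact hden)
    have := congrArg (bform hQ z) hz0
    rw [map_add, map_smul, hzw, b_self hQ, smul_zero, add_zero, map_zero] at this
    exact mul_ne_zero h2 hzQ this
  set A := ζ' ^ 2 * ω with hAdef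
  set B := ζ ^ 2 * ω' with hBdef
  have hu₀ : u₀ ≠ 0 := fun h => hzQ (by rw [h] at hden; simpa using hden)
  obtain ⟨m, hm⟩ := exists_not_mem_finset
    ((Finset.univ.filter fun m : F => B * m ^ 2 + 0 * m + A = 0) ∪
      ((Finset.univ.filter fun m : F => 0 * m ^ 2 + B * v₀ * m + A * u₀ = 0) ∪
        Finset.univ.filter fun m : F => B * u₀ * m ^ 2 + (-(B * v₀)) * m + 0 = 0)) (by
    refine lt_of_le_of_lt ((Finset.card_union_le _ _).trans (Nat.add_le_add_left (Finset.card_union_le _ _) _)) ?_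
    have h1 := card_roots_le_two (a := B) (b := 0) (c := A) (Or.inl hB)
    have h2' := card_roots_le_two (a := 0) (b := B * v₀) (c := A * u₀) (Or.inr (Or.inr (mul_ne_zero hA hu₀)))
    have h3 := card_roots_le_two (a := B * u₀) (b := -(B * v₀)) (c := 0) (Or.inl (mul_ne_zero hB hu₀))
    omega)
  simp only [Finset.mem_union, Finset.mem_filter, Finset.mem_univ, true_and, not_or] at hm
  obtain ⟨hm1, hm2, hm3⟩ := hm
  have hden1 : A + B * m ^ 2 ≠ 0 := fun h => hm1 (by linear_combination h)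
  set τ := -(2 * (A * u₀ + B * v₀ * m)) / (A + B * m ^ 2) with hτ
  have hτ' : τ * (A + B * m ^ 2) = -(2 * (A * u₀ + B * v₀ * m)) := div_mul_cancel₀ _ hden1
  have hτ0 : τ ≠ 0 := fun h => hm2 (by
    rw [h, zero_mul, zero_eq_neg, mul_eq_zero] at hτ'
    linear_combination hτ'.resolve_left h2)
  have hτ2 : τ + 2 * u₀ ≠ 0 := fun h => by
    have : 2 * (B * u₀ * m ^ 2 + (-(B * v₀)) * m + 0) = 0 := by
      linear_combination (A + B * m ^ 2) * h - hτ'
    exact hm3 ((mul_eq_zero.1 this).resolve_left h2)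
  refine ⟨u₀ + τ, v₀ + m * τ, fun h => ?_, ?_⟩
  · exact mul_ne_zero (mul_ne_zero hτ0 hτ2) hwQ (by linear_combination h - hden)
  · rw [hAdef, hBdef] at hτ'
    linear_combination h₀ + τ * hτ'

omit hU' hF' in
/-- The Artin-Schreier map of a value. -/
def asHom (h2 : (2 : F) = 0) (ζ : F) : F →+ F where
  toFun s := ζ * s ^ 2 + s
  map_zero' := by simp
  map_add' s r := by linear_combination (ζ * s * r) * h2

omit hU hF hU' hF' in
lemma card_asHom_ker [DecidableEq F] (h2 : (2 : F) = 0) {ζ : F} (hζ : ζ ≠ 0) :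
    (Finset.univ.filter fun s : F => asHom h2 ζ s = 0).card ≤ 2 := by
  refine le_trans (le_of_eq ?_) (card_roots_le_two (a := ζ) (b := 1) (c := 0) (Or.inl hζ))
  congr 1
  exact Finset.filter_congr fun s _ => by simp [asHom]

/-- Two planes, characteristic two: equal moves, if the values are congruent. -/
lemma exists_equal_moves (h2 : (2 : F) = 0) {z z' w w' : ι → F} (hz : z ∈ U) (hz' : z' ∈ U') (hzQ : Q z ≠ 0)
    (hz'Q : Q z' ≠ 0) (hw : w ∈ U) (hw' : w' ∈ U') (hzw : bform hQ z w = 1) (hzw' : bform hQ z' w' = 1)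
    (h : ∃ p p' : F, asHom h2 (Q z) p + asHom h2 (Q z') p' = Q w + Q w') :
    ∃ v : F, v ≠ 0 ∧ Moves hQ U z v ∧ Moves hQ U' z' (-v) := by
  classical
  obtain ⟨p, p', hp⟩ := h
  have hneg : ∀ a : F, -a = a := fun a => by linear_combination (-a) * h2
  have hmk : ∀ {W : Submodule F (ι → F)} {a c : ι → F}, a ∈ W → c ∈ W → bform hQ a c = 1 → ∀ s : F,
      asHom h2 (Q a) s + Q c ≠ 0 → Moves hQ W a (asHom h2 (Q a) s + Q c)⁻¹ := by
    intro W a c ha hc hac s hs
    have hd : Q (c + s • a) = asHom h2 (Q a) s + Q c := by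
      rw [q_add hQ, q_smul hQ, map_smul, b_symm hQ c a, hac, smul_eq_mul]
      show _ = Q a * s ^ 2 + s + Q c
      ring
    have hb : bform hQ (c + s • a) a = 1 := by
      rw [map_add, map_smul, LinearMap.add_apply, LinearMap.smul_apply, b_symm hQ c a, hac, b_self hQ, h2,
        zero_mul, smul_zero, add_zero]
    exact ⟨_, W.add_mem hc (W.smul_mem _ ha), hd ▸ hs, by rw [hb]; exact one_ne_zero,
      by rw [hd, hb, one_pow, inv_mul_cancel₀ hs]⟩
  suffices ∃ s s' : F, asHom h2 (Q z) s + Q w ≠ 0 ∧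
      asHom h2 (Q z') s' + Q w' = asHom h2 (Q z) s + Q w by
    obtain ⟨s, s', h1, h3⟩ := this
    refine ⟨_, inv_ne_zero h1, hmk hz hw hzw s h1, ?_⟩
    rw [hneg, ← h3]
    exact hmk hz' hw' hzw' s' (h3 ▸ h1)
  have heq : asHom h2 (Q z') p' + Q w' = asHom h2 (Q z) p + Q w := by
    linear_combination hp - (asHom h2 (Q z) p - Q w') * h2
  by_cases h0 : asHom h2 (Q z) p + Q w ≠ 0
  · exact ⟨p, p', h0, heq⟩
  push Not at h0
  have hq : 7 ≤ Fintype.card F := by
    rcases hF.2 with h | ⟨-, h⟩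
    · exact h
    exfalso
    have hz0 : w + p • z = 0 := h _ (U.add_mem hw (U.smul_mem _ hz)) (by
      rw [q_add hQ, q_smul hQ, map_smul, b_symm hQ w z, hzw, smul_eq_mul, ← h0]
      show _ = Q z * p ^ 2 + p + Q w
      ring)
    have := congrArg (bform hQ z) hz0
    rw [map_add, map_smul, hzw, b_self hQ, h2, zero_mul, smul_zero, add_zero, map_zero] at this
    exact one_ne_zero this
  obtain ⟨a, a', heq', hne⟩ : ∃ a a' : F, asHom h2 (Q z') a' = asHom h2 (Q z) a ∧ asHom h2 (Q z) a ≠ 0 := by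
    let φ : F × F →+ F := (asHom h2 (Q z)).coprod (asHom h2 (Q z'))
    obtain ⟨c, -, hc⟩ := Finset.exists_le_card_fiber_of_mul_le_card_of_maps_to
      (s := (Finset.univ : Finset (F × F))) (t := (Finset.univ : Finset F)) (f := φ)
      (n := Fintype.card F) (fun _ _ => Finset.mem_univ _) Finset.univ_nonempty
      (by rw [Finset.card_univ, Finset.card_univ, Fintype.card_prod])
    by_contra hall
    push Not at hall
    obtain ⟨x₀, hx₀⟩ := Finset.card_pos.1 (lt_of_lt_of_le Fintype.card_pos hc)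
    simp only [Finset.mem_filter, Finset.mem_univ, true_and] at hx₀
    have hle := Finset.card_le_card_of_injOn (fun x => x - x₀)
      (s := Finset.univ.filter fun x : F × F => φ x = c)
      (t := (Finset.univ.filter fun s : F => asHom h2 (Q z) s = 0) ×ˢ
        Finset.univ.filter fun s : F => asHom h2 (Q z') s = 0) (fun x hx => by
        simp only [Finset.coe_filter, Finset.mem_univ, true_and, Set.mem_setOf_eq] at hx
        have hk : φ (x - x₀) = 0 := by rw [map_sub, hx, hx₀, sub_self]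
        have hk' : asHom h2 (Q z) (x - x₀).1 + asHom h2 (Q z') (x - x₀).2 = 0 := hk
        have e : asHom h2 (Q z') (x - x₀).2 = asHom h2 (Q z) (x - x₀).1 := by
          rw [eq_neg_of_add_eq_zero_right hk', hneg]
        simp only [Finset.coe_product, Finset.coe_filter, Set.mem_prod, Set.mem_setOf_eq, Finset.mem_univ, true_and]
        exact ⟨hall _ _ e, by rw [e]; exact hall _ _ e⟩)
      (fun x _ y _ hxy => sub_left_injective hxy)
    rw [Finset.card_product] at hle
    have h4 := Nat.mul_le_mul (card_asHom_ker h2 hzQ) (card_asHom_ker h2 hz'Q)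
    omega
  exact ⟨p + a, p' + a', by rw [map_add]; intro h; exact hne (by linear_combination h - h0),
    by rw [map_add, map_add, heq']; linear_combination heq⟩

variable {U'' : Submodule F (ι → F)} (hU'' : ∀ x ∈ U'', x ∈ perp hQ U'' → x = 0) (hF'' : Fat Q U'')
include hU'' hF''

/-- Of three vectors in three planes two admit opposite moves. -/
lemma exists_moves_of_three {z z' z'' : ι → F} (hz : z ∈ U) (hz' : z' ∈ U') (hz'' : z'' ∈ U'') (h0 : z ≠ 0)
    (h0' : z' ≠ 0) (h0'' : z'' ≠ 0) :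
    (∃ v : F, v ≠ 0 ∧ Moves hQ U z v ∧ Moves hQ U' z' (-v)) ∨
    (∃ v : F, v ≠ 0 ∧ Moves hQ U z v ∧ Moves hQ U'' z'' (-v)) ∨
    (∃ v : F, v ≠ 0 ∧ Moves hQ U' z' v ∧ Moves hQ U'' z'' (-v)) := by
  classical
  by_cases hzQ : Q z = 0
  · obtain ⟨v, hv, hm⟩ := exists_moves hQ hU' hF' hz' h0'
    exact Or.inl ⟨-v, neg_ne_zero.2 hv, moves_of_singular hQ hU hF hz h0 hzQ (neg_ne_zero.2 hv),
      by rwa [neg_neg]⟩
  by_cases hz'Q : Q z' = 0
  · obtain ⟨v, hv, hm⟩ := exists_moves hQ hU hF hz h0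
    exact Or.inl ⟨v, hv, hm, moves_of_singular hQ hU' hF' hz' h0' hz'Q (neg_ne_zero.2 hv)⟩
  by_cases hz''Q : Q z'' = 0
  · obtain ⟨v, hv, hm⟩ := exists_moves hQ hU hF hz h0
    exact Or.inr (Or.inl ⟨v, hv, hm, moves_of_singular hQ hU'' hF'' hz'' h0'' hz''Q (neg_ne_zero.2 hv)⟩)
  by_cases h2 : (2 : F) = 0
  swap
  · exact Or.inl (exists_opposite_moves hQ hU hF hU' hF' h2 hz hz' hzQ hz'Q)
  have mk : ∀ {W : Submodule F (ι → F)}, (∀ x ∈ W, x ∈ perp hQ W → x = 0) → ∀ {a : ι → F}, a ∈ W → a ≠ 0 →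
      ∃ c ∈ W, bform hQ a c = 1 := by
    intro W hW a ha ha0
    obtain ⟨y, hy, hya⟩ := exists_mem_b_ne_zero hQ (fun h => ha0 (hW a ha h))
    exact ⟨(bform hQ y a)⁻¹ • y, W.smul_mem _ hy,
      by rw [map_smul, b_symm hQ a y, smul_eq_mul, inv_mul_cancel₀ hya]⟩
  obtain ⟨w, hw, hzw⟩ := mk hU hz h0
  obtain ⟨w', hw', hzw'⟩ := mk hU' hz' h0'
  obtain ⟨w'', hw'', hzw''⟩ := mk hU'' hz'' h0''
  by_contra hcon
  push Not at hcon
  obtain ⟨hc1, hc2, hc3⟩ := hcon
  have k1 := exists_equal_moves hQ hU hF hU' hF' h2 hz hz' hzQ hz'Q hw hw' hzw hzw'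
  have k2 := exists_equal_moves hQ hU hF hU'' hF'' h2 hz hz'' hzQ hz''Q hw hw'' hzw hzw''
  have k3 := exists_equal_moves hQ hU' hF' hU'' hF'' h2 hz' hz'' hz'Q hz''Q hw' hw'' hzw' hzw''
  set R := (asHom h2 (Q z)).range with hR
  have hidx : R.index ≤ 2 := by
    have h1 : R.index * Nat.card R = Fintype.card F := by
      rw [← Nat.card_eq_fintype_card]; exact R.index_mul_card
    have h3 : Nat.card (asHom h2 (Q z)).ker ≤ 2 := by
      rw [Nat.card_eq_fintype_card, Fintype.card_of_subtype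
        (Finset.univ.filter fun s : F => asHom h2 (Q z) s = 0) (fun s => by simp)]
      exact card_asHom_ker h2 hzQ
    have h4 := AddSubgroup.card_mul_index (asHom h2 (Q z)).ker
    rw [AddSubgroup.index_ker, Nat.card_eq_fintype_card (α := F)] at h4
    change Nat.card (asHom h2 (Q z)).ker * Nat.card R = _ at h4
    have h5 : 0 < Nat.card R := Nat.card_pos
    refine Nat.le_of_mul_le_mul_right ?_ h5
    rw [h1, ← h4]
    exact Nat.mul_le_mul_right _ h3
  have hno1 : Q w + Q w' ∉ R := fun ⟨p, hp⟩ => by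
    obtain ⟨v, hv, m1, m2⟩ := k1 ⟨p, 0, by rw [map_zero, add_zero]; exact hp⟩
    exact hc1 v hv m1 m2
  have hno2 : Q w + Q w'' ∉ R := fun ⟨p, hp⟩ => by
    obtain ⟨v, hv, m1, m2⟩ := k2 ⟨p, 0, by rw [map_zero, add_zero]; exact hp⟩
    exact hc2 v hv m1 m2
  have hidx2 : R.index = 2 := by
    have h6 : R.index ≠ 0 := AddSubgroup.index_ne_zero_of_finite
    have h7 : R.index ≠ 1 := fun h => hno1 ((AddSubgroup.index_eq_one.1 h) ▸ AddSubgroup.mem_top _)
    omega
  have hsame : (asHom h2 (Q z')).range ≤ R := by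
    rintro _ ⟨p', rfl⟩
    by_contra hp'
    have := AddSubgroup.add_self_mem_of_index_two hidx2 (Q w + Q w')
    have hm := (AddSubgroup.add_mem_iff_of_index_two hidx2 (a := Q w + Q w')
      (b := asHom h2 (Q z') p')).2 (iff_of_false hno1 hp')
    obtain ⟨p, hp⟩ := hm
    obtain ⟨v, hv, m1, m2⟩ := k1 ⟨p, p', by rw [hp]; linear_combination (asHom h2 (Q z') p') * h2⟩
    exact hc1 v hv m1 m2
  have hrange : (asHom h2 (Q z')).range = R := by
    refine le_antisymm hsame fun x hx => ?_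
    have hcardle : Nat.card R ≤ Nat.card (asHom h2 (Q z')).range := by
      have h1 : R.index * Nat.card R = Fintype.card F := by
        rw [← Nat.card_eq_fintype_card]; exact R.index_mul_card
      have h3 : Nat.card (asHom h2 (Q z')).ker ≤ 2 := by
        rw [Nat.card_eq_fintype_card, Fintype.card_of_subtype
          (Finset.univ.filter fun s : F => asHom h2 (Q z') s = 0) (fun s => by simp)]
        exact card_asHom_ker h2 hz'Q
      have h4 := AddSubgroup.card_mul_index (asHom h2 (Q z')).ker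
      rw [AddSubgroup.index_ker, Nat.card_eq_fintype_card (α := F), ← h1, hidx2] at h4
      change Nat.card (asHom h2 (Q z')).ker * Nat.card (asHom h2 (Q z')).range = _ at h4
      refine Nat.le_of_mul_le_mul_left ?_ (show 0 < 2 by norm_num)
      rw [← h4]
      exact Nat.mul_le_mul_right _ h3
    have := AddSubgroup.eq_of_le_of_card_ge hsame hcardle
    rw [this]; exact hx
  have hmem : Q w' + Q w'' ∈ (asHom h2 (Q z')).range := by
    rw [hrange]
    have h := (AddSubgroup.add_mem_iff_of_index_two hidx2).2 (iff_of_false hno1 hno2)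
    rwa [show Q w + Q w' + (Q w + Q w'') = Q w' + Q w'' by linear_combination Q w * h2] at h
  obtain ⟨p, hp⟩ := hmem
  obtain ⟨v, hv, m1, m2⟩ := k3 ⟨p, 0, by rw [map_zero, add_zero]; exact hp⟩
  exact hc3 v hv m1 m2

end CfsgLib.OrthGeo
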