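import Cfsg.Agent.OrthGeo.DecompForms

/-! Overgroups of orthogonal decomposition stabilisers in odd characteristic, first half: from a root element
with vectors spread over several members to a root element with first vector inside a member. -/

set_option autoImplicit false
set_option linter.unusedSectionVars false

namespace CfsgLib.OrthGeo

open Cfsg Cfsg.Geo Module CfsgLib.DecompProj
open scoped Matrix MatrixGroups

variable {ι : Type} [Fintype ι] [DecidableEq ι] {F : Type*} [Field F] [Fintype F]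
variable {Q : (ι → F) → F} (hQ : IsNondegenerateQuadraticForm Q)
variable {t k : ℕ} {D : Fin t → Submodule F (ι → F)}
variable {M : Subgroup (GL ι F)}

/-- All scalar multiples of the second vector give root elements in `M`. -/
def EAll (Q : (ι → F) → F) (M : Subgroup (GL ι F)) (z w : ι → F) : Prop := ∀ s : F, EIn Q M z (s • w)

include hQ

lemma bform_smul_right_zero {z w : ι → F} (h : bform hQ z w = 0) (s : F) : bform hQ z (s • w) = 0 := by
  rw [map_smul, h, smul_zero]

lemma EAll.smul {z w : ι → F} (h : EAll Q M z w) (r : F) : EAll Q M z (r • w) := fun s => by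
  rw [smul_smul]; exact h _

lemma EAll.add {z w w' : ι → F} (h : EAll Q M z w) (h' : EAll Q M z w') (hz : Q z = 0) (hw : bform hQ z w = 0)
    (hw' : bform hQ z w' = 0) : EAll Q M z (w + w') := fun s => by
  rw [smul_add]
  exact (h s).add hQ (h' s) hz (bform_smul_right_zero hQ hw s) (bform_smul_right_zero hQ hw' s)

lemma EAll.sub {z w w' : ι → F} (h : EAll Q M z w) (h' : EAll Q M z w') (hz : Q z = 0) (hw : bform hQ z w = 0)
    (hw' : bform hQ z w' = 0) : EAll Q M z (w - w') := fun s => by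
  rw [smul_sub]
  exact (h s).sub hQ (h' s) hz (bform_smul_right_zero hQ hw s) (bform_smul_right_zero hQ hw' s)

lemma EAll.of_smul {z w : ι → F} {r : F} (h : EAll Q M z (r • w)) (hr : r ≠ 0) : EAll Q M z w := fun s => by
  have := h (s / r)
  rwa [smul_smul, div_mul_cancel₀ _ hr] at this

lemma EAll.conj {z w : ι → F} (h : EAll Q M z w) (hz : Q z = 0) (hw : bform hQ z w = 0) {g : GL ι F} (hg : g ∈ M)
    (hgI : g ∈ Cfsg.isometryGroup F Q) :
    EAll Q M ((g : Matrix ι ι F) *ᵥ z) ((g : Matrix ι ι F) *ᵥ w) := fun s => by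
  rw [← Matrix.mulVec_smul]
  exact (h s).conj hQ hz (bform_smul_right_zero hQ hw s) hg hgI

lemma EAll.displacement {z w : ι → F} (h : EAll Q M z w) (hz : Q z = 0) (hw : bform hQ z w = 0) {g : GL ι F}
    (hg : g ∈ M) (hgI : g ∈ Cfsg.isometryGroup F Q) (hfix : (g : Matrix ι ι F) *ᵥ z = z) :
    EAll Q M z ((g : Matrix ι ι F) *ᵥ w - w) := fun s => by
  rw [smul_sub, ← Matrix.mulVec_smul]
  exact (h s).displacement hQ hz (bform_smul_right_zero hQ hw s) hg hgI hfix

lemma EAll.swap {z x : ι → F} (h : EAll Q M z x) (hz : Q z = 0) (hx : Q x = 0) (hzx : bform hQ z x = 0) :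
    EAll Q M x z := fun s => by
  have h1 := (h s).swap hQ hz (by rw [q_smul hQ, hx, mul_zero]) (bform_smul_right_zero hQ hzx s)
  obtain ⟨g, hg, e⟩ := h1
  exact ⟨g, hg, by rw [e, eichlerMat_smul_left hQ]⟩

variable (hD : IsOrthogonalMDecomposition Q k D) (hS : decompositionStabilizer D ⊓ omegaGL Q ≤ M)
variable (hn : 5 ≤ Fintype.card ι)
include hD

lemma b_proj {i : Fin t} {v : ι → F} (hv : v ∈ D i) (x : ι → F) :
    bform hQ v x = bform hQ v (proj hD.decomp.decomp i x) := by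
  conv_lhs => rw [← sum_proj hD.decomp.decomp x, map_sum]
  exact Finset.sum_eq_single i
    (fun j _ hj => member_b_eq_zero hQ hD (Ne.symm hj) hv (proj_mem hD.decomp.decomp j x)) (by simp)

lemma b_proj' {i : Fin t} {v : ι → F} (hv : v ∈ D i) (x : ι → F) :
    bform hQ x v = bform hQ v (proj hD.decomp.decomp i x) := by rw [b_symm hQ, b_proj hQ hD hv]

include hS hn

lemma eichler_member_mem {i : Fin t} {c e : ι → F} (hc : c ∈ D i) (he : e ∈ D i) (hcQ : Q c = 0)
    (hce : bform hQ c e = 0) : eichler hQ hcQ hce ∈ M := by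
  refine hS ⟨mem_decompositionStabilizer_of_maps hD.decomp.decomp 1 fun j x hx => ?_,
    eichler_mem_omega hQ hn hcQ hce⟩
  rw [eichler_mulVec hQ]
  by_cases hji : j = i
  · subst hji
    exact (D j).sub_mem ((D j).sub_mem ((D j).add_mem hx ((D j).smul_mem _ hc)) ((D j).smul_mem _ he))
      ((D j).smul_mem _ hc)
  · rw [member_b_eq_zero hQ hD (Ne.symm hji) he hx, member_b_eq_zero hQ hD (Ne.symm hji) hc hx]
    simpa using hx

lemma eAll_member {i : Fin t} {c e : ι → F} (hc : c ∈ D i) (he : e ∈ D i) (hcQ : Q c = 0)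
    (hce : bform hQ c e = 0) : EAll Q M c e := fun s =>
  eIn_of_mem hQ hcQ (bform_smul_right_zero hQ hce s)
    (eichler_member_mem hQ hD hS hn hc ((D i).smul_mem s he) hcQ _)

lemma reflection_pair_mem {i m : Fin t} {a a' : ι → F} (ha : a ∈ D i) (ha' : a' ∈ D m) (hQa : Q a ≠ 0)
    (hQa' : Q a' ≠ 0) (h : Q a = Q a') : reflection hQ hQa * reflection hQ hQa' ∈ M := by
  refine hS ⟨mem_decompositionStabilizer_of_maps hD.decomp.decomp 1 fun j x hx => ?_,
    reflection_pair_mem_omega_of_eq hQ hn hQa hQa' h⟩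
  have step : ∀ {l : Fin t} {b : ι → F} (_ : b ∈ D l) (hb : Q b ≠ 0), ∀ y ∈ D j,
      (reflection hQ hb : Matrix ι ι F) *ᵥ y ∈ D j := by
    intro l b hb hbQ y hy
    rw [reflection_mulVec hQ]
    by_cases hjl : j = l
    · subst hjl; exact (D j).sub_mem hy ((D j).smul_mem _ hb)
    · rw [member_b_eq_zero hQ hD (Ne.symm hjl) hb hy]; simpa using hy
  rw [Units.val_mul, ← Matrix.mulVec_mulVec]
  exact step ha hQa _ (step ha' hQa' x hx)

variable (hMI : M ≤ Cfsg.isometryGroup F Q)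
include hMI

/-- Isolating one reflection direction of the second vector. -/
lemma isolate (h2 : (2 : F) ≠ 0) {z w a a' a'' : ι → F} {i m m' : Fin t} (hz : Q z = 0) (hzw : bform hQ z w = 0)
    (h : EAll Q M z w) (ha : a ∈ D i) (ha' : a' ∈ D m) (ha'' : a'' ∈ D m') (him : i ≠ m) (him' : i ≠ m')
    (hmm : m ≠ m') {η : F} (hη : η ≠ 0) (hQa : Q a = η) (hQa' : Q a' = η) (hQa'' : Q a'' = η)
    (hza : bform hQ a z = 0) (hza' : bform hQ a' z = 0) (hza'' : bform hQ a'' z = 0)
    (haw : bform hQ a w ≠ 0) : EAll Q M z a := by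
  have n1 : Q a ≠ 0 := hQa ▸ hη
  have n2 : Q a' ≠ 0 := hQa' ▸ hη
  have n3 : Q a'' ≠ 0 := hQa'' ▸ hη
  have e12 := member_b_eq_zero hQ hD him ha ha'
  have e31 := member_b_eq_zero hQ hD (Ne.symm him') ha'' ha
  have e32 := member_b_eq_zero hQ hD (Ne.symm hmm) ha'' ha'
  have hpair : ∀ {c : ι → F} (hc : Q c ≠ 0), Q c = η → bform hQ a c = 0 → ∀ x,
      ((reflection hQ n1 * reflection hQ hc : GL ι F) : Matrix ι ι F) *ᵥ x - x =
        (-(η⁻¹ * bform hQ a x)) • a + (-(η⁻¹ * bform hQ c x)) • c := by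
    intro c hc hcη hac x
    rw [Units.val_mul, ← Matrix.mulVec_mulVec, reflection_mulVec hQ hc, reflection_mulVec hQ n1, map_sub,
      map_smul, hac, smul_zero, sub_zero, hcη, hQa]
    module
  have hf : ∀ {c : ι → F} (hc : Q c ≠ 0), Q c = η → bform hQ a c = 0 → bform hQ c z = 0 →
      ((reflection hQ n1 * reflection hQ hc : GL ι F) : Matrix ι ι F) *ᵥ z = z := by
    intro c hc hcη hac hcz
    rw [← sub_eq_zero, hpair hc hcη hac, hza, hcz]
    simp
  have hg1 := reflection_pair_mem hQ hD hS hn ha ha' n1 n2 (hQa.trans hQa'.symm)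
  have hg2 := reflection_pair_mem hQ hD hS hn ha ha'' n1 n3 (hQa.trans hQa''.symm)
  have h1 := h.displacement hQ hz hzw hg1 (hMI hg1) (hf n2 hQa' e12 hza')
  rw [hpair n2 hQa' e12] at h1
  have ea'' : bform hQ a a'' = 0 := member_b_eq_zero hQ hD him' ha ha''
  have hd : bform hQ z ((-(η⁻¹ * bform hQ a w)) • a + (-(η⁻¹ * bform hQ a' w)) • a') = 0 := by
    simp [-bform_apply, b_symm hQ z, hza, hza']
  have h3 := h1.displacement hQ hz hd hg2 (hMI hg2) (hf n3 hQa'' ea'' hza'')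
  rw [hpair n3 hQa'' ea''] at h3
  simp only [map_add, map_smul, e31, e32, e12, b_self hQ, hQa, smul_zero, add_zero, mul_zero, neg_zero,
    zero_smul, smul_eq_mul] at h3
  refine h3.of_smul hQ ?_
  field_simp
  simpa [h2, hη, -bform_apply] using haw

/-- A member in which the first vector vanishes but the second does not gives a pure long root. -/
lemma long_of_missing (h2 : (2 : F) ≠ 0) (hk : 3 ≤ k) (hq : 5 ≤ Fintype.card F ∨ 5 ≤ k) (ht : 3 ≤ t) {η : F}
    (hη : η ≠ 0) (hpv : ∀ i, IsPerpValue (U := D i) hQ η) {z w : ι → F} {l : Fin t} (hz : Q z = 0)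
    (hzw : bform hQ z w = 0) (h : EAll Q M z w) (hzl : proj hD.decomp.decomp l z = 0)
    (hwl : proj hD.decomp.decomp l w ≠ 0) : ∃ c ∈ D l, Q c = 0 ∧ c ≠ 0 ∧ EAll Q M z c := by
  have hdec := hD.decomp.decomp
  have hU := member_radical_free hQ hD l
  have hd : finrank F (D l) = k := hdec.finrank_eq l
  obtain ⟨a, ha, haQ, hab⟩ := exists_value_b_ne_zero hQ h2 hU (by omega) (hq.imp_right fun _ => by omega) hη
    (proj_mem hdec l w) hwl
  rw [← b_proj hQ hD ha] at hab
  have hza : ∀ x ∈ D l, bform hQ x z = 0 := fun x hx => by rw [b_proj hQ hD hx, hzl, map_zero]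
  obtain ⟨m, hm, m', hm', hmm⟩ := Finset.one_lt_card.1 (show 1 < (Finset.univ.erase l).card by
    rw [Finset.card_erase_of_mem (Finset.mem_univ l), Finset.card_univ, Fintype.card_fin]; omega)
  obtain ⟨a', ha', hza', ha'Q⟩ := hpv m (proj hdec m z) (proj_mem hdec m z)
  obtain ⟨a'', ha'', hza'', ha''Q⟩ := hpv m' (proj hdec m' z) (proj_mem hdec m' z)
  rw [b_symm hQ, ← b_proj hQ hD ha'] at hza'
  rw [b_symm hQ, ← b_proj hQ hD ha''] at hza''
  have hEa := isolate hQ hD hS hn hMI h2 hz hzw h ha ha' ha'' (Ne.symm (Finset.ne_of_mem_erase hm))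
    (Ne.symm (Finset.ne_of_mem_erase hm')) hmm hη haQ ha'Q ha''Q (hza a ha) hza' hza'' hab
  obtain ⟨c, hc, hcQ, hc0, hac⟩ := exists_singular_perp hQ h2 hU (by omega) hη (hpv l) ha haQ
  obtain ⟨e, he, hea⟩ := exists_mem_b_ne_zero hQ (S := D l ⊓ perp hQ (Submodule.span F {c})) (v := a) (by
    intro hmem
    obtain ⟨f, hf, -, hcf, U', hle, hperp, hU', -, hdecU⟩ := exists_hyp_split hQ h2 hU hc hc0 hcQ
    have hcc := b_self_eq_zero hQ hcQ
    have hca : bform hQ c a = 0 := by rw [b_symm hQ]; exact hac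
    have ha' := hdecU a ha
    rw [hca, zero_smul, sub_zero] at ha'
    have hzero : a - bform hQ f a • c = 0 := hU' _ ha' fun x hx => by
      have h1 := hmem x ⟨hle hx, (mem_perp_span_singleton hQ).2 (hperp x hx).1⟩
      rw [map_sub, map_smul, h1, b_symm hQ x c, (hperp x hx).1, smul_zero, sub_zero]
    rw [sub_eq_zero] at hzero
    apply hη
    rw [← haQ, hzero, q_smul hQ, hcQ, mul_zero])
  have hce : bform hQ c e = 0 := (mem_perp_span_singleton hQ).1 he.2
  have hg := eichler_member_mem hQ hD hS hn hc he.1 hcQ hce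
  have h4 := hEa.displacement hQ hz (by rw [b_symm hQ]; exact hza a ha) hg (hMI hg)
    (eichler_fix hQ hcQ hce (hza c hc) (hza e he.1))
  rw [eichler_mulVec hQ, b_symm hQ c a, hac] at h4
  simp only [zero_smul, mul_zero, sub_zero, add_sub_cancel_left] at h4
  exact ⟨c, hc, hcQ, hc0, h4.of_smul hQ hea⟩

/-- The same, with the roles exchanged: a root element with first vector inside a member, second outside. -/
lemma pure_of_missing (h2 : (2 : F) ≠ 0) (hk : 3 ≤ k) (hq : 5 ≤ Fintype.card F ∨ 5 ≤ k) (ht : 3 ≤ t) {η : F}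
    (hη : η ≠ 0) (hpv : ∀ i, IsPerpValue (U := D i) hQ η) {z w : ι → F} {l : Fin t} (hz : Q z = 0)
    (hzw : bform hQ z w = 0) (h : EAll Q M z w) (hzl : proj hD.decomp.decomp l z = 0)
    (hwl : proj hD.decomp.decomp l w ≠ 0) (hz0 : z ≠ 0) :
    ∃ j, ∃ c ∈ D j, Q c = 0 ∧ c ≠ 0 ∧ ∃ r, bform hQ c r = 0 ∧ r ∉ D j ∧ EAll Q M c r := by
  obtain ⟨c, hc, hcQ, hc0, hE⟩ := long_of_missing hQ hD hS hn hMI h2 hk hq ht hη hpv hz hzw h hzl hwl
  have hzc : bform hQ z c = 0 := by rw [b_proj' hQ hD hc, hzl, map_zero]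
  refine ⟨l, c, hc, hcQ, hc0, z, by rw [b_symm hQ]; exact hzc, fun hzD => hz0 ?_, hE.swap hQ hz hcQ hzc⟩
  rwa [proj_of_mem hD.decomp.decomp hzD, if_pos rfl] at hzl

/-- A short root element in one member, with first vector outside it, gives a pure root element. -/
lemma pure_of_short (h2 : (2 : F) ≠ 0) (hk : 3 ≤ k) (hq : 5 ≤ Fintype.card F ∨ 5 ≤ k) (ht : 4 ≤ t ∨ (3 ≤ k ∧ 3 ≤ t))
    {η : F} (hη : η ≠ 0) (hpv : ∀ i, IsPerpValue (U := D i) hQ η) {z a : ι → F} {j : Fin t} (hz : Q z = 0)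
    (ha : a ∈ D j) (haQ : Q a = η) (hza : bform hQ a z = 0) (h : EAll Q M z a) (hzj : z ∉ D j) :
    ∃ j, ∃ c ∈ D j, Q c = 0 ∧ c ≠ 0 ∧ ∃ r, bform hQ c r = 0 ∧ r ∉ D j ∧ EAll Q M c r := by
  classical
  have hdec := hD.decomp.decomp
  have ht3 : 3 ≤ t := by omega
  have hU := member_radical_free hQ hD j
  have hz0 : z ≠ 0 := fun h0 => hzj (h0 ▸ (D j).zero_mem)
  have hza' : bform hQ z a = 0 := by rw [b_symm hQ]; exact hza
  by_cases hzj0 : proj hdec j z = 0
  · exact pure_of_missing hQ hD hS hn hMI h2 hk hq ht3 hη hpv hz hza' h hzj0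
      (by rw [proj_of_mem hdec ha, if_pos rfl]; exact fun h0 => hη (by rw [← haQ, h0, q_zero hQ])) hz0
  have hQa : Q a ≠ 0 := haQ ▸ hη
  by_cases hcomp : ∃ m, m ≠ j ∧ ∃ x' ∈ D m, bform hQ x' z = 0 ∧ Q x' = -η
  · obtain ⟨m, hmj, x', hx', hx'z, hx'Q⟩ := hcomp
    obtain ⟨hU1, hd1⟩ := inf_perp_split hQ hU ha (b_self_ne_zero hQ h2 hU hQa)
    have hd : finrank F (D j) = k := hdec.finrank_eq j
    have hy : proj hdec j z ∈ D j ⊓ perp hQ (Submodule.span F {a}) :=
      ⟨proj_mem hdec j z, (mem_perp_span_singleton hQ).2 (by rw [← b_proj hQ hD ha]; exact hza)⟩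
    obtain ⟨x, hx, hxQ, hxb⟩ := exists_value_b_ne_zero hQ h2 hU1 (by omega) (hq.imp_right fun _ => by omega)
      (neg_ne_zero.2 hη) hy hzj0
    rw [← b_proj hQ hD hx.1] at hxb
    set b := bform hQ x z with hb
    have hax : bform hQ a x = 0 := (mem_perp_span_singleton hQ).1 hx.2
    have hxa : bform hQ x a = 0 := by rw [b_symm hQ]; exact hax
    have nx : Q x ≠ 0 := hxQ ▸ neg_ne_zero.2 hη
    have nx' : Q x' ≠ 0 := hx'Q ▸ neg_ne_zero.2 hη
    have hh := reflection_pair_mem hQ hD hS hn hx.1 hx' nx nx' (hxQ.trans hx'Q.symm)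
    have hhz : ((reflection hQ nx * reflection hQ nx' : GL ι F) : Matrix ι ι F) *ᵥ z = z + (η⁻¹ * b) • x := by
      rw [Units.val_mul, ← Matrix.mulVec_mulVec, reflection_mulVec hQ nx', hx'z, mul_zero, zero_smul, sub_zero,
        reflection_mulVec hQ nx, hxQ, ← hb]
      rw [inv_neg, neg_mul, neg_smul, sub_neg_eq_add]
    have hha : ((reflection hQ nx * reflection hQ nx' : GL ι F) : Matrix ι ι F) *ᵥ a = a := by
      rw [Units.val_mul, ← Matrix.mulVec_mulVec, reflection_mulVec hQ nx',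
        member_b_eq_zero hQ hD hmj hx' ha, mul_zero, zero_smul, sub_zero, reflection_mulVec hQ nx, hxa,
        mul_zero, zero_smul, sub_zero]
    have h' := h.conj hQ hz hza' hh (hMI hh)
    rw [hhz, hha] at h'
    set z' := z + (η⁻¹ * b) • x with hz'
    have hz'Q : Q z' = 0 := by rw [← hhz, mem_isometryGroup.1 (hMI hh), hz]
    have hz'a : bform hQ z' a = 0 := by
      rw [hz', map_add, map_smul, LinearMap.add_apply, LinearMap.smul_apply, hza', hxa, smul_zero, add_zero]
    have hsa := bform_smul_right_zero hQ hz'a b⁻¹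
    have hg := (h' b⁻¹).mem hQ hz'Q hsa
    have hz'z : bform hQ z' z = η⁻¹ * b * b := by
      rw [hz', map_add, map_smul, LinearMap.add_apply, LinearMap.smul_apply, b_self hQ, hz, mul_zero, zero_add,
        ← hb, smul_eq_mul]
    have hgz : (eichler hQ hz'Q hsa : Matrix ι ι F) *ᵥ z = (-(η⁻¹ * b)) • (x + a) := by
      rw [eichler_mulVec hQ, hz'z, map_smul, LinearMap.smul_apply, hza, smul_zero, zero_smul, add_zero, q_smul hQ,
        haQ, smul_smul, show b⁻¹ ^ 2 * η * (η⁻¹ * b * b) = 1 by field_simp,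
        show η⁻¹ * b * b * b⁻¹ = η⁻¹ * b by field_simp, hz', one_smul]
      module
    have hga : (eichler hQ hz'Q hsa : Matrix ι ι F) *ᵥ a = a + (2 * η / b) • z' := by
      rw [eichler_mulVec hQ, hz'a, map_smul, LinearMap.smul_apply, b_self hQ, haQ, zero_smul, sub_zero, mul_zero,
        zero_smul, sub_zero, smul_eq_mul]
      congr 2
      field_simp
    have hfin := h.conj hQ hz hza' hg (hMI hg)
    rw [hgz, hga] at hfin
    refine ⟨j, _, (D j).smul_mem _ ((D j).add_mem hx.1 ha), ?_, ?_, _, ?_, ?_, hfin⟩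
    · rw [← hgz, mem_isometryGroup.1 (hMI hg), hz]
    · intro h0
      refine hz0 ?_
      rw [← inv_mulVec_cancel (eichler hQ hz'Q hsa) z, hgz, h0, Matrix.mulVec_zero]
    · rw [← hgz, ← hga, isometry_b hQ (hMI hg)]; exact hza'
    · intro hmem
      apply hzj
      have h1 := (D j).sub_mem hmem ha
      rw [add_sub_cancel_left] at h1
      have h5 := ((D j).smul_mem_iff (div_ne_zero (mul_ne_zero h2 hη) hxb)).1 h1
      rw [hz'] at h5
      have h6 := (D j).sub_mem h5 ((D j).smul_mem (η⁻¹ * b) hx.1)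
      rwa [add_sub_cancel_right] at h6
  -- every component outside `j` is singular and non-zero, and the members are three-dimensional
  push Not at hcomp
  have hsing : ∀ m, m ≠ j → Q (proj hdec m z) = 0 ∧ proj hdec m z ≠ 0 ∧ k = 3 := by
    intro m hm
    have hUm := member_radical_free hQ hD m
    have hdm : finrank F (D m) = k := hdec.finrank_eq m
    have hno : ∀ x' ∈ D m, bform hQ x' (proj hdec m z) = 0 → Q x' ≠ -η := fun x' hx' hxz =>
      hcomp m hm x' hx' (by rw [b_proj hQ hD hx']; exact hxz)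
    have h0 : proj hdec m z ≠ 0 := fun h0 => by
      obtain ⟨x', hx', hx'Q⟩ := exists_value hQ h2 hUm (by omega) (-η)
      exact hno x' hx' (by rw [h0, map_zero]) hx'Q
    have hQ0 : Q (proj hdec m z) = 0 := by
      by_contra hne
      obtain ⟨hU1, hd1⟩ := inf_perp_split hQ hUm (proj_mem hdec m z) (b_self_ne_zero hQ h2 hUm hne)
      obtain ⟨x', hx', hx'Q⟩ := exists_value hQ h2 hU1 (by omega) (-η)
      exact hno x' hx'.1 (by rw [b_symm hQ]; exact (mem_perp_span_singleton hQ).1 hx'.2) hx'Q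
    refine ⟨hQ0, h0, ?_⟩
    by_contra hk3
    obtain ⟨f, hf, -, -, U', hle, hperp, hU', hd', -⟩ := exists_hyp_split hQ h2 hUm (proj_mem hdec m z) h0 hQ0
    obtain ⟨x', hx', hx'Q⟩ := exists_value hQ h2 hU' (by omega) (-η)
    exact hno x' (hle hx') (by rw [b_symm hQ]; exact (hperp x' hx').1) hx'Q
  obtain ⟨i, hij⟩ : ∃ i, i ≠ j := by
    obtain ⟨i, hi⟩ := Finset.card_pos.1 (show 0 < (Finset.univ.erase j).card by
      rw [Finset.card_erase_of_mem (Finset.mem_univ j), Finset.card_univ, Fintype.card_fin]; omega)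
    exact ⟨i, Finset.ne_of_mem_erase hi⟩
  have hk3 : k = 3 := (hsing i hij).2.2
  obtain ⟨l, hlj, hli⟩ : ∃ l, l ≠ j ∧ l ≠ i := by
    obtain ⟨l, hl⟩ := Finset.card_pos.1 (show 0 < ((Finset.univ.erase j).erase i).card by
      rw [Finset.card_erase_of_mem (Finset.mem_erase.2 ⟨hij, Finset.mem_univ i⟩),
        Finset.card_erase_of_mem (Finset.mem_univ j), Finset.card_univ, Fintype.card_fin]; omega)
    simp only [Finset.mem_erase, Finset.mem_univ, and_true] at hl
    exact ⟨l, hl.2, hl.1⟩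
  -- the component in `j` is singular, as the others are
  have hQj : Q (proj hdec j z) = 0 := by
    have h1 : bform hQ (∑ m, proj hdec m z) z = 0 := by rw [sum_proj hdec, b_self hQ, hz, mul_zero]
    rw [map_sum, LinearMap.sum_apply, Finset.sum_eq_single j (fun m _ hm => by
      rw [b_proj hQ hD (proj_mem hdec m z), b_self hQ,
        (hsing m hm).1, mul_zero]) (by simp), b_proj hQ hD (proj_mem hdec j z), b_self hQ] at h1
    exact (mul_eq_zero.1 h1).resolve_left h2
  have hd : finrank F (D j) = k := hdec.finrank_eq j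
  obtain ⟨hU1, hd1⟩ := inf_perp_split hQ hU ha (b_self_ne_zero hQ h2 hU hQa)
  have hzjU : proj hdec j z ∈ D j ⊓ perp hQ (Submodule.span F {a}) :=
    ⟨proj_mem hdec j z, (mem_perp_span_singleton hQ).2 (by rw [← b_proj hQ hD ha]; exact hza)⟩
  obtain ⟨f, hf, hfQ, hzjf, -⟩ := exists_hyp_split hQ h2 hU1 hzjU hzj0 hQj
  obtain ⟨κ, hκ0, hκ1⟩ : ∃ κ : F, κ ≠ 0 ∧ 1 + κ ^ 2 ≠ 0 := by
    by_cases h5 : (5 : F) = 0
    · refine ⟨1, one_ne_zero, ?_⟩
      rw [one_pow, one_add_one_eq_two]; exact h2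
    · refine ⟨2, h2, ?_⟩
      norm_num; exact h5
  -- the norm of the two reflections
  set ρ := -(η * (1 + κ ^ 2))⁻¹ with hρdef
  have hρ : ρ ≠ 0 := neg_ne_zero.2 (inv_ne_zero (mul_ne_zero hη hκ1))
  obtain ⟨hzi, hzi0, -⟩ := hsing i hij
  obtain ⟨f', hf', hf'Q, hzif', -⟩ := exists_hyp_split hQ h2 (member_radical_free hQ hD i) (proj_mem hdec i z) hzi0 hzi
  set x := κ⁻¹ • proj hdec i z + (κ * ρ) • f' with hx
  have hxD : x ∈ D i := (D i).add_mem ((D i).smul_mem _ (proj_mem hdec i z)) ((D i).smul_mem _ hf')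
  have hxQ : Q x = ρ := by
    rw [hx, q_add hQ, q_smul hQ, q_smul hQ, hzi, hf'Q, map_smul, map_smul, LinearMap.smul_apply, hzif']
    simp only [smul_eq_mul, mul_zero, mul_one, zero_add]
    field_simp
  have hxz : bform hQ x z = κ * ρ := by
    rw [b_proj hQ hD hxD, hx, map_add, map_smul, map_smul, LinearMap.add_apply, LinearMap.smul_apply,
      LinearMap.smul_apply, b_self_eq_zero hQ hzi, b_symm hQ f', hzif']
    simp
  set y := proj hdec j z + ρ • f with hy
  have hyD : y ∈ D j := (D j).add_mem (proj_mem hdec j z) ((D j).smul_mem _ hf.1)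
  have hyQ : Q y = ρ := by rw [hy, q_add hQ, q_smul hQ, hQj, hfQ, map_smul, hzjf]; simp
  have hyz : bform hQ y z = ρ := by
    rw [b_proj hQ hD hyD, hy, map_add, map_smul, LinearMap.add_apply, LinearMap.smul_apply,
      b_self_eq_zero hQ hQj, b_symm hQ f, hzjf]
    simp
  have hya : bform hQ y a = 0 := by
    rw [b_symm hQ]
    exact (mem_perp_span_singleton hQ).1 (Submodule.add_mem (D j ⊓ perp hQ (Submodule.span F {a})) hzjU (Submodule.smul_mem _ ρ hf)).2
  have hxy : bform hQ x y = 0 := member_b_eq_zero hQ hD hij hxD hyD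
  have hxa : bform hQ x a = 0 := member_b_eq_zero hQ hD hij hxD ha
  have nx : Q x ≠ 0 := hxQ ▸ hρ
  have ny : Q y ≠ 0 := hyQ ▸ hρ
  have hh := reflection_pair_mem hQ hD hS hn hxD hyD nx ny (hxQ.trans hyQ.symm)
  set d := -(κ • x) - y with hddef
  have hhz : ((reflection hQ nx * reflection hQ ny : GL ι F) : Matrix ι ι F) *ᵥ z = z + d := by
    rw [Units.val_mul, ← Matrix.mulVec_mulVec, reflection_mulVec hQ ny, hyQ, hyz, reflection_mulVec hQ nx, hxQ,
      map_sub, map_smul, hxy, smul_zero, sub_zero, hxz, inv_mul_cancel₀ hρ, one_smul,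
      show ρ⁻¹ * (κ * ρ) = κ by field_simp, hddef]
    abel
  have hha : ((reflection hQ nx * reflection hQ ny : GL ι F) : Matrix ι ι F) *ᵥ a = a := by
    rw [Units.val_mul, ← Matrix.mulVec_mulVec, reflection_mulVec hQ ny, hya, mul_zero, zero_smul, sub_zero,
      reflection_mulVec hQ nx, hxa, mul_zero, zero_smul, sub_zero]
  have h' := h.conj hQ hz hza' hh (hMI hh)
  rw [hhz, hha] at h'
  have hz'Q : Q (z + d) = 0 := by rw [← hhz, mem_isometryGroup.1 (hMI hh), hz]
  have hz'a : bform hQ (z + d) a = 0 := by rw [← hhz, ← hha, isometry_b hQ (hMI hh)]; exact hza'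
  have hsa := bform_smul_right_zero hQ hz'a 1
  have hg := (h' 1).mem hQ hz'Q hsa
  have hdz : bform hQ (z + d) z = η⁻¹ := by
    rw [map_add, LinearMap.add_apply, b_self hQ, hz, mul_zero, zero_add, hddef]
    simp only [map_sub, map_neg, map_smul, LinearMap.sub_apply, LinearMap.neg_apply, LinearMap.smul_apply,
      smul_eq_mul, hxz, hyz, hρdef]
    field_simp
    ring
  have hgz : (eichler hQ hz'Q hsa : Matrix ι ι F) *ᵥ z = -(η⁻¹ • a) - d := by
    rw [eichler_mulVec hQ, hdz, one_smul, hza, haQ, zero_smul, add_zero, mul_inv_cancel₀ hη, one_smul]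
    module
  have hga : (eichler hQ hz'Q hsa : Matrix ι ι F) *ᵥ a = a + (2 * η) • (z + d) := by
    rw [eichler_mulVec hQ, hz'a, one_smul, b_self hQ, haQ]
    simp
  have hfin := h.conj hQ hz hza' hg (hMI hg)
  have hPd : proj hdec l d = 0 := by
    rw [hddef, map_sub, map_neg, map_smul, proj_of_mem hdec hxD, proj_of_mem hdec hyD, if_neg hli, if_neg hlj,
      smul_zero, neg_zero, sub_zero]
  refine pure_of_missing hQ hD hS hn hMI h2 hk hq ht3 hη hpv (l := l) ?_ ?_ hfin ?_ ?_ ?_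
  · rw [mem_isometryGroup.1 (hMI hg), hz]
  · rw [isometry_b hQ (hMI hg)]; exact hza'
  · rw [hgz, map_sub, map_neg, map_smul, hPd, proj_of_mem hdec ha, if_neg hlj]; simp
  · rw [hga, map_add, map_smul, map_add, hPd, proj_of_mem hdec ha, if_neg hlj, zero_add, add_zero]
    exact smul_ne_zero (mul_ne_zero h2 hη) (hsing l hlj).2.1
  · intro h0
    refine hz0 ?_
    rw [← inv_mulVec_cancel (eichler hQ hz'Q hsa) z, h0, Matrix.mulVec_zero]

/-- When every component of the second vector is proportional to that of the first. -/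
lemma pure_of_proportional (h2 : (2 : F) ≠ 0) (hk : 3 ≤ k) (hq : 5 ≤ Fintype.card F ∨ 5 ≤ k) (ht : 3 ≤ t) {η : F}
    (hη : η ≠ 0) (hpv : ∀ i, IsPerpValue (U := D i) hQ η) {z y : ι → F} (hz : Q z = 0)
    (hzy : bform hQ z y = 0) (h : EAll Q M z y) (hy : Q y ≠ 0) (lam : Fin t → F)
    (hlam : ∀ m, proj hD.decomp.decomp m y = lam m • proj hD.decomp.decomp m z)
    {i l : Fin t} (hil : i ≠ l) (hzi : proj hD.decomp.decomp i z ≠ 0) (hzl : proj hD.decomp.decomp l z ≠ 0)
    (hnons : ∃ m, m ≠ i ∧ Q (proj hD.decomp.decomp m z) ≠ 0)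
    (hs : ∃ s : F, s ≠ 0 ∧ s * Q y - (lam i - lam l) ≠ 0 ∧ 2 * (s * Q y) - (lam i - lam l) ≠ 0) :
    ∃ j, ∃ c ∈ D j, Q c = 0 ∧ c ≠ 0 ∧ ∃ r, bform hQ c r = 0 ∧ r ∉ D j ∧ EAll Q M c r := by
  have hdec := hD.decomp.decomp
  obtain ⟨m, hmi, hm⟩ := hnons
  obtain ⟨s, hs0, hs1, hs2⟩ := hs
  set γ := (s ^ 2 * Q y - s * (lam i - lam l))⁻¹ with hγ
  have hden : s ^ 2 * Q y - s * (lam i - lam l) ≠ 0 := by
    rw [show s ^ 2 * Q y - s * (lam i - lam l) = s * (s * Q y - (lam i - lam l)) by ring]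
    exact mul_ne_zero hs0 hs1
  have hγ0 : γ ≠ 0 := inv_ne_zero hden
  have hUi := member_radical_free hQ hD i
  have hdi : finrank F (D i) = k := hdec.finrank_eq i
  obtain ⟨d, hd, hdQ, hzd⟩ := exists_shift hQ h2 hUi (by omega) (proj_mem hdec i z) hzi (neg_ne_zero.2 hγ0)
  rw [b_symm hQ, ← b_proj hQ hD hd, neg_neg] at hzd
  have hUm := member_radical_free hQ hD m
  have hdm : finrank F (D m) = k := hdec.finrank_eq m
  obtain ⟨hU1, hd1⟩ := inf_perp_split hQ hUm (proj_mem hdec m z) (b_self_ne_zero hQ h2 hUm hm)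
  obtain ⟨x', hx', hx'Q⟩ := exists_value hQ h2 hU1 (by omega) (-γ)
  have hx'z : bform hQ x' z = 0 := by
    rw [b_proj hQ hD hx'.1, b_symm hQ]; exact (mem_perp_span_singleton hQ).1 hx'.2
  have hx'y : bform hQ x' y = 0 := by
    rw [b_proj hQ hD hx'.1, hlam, map_smul, ← b_proj hQ hD hx'.1, hx'z, smul_zero]
  have nd : Q d ≠ 0 := hdQ ▸ neg_ne_zero.2 hγ0
  have nx' : Q x' ≠ 0 := hx'Q ▸ neg_ne_zero.2 hγ0
  have hh := reflection_pair_mem hQ hD hS hn hd hx'.1 nd nx' (hdQ.trans hx'Q.symm)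
  have hact : ∀ v, bform hQ x' v = 0 → ((reflection hQ nd * reflection hQ nx' : GL ι F) : Matrix ι ι F) *ᵥ v =
      v + (γ⁻¹ * bform hQ d v) • d := fun v hv => by
    rw [Units.val_mul, ← Matrix.mulVec_mulVec, reflection_mulVec hQ nx', hv, mul_zero, zero_smul, sub_zero,
      reflection_mulVec hQ nd, hdQ, inv_neg, neg_mul, neg_smul, sub_neg_eq_add]
  have hdy : bform hQ d y = lam i * γ := by
    rw [b_proj hQ hD hd, hlam, map_smul, ← b_proj hQ hD hd, hzd, smul_eq_mul]
  have hhz := hact z hx'z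
  rw [hzd, inv_mul_cancel₀ hγ0, one_smul] at hhz
  have hhy := hact y hx'y
  rw [hdy, show γ⁻¹ * (lam i * γ) = lam i by field_simp] at hhy
  have h' := h.conj hQ hz hzy hh (hMI hh)
  rw [hhz, hhy] at h'
  set z' := z + d with hz'
  set y' := y + lam i • d with hy'
  have hz'Q : Q z' = 0 := by rw [← hhz, mem_isometryGroup.1 (hMI hh), hz]
  have hy'Q : Q y' = Q y := by rw [← hhy, mem_isometryGroup.1 (hMI hh)]
  have hz'y' : bform hQ z' y' = 0 := by rw [← hhz, ← hhy, isometry_b hQ (hMI hh), hzy]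
  have hsy := bform_smul_right_zero hQ hz'y' s
  have hg := (h' s).mem hQ hz'Q hsy
  have hfin := h.conj hQ hz hzy hg (hMI hg)
  have hz'z : bform hQ z' z = γ := by
    rw [hz', map_add, LinearMap.add_apply, b_self hQ, hz, mul_zero, zero_add, hzd]
  have hy'z : bform hQ y' z = lam i * γ := by
    rw [hy', map_add, LinearMap.add_apply, b_symm hQ y z, hzy, map_smul, LinearMap.smul_apply, hzd, smul_eq_mul,
      zero_add]
  have hz'y : bform hQ z' y = lam i * γ := by rw [hz', map_add, LinearMap.add_apply, hzy, hdy, zero_add]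
  have hy'y : bform hQ y' y = 2 * Q y + lam i * (lam i * γ) := by
    rw [hy', map_add, LinearMap.add_apply, b_self hQ, map_smul, LinearMap.smul_apply, hdy, smul_eq_mul]
  have hPz' : proj hdec l z' = proj hdec l z := by
    rw [hz', map_add, proj_of_mem hdec hd, if_neg (Ne.symm hil), add_zero]
  have hPy' : proj hdec l y' = lam l • proj hdec l z := by
    rw [hy', map_add, map_smul, proj_of_mem hdec hd, if_neg (Ne.symm hil), smul_zero, add_zero, hlam]
  have hkey : γ * (s ^ 2 * Q y - s * (lam i - lam l)) = 1 := inv_mul_cancel₀ hden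
  refine pure_of_missing hQ hD hS hn hMI h2 hk hq ht hη hpv (l := l) ?_ ?_ hfin ?_ ?_ ?_
  · rw [mem_isometryGroup.1 (hMI hg), hz]
  · rw [isometry_b hQ (hMI hg), hzy]
  · show proj hdec l _ = 0
    rw [eichler_mulVec hQ]
    simp only [map_sub, map_add, map_smul, LinearMap.smul_apply, hPz', hPy', hy'z, hz'z, q_smul hQ, hy'Q, smul_eq_mul]
    match_scalars
    linear_combination -hkey
  · show proj hdec l _ ≠ 0
    rw [eichler_mulVec hQ]
    simp only [map_sub, map_add, map_smul, LinearMap.smul_apply, hPz', hPy', hz'y, hy'y, q_smul hQ, hy'Q, smul_eq_mul,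
      show proj hdec l y = lam l • proj hdec l z from hlam l]
    intro h0
    have h1 : (lam l + s * (2 * Q y + lam i * (lam i * γ)) - lam i * γ * (s * lam l)
        - s ^ 2 * Q y * (lam i * γ)) • proj hdec l z = 0 := by
      rw [← h0]
      module
    refine hzl ((smul_eq_zero.1 h1).resolve_left fun h2' => hs2 ?_)
    linear_combination h2' + lam i * hkey
  · intro h0
    refine hzi ?_
    have : z = 0 := by rw [← inv_mulVec_cancel (eichler hQ hz'Q hsy) z, h0, Matrix.mulVec_zero]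
    rw [this, map_zero]

end CfsgLib.OrthGeo
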