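import Cfsg.Agent.OrthGeo.DecompMonomial
import Cfsg.Agent.OrthGeo.DecompPlane

/-! Overgroups of the stabiliser of an orthogonal decomposition into at least five planes: from an element
outside the stabiliser to a root element with one vector in a single plane. -/

set_option autoImplicit false
set_option linter.unusedSectionVars false

namespace CfsgLib.OrthGeo

open Cfsg Cfsg.Geo Module CfsgLib.DecompProj
open scoped Matrix MatrixGroups commutatorElement

variable {ι : Type} [Fintype ι] [DecidableEq ι] {F : Type*} [Field F] [Fintype F]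
variable {Q : (ι → F) → F} (hQ : IsNondegenerateQuadraticForm Q)
include hQ

/-- An isometry fixing a singular vector and inducing the identity on its perpendicular modulo it. -/
lemma eq_eichlerMat_of_fix {C : GL ι F} (hC : C ∈ Cfsg.isometryGroup F Q) {e f : ι → F} (hf : Q f = 0)
    (hef : bform hQ e f = 1) (hCe : (C : Matrix ι ι F) *ᵥ e = e) (he : Q e = 0)
    (hCv : ∀ v, bform hQ e v = 0 → ∃ r : F, (C : Matrix ι ι F) *ᵥ v = v + r • e) :
    (C : Matrix ι ι F) = eichlerMat Q e (f - (C : Matrix ι ι F) *ᵥ f) := by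
  set y := (C : Matrix ι ι F) *ᵥ f with hy
  have hey : bform hQ e y = 1 := by
    have := isometry_b hQ hC e f
    rwa [hCe, hef] at this
  have hyQ : Q y = 0 := by rw [hy, mem_isometryGroup.1 hC, hf]
  refine Matrix.ext_of_mulVec_single fun i => ?_
  generalize (Pi.single i 1 : ι → F) = x
  set v := x - bform hQ e x • f with hv
  obtain ⟨r, hr⟩ := hCv v (by rw [hv, map_sub, map_smul, hef, smul_eq_mul, mul_one, sub_self])
  have hrv : r = bform hQ v f - bform hQ v y := by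
    have h := isometry_b hQ hC v f
    rw [hr, ← hy, map_add, map_smul, LinearMap.add_apply, LinearMap.smul_apply, hey, smul_eq_mul, mul_one] at h
    linear_combination h
  have hx : x = v + bform hQ e x • f := by rw [hv, sub_add_cancel]
  have hCx : (C : Matrix ι ι F) *ᵥ x = v + r • e + bform hQ e x • y := by
    conv_lhs => rw [hx, Matrix.mulVec_add, Matrix.mulVec_smul, hr, ← hy]
  rw [hCx, eichlerMat_mulVec hQ, hrv, hv]
  simp only [map_sub, map_smul, LinearMap.sub_apply, LinearMap.smul_apply, smul_eq_mul, q_sub hQ, hf, hyQ,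
    b_self hQ, b_symm hQ x, b_symm hQ y f]
  module

/-- A non-singular vector perpendicular to a non-singular vector of a plane. -/
lemma exists_perp_aniso {U : Submodule F (ι → F)} (hU : ∀ x ∈ U, x ∈ perp hQ U → x = 0) (hF : Fat Q U)
    {v : ι → F} (hv : v ∈ U) (hvQ : Q v ≠ 0) : ∃ w ∈ U, Q w ≠ 0 ∧ bform hQ w v = 0 := by
  by_cases h2 : (2 : F) = 0
  · exact ⟨v, hv, hvQ, by rw [b_self hQ, h2, zero_mul]⟩
  have hv0 : v ≠ 0 := fun h => hvQ (by rw [h, q_zero hQ])
  obtain ⟨u, hu, hind⟩ := exists_indep hQ hU hF hv0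
  have h2v : 2 * Q v ≠ 0 := mul_ne_zero h2 hvQ
  refine ⟨u - (bform hQ v u / (2 * Q v)) • v, U.sub_mem hu (U.smul_mem _ hv), ?_, ?_⟩
  · intro h
    refine plane_disc_ne hQ hU hF hv hu hvQ hind ?_
    rw [q_sub hQ, q_smul hQ, map_smul, b_symm hQ u v, smul_eq_mul] at h
    field_simp at h
    linear_combination -h
  · rw [b_symm hQ, map_sub, map_smul, b_self hQ, smul_eq_mul, div_mul_cancel₀ _ h2v, sub_self]

/-- Reflections in vectors whose values have square ratio are equal to reflections of equal value. -/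
lemma exists_scaled {c : ι → F} {η : F} (hη : η ≠ 0) (hcQ : Q c ≠ 0) (h : IsSquare (η / Q c)) :
    ∃ (s : F) (hs : Q (s • c) ≠ 0), Q (s • c) = η ∧ reflection hQ hs = reflection hQ hcQ := by
  obtain ⟨s, hs⟩ := h
  have hQs : Q (s • c) = η := by rw [q_smul hQ, sq, ← hs, div_mul_cancel₀ _ hcQ]
  exact ⟨s, hQs ▸ hη, hQs, reflection_smul hQ hcQ _⟩

/-- Four pairwise independent non-singular vectors of a plane over at least seven elements. -/
lemma exists_four_aniso {U : Submodule F (ι → F)} (hU : ∀ x ∈ U, x ∈ perp hQ U → x = 0) (hF : Fat Q U)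
    (hq : 7 ≤ Fintype.card F) : ∃ y : Fin 4 → (ι → F), (∀ i, y i ∈ U) ∧ (∀ i, Q (y i) ≠ 0) ∧
      ∀ i j, i ≠ j → y j ∉ Submodule.span F {y i} := by
  classical
  obtain ⟨x, hx, hxQ⟩ := exists_q_ne_zero hQ hU (by rw [hF.1]; omega)
  have hx0 : x ≠ 0 := fun h => hxQ (by rw [h, q_zero hQ])
  obtain ⟨u, hu, hind⟩ := exists_indep hQ hU hF hx0
  obtain ⟨h1, -⟩ := card_line_singular hQ hU hF hx hu hxQ hind
  set A := Finset.univ.filter fun s : F => Q (s • x + u) = 0
  have hB : 2 < (Finset.univ \ A).card := by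
    have h := Finset.le_card_sdiff A Finset.univ
    rw [Finset.card_univ] at h
    omega
  obtain ⟨a, b, c, ha, hb, hc, hab, hac, hbc⟩ := Finset.two_lt_card_iff.1 hB
  simp only [A, Finset.mem_sdiff, Finset.mem_univ, true_and, Finset.mem_filter] at ha hb hc
  have hnot : ∀ r : F, r • x + u ∉ Submodule.span F {x} := fun r hr => hind (by
    have := Submodule.sub_mem _ hr (Submodule.smul_mem _ r (Submodule.mem_span_singleton_self x))
    rwa [add_sub_cancel_left] at this)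
  have hnot' : ∀ r : F, x ∉ Submodule.span F {r • x + u} := fun r hr => by
    obtain ⟨e, he⟩ := Submodule.mem_span_singleton.1 hr
    have he0 : e ≠ 0 := fun h => hx0 (by rw [← he, h, zero_smul])
    refine hnot r (Submodule.mem_span_singleton.2 ⟨e⁻¹, ?_⟩)
    conv_lhs => rw [← he]
    rw [inv_smul_smul₀ he0]
  have hnot'' : ∀ r s : F, r ≠ s → s • x + u ∉ Submodule.span F {r • x + u} := fun r s hrs h => by
    obtain ⟨e, he⟩ := Submodule.mem_span_singleton.1 h
    by_cases he1 : e = 1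
    · rw [he1, one_smul] at he
      exact hrs (smul_left_injective F hx0 (add_right_cancel he))
    · refine hind (Submodule.mem_span_singleton.2 ⟨(s - e * r) / (e - 1), ?_⟩)
      have he' : (e - 1) • u = (s - e * r) • x := by linear_combination (norm := module) he
      rw [div_eq_inv_mul, mul_smul, ← he', inv_smul_smul₀ (sub_ne_zero.2 he1)]
  refine ⟨![x, a • x + u, b • x + u, c • x + u], fun i => ?_, fun i => ?_, fun i j hij => ?_⟩
  · fin_cases i <;> simp [hx, U.add_mem (U.smul_mem _ hx) hu]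
  · fin_cases i <;> simp [hxQ, ha, hb, hc]
  · fin_cases i <;> fin_cases j <;> simp at hij ⊢ <;>
      first | exact hnot _ | exact hnot' _ | exact hnot'' _ _ ‹_› | exact hnot'' _ _ (Ne.symm ‹_›)

variable {t k : ℕ} {D : Fin t → Submodule F (ι → F)} (hD : IsOrthogonalMDecomposition Q k D)
variable {M : Subgroup (GL ι F)} (hS : decompositionStabilizer D ⊓ omegaGL Q ≤ M)
variable (hn : 5 ≤ Fintype.card ι) (hMI : M ≤ Cfsg.isometryGroup F Q)
include hD

omit [Fintype F] in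
/-- A map fixing the members carrying a vector fixes it. -/
lemma fix_of_slots [Fintype F] {g : GL ι F} {d : ι → F} (h : ∀ l, proj hD.decomp.decomp l d ≠ 0 → ∀ x ∈ D l,
    (g : Matrix ι ι F) *ᵥ x = x) : (g : Matrix ι ι F) *ᵥ d = d := by
  have hdec := hD.decomp.decomp
  conv_lhs => rw [← sum_proj hdec d, Matrix.mulVec_sum]
  conv_rhs => rw [← sum_proj hdec d]
  refine Finset.sum_congr rfl fun l _ => ?_
  by_cases hl : proj hdec l d = 0
  · rw [hl, Matrix.mulVec_zero]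
  · exact h l hl _ (proj_mem hdec l d)

lemma b_slot_zero {m : Fin t} {u w : ι → F} (hu : u ∈ D m) (hw : proj hD.decomp.decomp m w = 0) :
    bform hQ u w = 0 := by rw [b_proj hQ hD hu, hw, map_zero]

omit hQ in
lemma exists_slot_not_mem (A : Finset (Fin t)) (h : A.card < t) : ∃ m, m ∉ A := by
  by_contra hall
  push Not at hall
  have := Finset.card_le_card (s := (Finset.univ : Finset (Fin t))) (fun m _ => hall m)
  rw [Finset.card_univ, Fintype.card_fin] at this
  omega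

variable (ht : 5 ≤ t) (hF : ∀ i, Fat Q (D i))
include hS hn hMI ht hF

/-- Two non-orthogonal, independent vectors of one value in a member. -/
def IsRot (hQ : IsNondegenerateQuadraticForm Q) (D : Fin t → Submodule F (ι → F)) (m : Fin t) (x y : ι → F) : Prop :=
  x ∈ D m ∧ y ∈ D m ∧ Q x ≠ 0 ∧ Q y = Q x ∧ bform hQ x y ≠ 0 ∧ y ∉ Submodule.span F {x}

lemma exists_isRot (m : Fin t) : ∃ x y, IsRot hQ D m x y := by
  have hU := member_radical_free hQ hD m
  obtain ⟨x, hx, hxQ⟩ := exists_q_ne_zero hQ hU (by rw [(hF m).1]; omega)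
  obtain ⟨y, hy, hyQ, hxy, hind⟩ := exists_rot_partner hQ hU (hF m) hx hxQ
  exact ⟨x, y, hx, hy, hxQ, hyQ, hxy, hind⟩

/-- The rotation of a member by two non-orthogonal reflections of one value. -/
lemma exists_rotation (m : Fin t) : ∃ ρ ∈ M, ρ ∈ decompositionStabilizer D ∧ ρ ∈ Cfsg.isometryGroup F Q ∧
    (∀ w, proj hD.decomp.decomp m w = 0 → (ρ : Matrix ι ι F) *ᵥ w = w) ∧
    (∀ w, (ρ : Matrix ι ι F) *ᵥ w - w ∈ D m) ∧
    (∀ w, (ρ : Matrix ι ι F) *ᵥ w = w → proj hD.decomp.decomp m w = 0) ∧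
    (∀ v ∈ D m, v ≠ 0 → Q v ≠ 0 → ∀ r : F, (ρ : Matrix ι ι F) *ᵥ v ≠ r • v) ∧
    (∃ v ∈ D m, (ρ : Matrix ι ι F) *ᵥ ((ρ : Matrix ι ι F) *ᵥ v) ≠ v) ∧
    (∀ e f, e ∈ D m → f ∈ D m → Q e = 0 → Q f = 0 → bform hQ e f = 1 →
      ∃ r : F, r ≠ 0 ∧ r ≠ 1 ∧ (ρ : Matrix ι ι F) *ᵥ e = r • e ∧ (ρ : Matrix ι ι F) *ᵥ f = r⁻¹ • f) := by
  classical
  have hdec := hD.decomp.decomp
  have hU := member_radical_free hQ hD m
  obtain ⟨x, y, hx, hy, hxQ, heq, hxy, hind⟩ := exists_isRot hQ hD hS hn hMI ht hF m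
  have hyQ : Q y ≠ 0 := heq ▸ hxQ
  have hx0 : x ≠ 0 := fun h0 => hxQ (by rw [h0, q_zero hQ])
  have hcoef : ∀ α β : F, α • x + β • y = 0 → α = 0 ∧ β = 0 := fun α β h0 => by
    by_cases hβ : β = 0
    · rw [hβ, zero_smul, add_zero, smul_eq_zero] at h0
      exact ⟨h0.resolve_right hx0, hβ⟩
    · refine absurd (Submodule.mem_span_singleton.2 ⟨-(β⁻¹ * α), ?_⟩) hind
      rw [neg_smul, mul_smul, eq_neg_of_add_eq_zero_left h0, smul_neg, neg_neg, inv_smul_smul₀ hβ]
  have hxx : bform hQ x x = 2 * Q x := b_self hQ x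
  have hyy : bform hQ y y = 2 * Q x := by rw [b_self hQ, heq]
  have hyx : bform hQ y x = bform hQ x y := b_symm hQ y x
  set ρ := reflection hQ hxQ * reflection hQ hyQ with hρ
  have hρI : ρ ∈ Cfsg.isometryGroup F Q := mul_mem (reflection_mem hQ hxQ) (reflection_mem hQ hyQ)
  have hρv : ∀ w, (ρ : Matrix ι ι F) *ᵥ w = w - ((Q x)⁻¹ * bform hQ y w) • y -
      ((Q x)⁻¹ * (bform hQ x w - (Q x)⁻¹ * bform hQ y w * bform hQ x y)) • x := fun w => by
    rw [hρ, Units.val_mul, ← Matrix.mulVec_mulVec, reflection_mulVec hQ hxQ, reflection_mulVec hQ hyQ, map_sub,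
      map_smul, smul_eq_mul, heq]
  have hfix : ∀ w, (ρ : Matrix ι ι F) *ᵥ w = w → proj hdec m w = 0 := fun w hw => by
    rw [hρv] at hw
    obtain ⟨h1, h2⟩ := hcoef ((Q x)⁻¹ * (bform hQ x w - (Q x)⁻¹ * bform hQ y w * bform hQ x y))
      ((Q x)⁻¹ * bform hQ y w) (by linear_combination (norm := module) -hw)
    have h2' : bform hQ y w = 0 := (mul_eq_zero.1 h2).resolve_left (inv_ne_zero hxQ)
    rw [h2', mul_zero, zero_mul, sub_zero] at h1
    exact plane_eq_zero hQ hU (hF m) hx hy hx0 hind (proj_mem hdec m w)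
      (by rw [← b_proj hQ hD hx]; exact (mul_eq_zero.1 h1).resolve_left (inv_ne_zero hxQ))
      (by rw [← b_proj hQ hD hy]; exact h2')
  have hswap : ∀ (a : ι → F) (ha : Q a ≠ 0), a ∈ D m → ∀ e f, e ∈ D m → f ∈ D m → Q e = 0 → Q f = 0 →
      bform hQ e f = 1 → ∃ r : F, (reflection hQ ha : Matrix ι ι F) *ᵥ e = r • f := by
    intro a ha haD e f he hf heQ hfQ hef
    have he0 : e ≠ 0 := fun h => by simp [h] at hef
    have hfe : f ∉ Submodule.span F {e} := fun h => by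
      obtain ⟨c, rfl⟩ := Submodule.mem_span_singleton.1 h
      rw [map_smul, b_self hQ, heQ, mul_zero, smul_zero] at hef
      exact zero_ne_one hef
    obtain ⟨α, β, hab⟩ := plane_span_of_indep (hd := (hF m).1) he hf he0 hfe a haD
    have hQa : Q a = α * β := by
      rw [hab, q_add hQ, q_smul hQ, q_smul hQ, heQ, hfQ]
      simp [-bform_apply, hef]
      ring
    have hae : bform hQ a e = β := by
      rw [hab, map_add, map_smul, map_smul, LinearMap.add_apply, LinearMap.smul_apply, LinearMap.smul_apply,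
        b_self hQ, heQ, b_symm hQ f e, hef, smul_eq_mul, smul_eq_mul]
      ring
    refine ⟨-((Q a)⁻¹ * β * β), ?_⟩
    rw [reflection_mulVec hQ, hae, hQa]
    rw [hQa] at ha
    obtain ⟨hα, hβ⟩ := mul_ne_zero_iff.1 ha
    rw [hab]
    match_scalars <;> field_simp <;> ring
  refine ⟨ρ, reflection_pair_mem hQ hD hS hn hx hy hxQ hyQ heq.symm,
    mem_decompositionStabilizer_of_maps hdec 1 fun j z hz => ?_, hρI, fun w hw => ?_, fun w => ?_, hfix,
    fun v hv hv0 hvQ r hr => ?_, ⟨y, hy, fun h2 => ?_⟩, fun e f he hf heQ hfQ hef => ?_⟩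
  · rw [hρ, Units.val_mul, ← Matrix.mulVec_mulVec]
    exact reflection_maps_member hQ hD hx hxQ (reflection_maps_member hQ hD hy hyQ hz)
  · rw [hρv, b_slot_zero hQ hD hx hw, b_slot_zero hQ hD hy hw]
    simp
  · rw [hρv, show ∀ p q : ι → F, w - p - q - w = -(p + q) from fun p q => by abel]
    exact neg_mem (add_mem ((D m).smul_mem _ hy) ((D m).smul_mem _ hx))
  · have hr2 : r ^ 2 = 1 := by
      have := congrArg Q hr
      rw [q_smul hQ, mem_isometryGroup.1 hρI] at this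
      exact mul_right_cancel₀ hvQ (by rw [one_mul]; exact this.symm)
    have hpv : proj hdec m v = v := by rw [proj_of_mem hdec hv, if_pos rfl]
    by_cases hr1 : r = 1
    · rw [hr1, one_smul] at hr
      exact hv0 (hpv ▸ hfix v hr)
    have hrm : r = -1 := by
      have : (r - 1) * (r + 1) = 0 := by linear_combination hr2
      exact eq_neg_of_add_eq_zero_left ((mul_eq_zero.1 this).resolve_left (sub_ne_zero.2 hr1))
    obtain ⟨α, β, e⟩ := plane_span_of_indep (hd := (hF m).1) hx hy hx0 hind v hv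
    rw [hrm, hρv, e] at hr
    simp only [map_add, map_smul, smul_eq_mul, hxx, hyy, hyx] at hr
    obtain ⟨h1, h2⟩ := hcoef (bform hQ x y / Q x * (β + bform hQ x y / Q x * α)) (-(bform hQ x y / Q x * α)) (by
      rw [← sub_eq_zero] at hr
      rw [← hr]
      match_scalars <;> field_simp <;> ring)
    have hb : bform hQ x y / Q x ≠ 0 := div_ne_zero hxy hxQ
    rw [neg_eq_zero, mul_eq_zero] at h2
    rw [h2.resolve_left hb, mul_zero, add_zero, mul_eq_zero] at h1
    exact hv0 (by rw [e, h2.resolve_left hb, h1.resolve_left hb, zero_smul, zero_smul, add_zero])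
  · rw [hρv ((ρ : Matrix ι ι F) *ᵥ y), hρv y] at h2
    simp only [map_sub, map_smul, smul_eq_mul, hxx, hyy, hyx] at h2
    obtain ⟨-, h5⟩ := hcoef ((bform hQ x y / Q x) ^ 3 - 2 * (bform hQ x y / Q x))
      (-((bform hQ x y / Q x) ^ 2)) (by
      rw [← sub_eq_zero] at h2
      rw [← h2]
      match_scalars <;> field_simp <;> ring)
    exact div_ne_zero hxy hxQ (pow_eq_zero_iff two_ne_zero |>.1 (neg_eq_zero.1 h5))
  · obtain ⟨p, hp⟩ := hswap y hyQ hy e f he hf heQ hfQ hef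
    obtain ⟨q, hq⟩ := hswap x hxQ hx f e hf he hfQ heQ (by rw [b_symm hQ, hef])
    have hρe : (ρ : Matrix ι ι F) *ᵥ e = (p * q) • e := by
      rw [hρ, Units.val_mul, ← Matrix.mulVec_mulVec, hp, Matrix.mulVec_smul, hq, smul_smul]
    have he0 : e ≠ 0 := fun h => by simp [h] at hef
    have hr0 : p * q ≠ 0 := fun h0 => he0 (by
      rw [← inv_mulVec_cancel ρ e, hρe, h0, zero_smul, Matrix.mulVec_zero])
    refine ⟨p * q, hr0, fun h1 => he0 ?_, hρe, ?_⟩
    · rw [h1, one_smul] at hρe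
      have := hfix e hρe
      rwa [proj_of_mem hdec he, if_pos rfl] at this
    · obtain ⟨p', hp'⟩ := hswap y hyQ hy f e hf he hfQ heQ (by rw [b_symm hQ, hef])
      obtain ⟨q', hq'⟩ := hswap x hxQ hx e f he hf heQ hfQ hef
      have hρf : (ρ : Matrix ι ι F) *ᵥ f = (p' * q') • f := by
        rw [hρ, Units.val_mul, ← Matrix.mulVec_mulVec, hp', Matrix.mulVec_smul, hq', smul_smul]
      have h1 := isometry_b hQ hρI e f
      rw [hρe, hρf, map_smul, map_smul, LinearMap.smul_apply, hef, smul_eq_mul, smul_eq_mul, mul_one] at h1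
      rw [hρf, eq_inv_of_mul_eq_one_left h1]

/-- An element moving a member onto another with all displacements in a plane `P`: two members carry `P`. -/
lemma displacement_two {h : GL ι F} {σ : Equiv.Perm (Fin t)}
    (hσ : ∀ i, (D i).map (Matrix.toLin' (h : Matrix ι ι F)) = D (σ i)) {P : Submodule F (ι → F)}
    (hP : finrank F P ≤ 2) (hmove : ∀ a, (h : Matrix ι ι F) *ᵥ a - a ∈ P) {i : Fin t} (hi : σ i ≠ i) :
    P ≤ D i ⊔ D (σ i) := by
  have hdec := hD.decomp.decomp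
  have hle : D i ≤ (P ⊓ (D i ⊔ D (σ i))).map (proj hdec i) := fun a ha => by
    have hga : (h : Matrix ι ι F) *ᵥ a ∈ D (σ i) := hσ i ▸ ⟨a, ha, Matrix.toLin'_apply _ _⟩
    refine ⟨-((h : Matrix ι ι F) *ᵥ a - a), ⟨neg_mem (hmove a),
      neg_mem (sub_mem (Submodule.mem_sup_right hga) (Submodule.mem_sup_left ha))⟩, ?_⟩
    rw [map_neg, map_sub, proj_of_mem hdec hga, proj_of_mem hdec ha, if_neg (Ne.symm hi), if_pos rfl]
    simp
  have h1 := Submodule.finrank_mono hle
  have h2 := Submodule.finrank_map_le (proj hdec i) (P ⊓ (D i ⊔ D (σ i)))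
  rw [(hF i).1] at h1
  have h3 : P ⊓ (D i ⊔ D (σ i)) = P := Submodule.eq_of_le_of_finrank_le inf_le_left (by omega)
  exact h3 ▸ inf_le_right

/-- A conjugate of a member rotation in the stabiliser: the member maps onto a member. -/
lemma whole_member {g ρ : GL ι F} (hgI : g ∈ Cfsg.isometryGroup F Q) {m : Fin t}
    (hρI : ρ ∈ Cfsg.isometryGroup F Q)
    (hzero : ∀ w, proj hD.decomp.decomp m w = 0 → (ρ : Matrix ι ι F) *ᵥ w = w)
    (hdisp : ∀ w, (ρ : Matrix ι ι F) *ᵥ w - w ∈ D m)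
    (hfix : ∀ w, (ρ : Matrix ι ι F) *ᵥ w = w → proj hD.decomp.decomp m w = 0)
    (heig : ∀ v ∈ D m, v ≠ 0 → Q v ≠ 0 → ∀ r : F, (ρ : Matrix ι ι F) *ᵥ v ≠ r • v)
    (hsq : ∃ v ∈ D m, (ρ : Matrix ι ι F) *ᵥ ((ρ : Matrix ι ι F) *ᵥ v) ≠ v)
    (hmem : g * ρ * g⁻¹ ∈ decompositionStabilizer D) :
    ∃ l, ∀ a ∈ D m, (g : Matrix ι ι F) *ᵥ a ∈ D l := by
  have hdec := hD.decomp.decomp
  obtain ⟨σ, hσ⟩ := hmem
  set h := g * ρ * g⁻¹ with hh
  have hhI : h ∈ Cfsg.isometryGroup F Q := mul_mem (mul_mem hgI hρI) (inv_mem hgI)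
  have hhv : ∀ w, (h : Matrix ι ι F) *ᵥ ((g : Matrix ι ι F) *ᵥ w) =
      (g : Matrix ι ι F) *ᵥ ((ρ : Matrix ι ι F) *ᵥ w) := fun w => by
    rw [hh, Units.val_mul, Units.val_mul, ← Matrix.mulVec_mulVec, ← Matrix.mulVec_mulVec, inv_mulVec_cancel]
  have hgmem : ∀ l, ∀ a ∈ D l, (h : Matrix ι ι F) *ᵥ a ∈ D (σ l) := fun l a ha =>
    hσ l ▸ ⟨a, ha, Matrix.toLin'_apply _ _⟩
  set P := (D m).map (Matrix.toLin' (g : Matrix ι ι F)) with hP
  have hPdim : finrank F P ≤ 2 := (Submodule.finrank_map_le _ _).trans_eq (hF m).1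
  have hmove : ∀ a, (h : Matrix ι ι F) *ᵥ a - a ∈ P := fun a => by
    obtain ⟨w, rfl⟩ : ∃ w, a = (g : Matrix ι ι F) *ᵥ w := ⟨_, (mulVec_inv_cancel g a).symm⟩
    exact ⟨(ρ : Matrix ι ι F) *ᵥ w - w, hdisp w, by rw [Matrix.toLin'_apply, Matrix.mulVec_sub, hhv]⟩
  have hperp : ∀ v, v ∈ perp hQ P ↔ (h : Matrix ι ι F) *ᵥ v = v := by
    intro v
    obtain ⟨w, rfl⟩ : ∃ w, v = (g : Matrix ι ι F) *ᵥ w := ⟨_, (mulVec_inv_cancel g v).symm⟩
    constructor
    · intro hv
      rw [hhv, hzero w]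
      refine member_radical_free hQ hD m _ (proj_mem hdec m w) fun u hu => ?_
      change bform hQ u (proj hdec m w) = 0
      rw [← b_proj hQ hD hu, ← isometry_b hQ hgI]
      exact hv _ ⟨u, hu, Matrix.toLin'_apply _ _⟩
    · intro hv
      rw [hhv] at hv
      have hv' := congrArg (((g⁻¹ : GL ι F) : Matrix ι ι F) *ᵥ ·) hv
      simp only [inv_mulVec_cancel] at hv'
      rintro _ ⟨u, hu, rfl⟩
      change bform hQ (Matrix.toLin' (g : Matrix ι ι F) u) _ = 0
      rw [Matrix.toLin'_apply, isometry_b hQ hgI]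
      exact b_slot_zero hQ hD hu (hfix w hv')
  have hσ1 : ∀ i, σ i = i := by
    intro i
    by_contra hi
    have hle := displacement_two hQ hD hS hn hMI ht hF hσ hPdim hmove hi
    have hother : ∀ l, l ≠ i → l ≠ σ i → ∀ a ∈ D l, (h : Matrix ι ι F) *ᵥ a = a := fun l h1 h2 a ha => by
      refine (hperp a).1 fun v hv => ?_
      obtain ⟨p, hp, q, hq, rfl⟩ := Submodule.mem_sup.1 (hle hv)
      change bform hQ (p + q) a = 0
      rw [map_add, LinearMap.add_apply, member_b_eq_zero hQ hD (Ne.symm h1) hp ha,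
        member_b_eq_zero hQ hD (Ne.symm h2) hq ha, add_zero]
    have hσl : ∀ l, l ≠ i → l ≠ σ i → σ l = l := fun l h1 h2 => by
      obtain ⟨a, ha, ha0⟩ := exists_ne_zero hdec l
      by_contra hne
      exact ha0 (member_ne hQ hD (Ne.symm hne) ha (hother l h1 h2 a ha ▸ hgmem l a ha))
    have hback : σ (σ i) = i := by
      by_contra hne
      have hne' : σ (σ i) ≠ σ i := fun e => hi (σ.injective e)
      exact hne' (σ.injective (hσl _ hne hne'))
    set R := (D i ⊔ D (σ i)) ⊓ perp hQ P with hR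
    have hRmem : ∀ r ∈ R, ∀ l, l ≠ i → l ≠ σ i → proj hdec l r = 0 := fun r hr l h1 h2 => by
      obtain ⟨p, hp, q, hq, rfl⟩ := Submodule.mem_sup.1 hr.1
      rw [map_add, proj_of_mem hdec hp, proj_of_mem hdec hq, if_neg h1, if_neg h2, add_zero]
    have hinj : ∀ r ∈ R, proj hdec i r = 0 → r = 0 := fun r hr h0 => by
      obtain ⟨p, hp, q, hq, rfl⟩ := Submodule.mem_sup.1 hr.1
      rw [map_add, proj_of_mem hdec hp, proj_of_mem hdec hq, if_pos rfl, if_neg (Ne.symm hi), add_zero] at h0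
      subst h0
      rw [zero_add] at hr ⊢
      refine member_ne hQ hD hi hq ?_
      have := hgmem (σ i) q hq
      rwa [(hperp q).1 hr.2, hback] at this
    have hsurj : ∀ a ∈ D i, ∃ r ∈ R, proj hdec i r = a := by
      have hle' : R.map (proj hdec i) ≤ D i := by
        rintro _ ⟨r, -, rfl⟩; exact proj_mem hdec i r
      have h1 := LinearMap.finrank_range_add_finrank_ker ((proj hdec i).comp R.subtype)
      have h2 : LinearMap.ker ((proj hdec i).comp R.subtype) = ⊥ :=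
        (Submodule.eq_bot_iff _).2 fun r hr => Subtype.ext (hinj r.1 r.2 (LinearMap.mem_ker.1 hr))
      rw [h2, finrank_bot, LinearMap.range_comp, Submodule.range_subtype] at h1
      have hsup : finrank F ↥(D i ⊔ D (σ i)) = 4 := by
        have h4 := Submodule.finrank_sup_add_finrank_inf_eq (D i) (D (σ i))
        rw [show D i ⊓ D (σ i) = ⊥ from (Submodule.eq_bot_iff _).2 fun a ha =>
          member_ne hQ hD (Ne.symm hi) ha.1 ha.2, finrank_bot, (hF i).1, (hF (σ i)).1] at h4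
        omega
      have h3 : finrank F ↥(D i ⊔ D (σ i)) ≤ finrank F R + finrank F P :=
        finrank_le_inf_perp hQ (D i ⊔ D (σ i)) P
      have heq : R.map (proj hdec i) = D i :=
        Submodule.eq_of_le_of_finrank_le hle' (by rw [(hF i).1]; omega)
      intro a ha
      obtain ⟨r, hr, hra⟩ := heq.ge ha
      exact ⟨r, hr, hra⟩
    have hi2 : ∀ a ∈ D i, (h : Matrix ι ι F) *ᵥ ((h : Matrix ι ι F) *ᵥ a) = a := fun a ha => by
      obtain ⟨r, hr, hra⟩ := hsurj a ha
      have e1 := proj_mulVec hdec hσ i r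
      have e2 := proj_mulVec hdec hσ (σ i) r
      rw [(hperp r).1 hr.2] at e1 e2
      rw [← hra, ← e1, ← e2, hback]
    obtain ⟨v, hv, hne⟩ := hsq
    refine hne ?_
    have hall : ∀ w, (h : Matrix ι ι F) *ᵥ ((h : Matrix ι ι F) *ᵥ w) = w := fun w => by
      conv_rhs => rw [← sum_proj hdec w]
      conv_lhs => rw [← sum_proj hdec w, Matrix.mulVec_sum, Matrix.mulVec_sum]
      refine Finset.sum_congr rfl fun l _ => ?_
      by_cases h1 : l = i
      · subst h1; exact hi2 _ (proj_mem hdec l w)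
      by_cases h2 : l = σ i
      · subst h2
        obtain ⟨a, ha, hae⟩ := map_eq_of_maps hQ hD (hgmem i) _ (proj_mem hdec (σ i) w)
        rw [← hae, hi2 a ha]
      · rw [hother l h1 h2 _ (proj_mem hdec l w), hother l h1 h2 _ (proj_mem hdec l w)]
    have := hall ((g : Matrix ι ι F) *ᵥ v)
    rw [hhv, hhv] at this
    simpa only [inv_mulVec_cancel] using congrArg (((g⁻¹ : GL ι F) : Matrix ι ι F) *ᵥ ·) this
  have hcomp : ∀ j, ∀ v ∈ P, proj hdec j v ∈ P := by
    intro j v hv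
    rw [← perp_perp hQ P]
    intro r hr
    change bform hQ r (proj hdec j v) = 0
    rw [b_symm hQ, b_proj hQ hD (proj_mem hdec j v), b_symm hQ, ← b_proj hQ hD (proj_mem hdec j r), b_symm hQ]
    refine (show bform hQ v (proj hdec j r) = 0 from ?_)
    have hr' : proj hdec j r ∈ perp hQ P := (hperp _).2 (by
      have e := proj_mulVec hdec hσ j r
      rw [hσ1 j, (hperp r).1 hr] at e
      exact e.symm)
    exact hr' v hv
  obtain ⟨x, hx, hx0⟩ := exists_ne_zero hdec m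
  obtain ⟨l, hl⟩ : ∃ l, proj hdec l ((g : Matrix ι ι F) *ᵥ x) ≠ 0 := by
    by_contra hall
    push Not at hall
    refine hx0 ?_
    rw [← inv_mulVec_cancel g x, ← sum_proj hdec ((g : Matrix ι ι F) *ᵥ x), Finset.sum_eq_zero (fun l _ => hall l),
      Matrix.mulVec_zero]
  refine ⟨l, fun a ha => ?_⟩
  have hgxP : (g : Matrix ι ι F) *ᵥ x ∈ P := ⟨x, hx, Matrix.toLin'_apply _ _⟩
  have hgaP : (g : Matrix ι ι F) *ᵥ a ∈ P := ⟨a, ha, Matrix.toLin'_apply _ _⟩
  by_contra hga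
  obtain ⟨l', hl'l, hl'⟩ : ∃ l', l' ≠ l ∧ proj hdec l' ((g : Matrix ι ι F) *ᵥ a) ≠ 0 := by
    by_contra hall
    push Not at hall
    refine hga ?_
    rw [← sum_proj hdec ((g : Matrix ι ι F) *ᵥ a), Finset.sum_eq_single l (fun j _ hj => hall j hj) (by simp)]
    exact proj_mem hdec l _
  obtain ⟨u₁, hu₁, hp⟩ := hcomp l _ hgxP
  obtain ⟨u₂, hu₂, hp'⟩ := hcomp l' _ hgaP
  rw [Matrix.toLin'_apply] at hp hp'
  set p := proj hdec l ((g : Matrix ι ι F) *ᵥ x)
  set p' := proj hdec l' ((g : Matrix ι ι F) *ᵥ a)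
  have hpD : p ∈ D l := proj_mem hdec l _
  have hp'D : p' ∈ D l' := proj_mem hdec l' _
  have hu₁0 : u₁ ≠ 0 := fun e => hl (by rw [← hp, e, Matrix.mulVec_zero])
  have horth : bform hQ u₁ u₂ = 0 := by
    rw [← isometry_b hQ hgI, hp, hp']
    exact member_b_eq_zero hQ hD (Ne.symm hl'l) hpD hp'D
  have hind12 : u₂ ∉ Submodule.span F {u₁} := fun e => by
    obtain ⟨r, hr⟩ := Submodule.mem_span_singleton.1 e
    refine hl' ?_
    have e1 : p' = r • p := by rw [← hp, ← Matrix.mulVec_smul, hr, hp']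
    have := proj_of_mem hdec hp'D l'
    rw [if_pos rfl] at this
    rw [← this, e1, map_smul, proj_of_mem hdec hpD, if_neg hl'l, smul_zero]
  have hU := member_radical_free hQ hD m
  have hu₁Q : Q u₁ ≠ 0 := fun e => hu₁0 (plane_eq_zero hQ hU (hF m) hu₁ hu₂ hu₁0 hind12 hu₁
    (b_self_eq_zero hQ e) (by rw [b_symm hQ]; exact horth))
  have hρD : (ρ : Matrix ι ι F) *ᵥ u₁ ∈ D m := by simpa using (D m).add_mem (hdisp u₁) hu₁
  obtain ⟨α, β, e⟩ := plane_span_of_indep (hd := (hF m).1) hu₁ hu₂ hu₁0 hind12 _ hρD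
  have hhp : (h : Matrix ι ι F) *ᵥ p ∈ D l := by
    have := hgmem l p hpD
    rwa [hσ1] at this
  have e2 := congrArg (proj hdec l') (show (h : Matrix ι ι F) *ᵥ p = α • p + β • p' by
    rw [← hp, hhv, e, Matrix.mulVec_add, Matrix.mulVec_smul, Matrix.mulVec_smul, hp', hp])
  rw [proj_of_mem hdec hhp, if_neg hl'l, map_add, map_smul, map_smul, proj_of_mem hdec hpD,
    proj_of_mem hdec hp'D, if_neg hl'l, if_pos rfl, smul_zero, zero_add] at e2
  rw [(smul_eq_zero.1 e2.symm).resolve_right hl', zero_smul, add_zero] at e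
  exact heig u₁ hu₁ hu₁0 hu₁Q α e

/-- An element outside the stabiliser fixing a non-singular member vector. -/
def HasFix (Q : (ι → F) → F) (D : Fin t → Submodule F (ι → F)) (M : Subgroup (GL ι F)) : Prop :=
  ∃ g ∈ M, g ∉ decompositionStabilizer D ∧ ∃ i, ∃ a ∈ D i, Q a ≠ 0 ∧ (g : Matrix ι ι F) *ᵥ a = a

omit hQ hD hS hn hMI ht hF in
/-- A root element with singular first vector supported in at most four members, second vector in another. -/
def HasRoot (hdec : Cfsg.Geo.IsMDecomposition k D) (Q : (ι → F) → F) (M : Subgroup (GL ι F)) : Prop :=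
  ∃ d : ι → F, Q d = 0 ∧ d ≠ 0 ∧ ∃ A : Finset (Fin t), A.card ≤ 4 ∧ (∀ l, l ∉ A → proj hdec l d = 0) ∧
    ∃ m, m ∉ A ∧ ∃ x ∈ D m, x ≠ 0 ∧ EIn Q M d x

/-- A rotation of a member turns a root element into one with second vector in that member. -/
lemma root_move {d w : ι → F} {m : Fin t}
    (hd : Q d = 0) (hdw : bform hQ d w = 0) (hdm : proj hD.decomp.decomp m d = 0)
    (hwm : proj hD.decomp.decomp m w ≠ 0) (h : EIn Q M d w) : ∃ x ∈ D m, x ≠ 0 ∧ EIn Q M d x := by
  obtain ⟨ρ, hρM, -, -, hzero, hdisp, hfix, -⟩ := exists_rotation hQ hD hS hn hMI ht hF m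
  exact ⟨_, hdisp w, fun h0 => hwm (hfix w (sub_eq_zero.1 h0)),
    h.displacement hQ hd hdw hρM (hMI hρM) (hzero d hdm)⟩

/-- A member vector mapped to a vector with an empty slot gives an element fixing a member vector. -/
lemma fix_of_zero_slot {g : GL ι F} (hg : g ∈ M) (hgD : g ∉ decompositionStabilizer D) {i : Fin t} {a : ι → F}
    (ha : a ∈ D i) (haQ : Q a ≠ 0) {m : Fin t}
    (hm : proj hD.decomp.decomp m ((g : Matrix ι ι F) *ᵥ a) = 0) : HasFix Q D M := by
  obtain ⟨ρ, hρM, -, hρI, hzero, hdisp, hfix, heig, hsq, -⟩ := exists_rotation hQ hD hS hn hMI ht hF m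
  have hgI := hMI hg
  have hg'M : g⁻¹ * ρ * g ∈ M := mul_mem (mul_mem (inv_mem hg) hρM) hg
  by_cases hg'D : g⁻¹ * ρ * g ∈ decompositionStabilizer D
  swap
  · refine ⟨_, hg'M, hg'D, i, a, ha, haQ, ?_⟩
    rw [Units.val_mul, Units.val_mul, ← Matrix.mulVec_mulVec, ← Matrix.mulVec_mulVec, hzero _ hm, inv_mulVec_cancel]
  have hgi : g⁻¹ ∉ decompositionStabilizer D := fun h => hgD (by simpa using inv_mem h)
  obtain ⟨l, hl⟩ := whole_member hQ hD hS hn hMI ht hF (g := g⁻¹) (ρ := ρ) (inv_mem hgI) hρI hzero hdisp hfix heig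
    hsq (by rwa [inv_inv])
  have hk : 2 ≤ k := (hD.decomp.decomp.finrank_eq m).symm ▸ (hF m).1.ge
  obtain ⟨x, hx, hxQ⟩ := exists_q_ne_zero hQ (member_radical_free hQ hD m) (by rw [(hF m).1]; omega)
  obtain ⟨g'', h1, h2, h3⟩ := exists_fix_of_map hQ hD hS hn (by omega) hk (inv_mem hg) (inv_mem hgI) hgi hx hxQ
    (hl x hx)
  exact ⟨g'', h1, h2, m, x, hx, hxQ, h3⟩

/-- Without fixed vectors two slots of an image cannot carry perpendicular reflections of equal value. -/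
lemma no_pair_slots (hno : ¬ HasFix Q D M) {g : GL ι F} (hg : g ∈ M) (hgD : g ∉ decompositionStabilizer D)
    {i m l : Fin t} {a x x' : ι → F} (ha : a ∈ D i) (haQ : Q a ≠ 0) (hml : m ≠ l) (hx : x ∈ D m) (hx' : x' ∈ D l)
    (hxQ : Q x ≠ 0) (hx'Q : Q x' = Q x) (hxv : bform hQ x ((g : Matrix ι ι F) *ᵥ a) = 0)
    (hx'v : bform hQ x' ((g : Matrix ι ι F) *ᵥ a) = 0) : False := by
  have hdec := hD.decomp.decomp
  have hgI := hMI hg
  have hgi : g⁻¹ ∉ decompositionStabilizer D := fun h => hgD (by simpa using inv_mem h)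
  have hx'Q' : Q x' ≠ 0 := hx'Q ▸ hxQ
  have hxx := reflection_pair_mem hQ hD hS hn hx hx' hxQ hx'Q' hx'Q.symm
  set u := ((g⁻¹ : GL ι F) : Matrix ι ι F) *ᵥ x with hu
  set u' := ((g⁻¹ : GL ι F) : Matrix ι ι F) *ᵥ x' with hu'
  have huQ : Q u = Q x := mem_isometryGroup.1 (inv_mem hgI) x
  have hu'Q : Q u' = Q x' := mem_isometryGroup.1 (inv_mem hgI) x'
  set g' := g⁻¹ * (reflection hQ hxQ * reflection hQ hx'Q') * g with hg'
  have hg'M : g' ∈ M := mul_mem (mul_mem (inv_mem hg) hxx) hg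
  have e1 := conj_reflection hQ (inv_mem hgI) hxQ (huQ ▸ hxQ : Q u ≠ 0) hu.symm
  have e2 := conj_reflection hQ (inv_mem hgI) hx'Q' (hu'Q ▸ hx'Q' : Q u' ≠ 0) hu'.symm
  have hg'eq : g' = reflection hQ (huQ ▸ hxQ : Q u ≠ 0) * reflection hQ (hu'Q ▸ hx'Q' : Q u' ≠ 0) := by
    rw [← e1, ← e2, hg']; group
  by_cases hg'D : g' ∈ decompositionStabilizer D
  swap
  · refine hno ⟨g', hg'M, hg'D, i, a, ha, haQ, ?_⟩
    rw [hg', Units.val_mul, Units.val_mul, Units.val_mul]
    simp only [← Matrix.mulVec_mulVec]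
    simp only [reflection_mulVec hQ, hxv, hx'v, mul_zero, zero_smul, sub_zero, inv_mulVec_cancel]
  obtain ⟨σ, hσ⟩ := hg'D
  have hmove : ∀ a, (g' : Matrix ι ι F) *ᵥ a - a ∈ Submodule.span F {u} ⊔ Submodule.span F {u'} := fun a => by
    rw [hg'eq, Units.val_mul, ← Matrix.mulVec_mulVec, reflection_mulVec hQ, reflection_mulVec hQ,
      show ∀ p r : F, a - p • u' - r • u - a = -(r • u + p • u') from fun p r => by abel]
    exact neg_mem (add_mem
      (Submodule.mem_sup_left (Submodule.smul_mem _ _ (Submodule.mem_span_singleton_self u)))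
      (Submodule.mem_sup_right (Submodule.smul_mem _ _ (Submodule.mem_span_singleton_self u'))))
  by_cases hall : ∀ j, σ j = j
  swap
  · push Not at hall
    obtain ⟨j, hj⟩ := hall
    have hle := displacement_two hQ hD hS hn hMI ht hF hσ (finrank_span_pair_le hQ u u') hmove hj
    obtain ⟨o, ho⟩ := exists_slot_not_mem hD {j, σ j} (by
      have := Finset.card_le_two (a := j) (b := σ j); omega)
    simp only [Finset.mem_insert, Finset.mem_singleton, not_or] at ho
    refine hno (fix_of_zero_slot hQ hD hS hn hMI ht hF (inv_mem hg) hgi hx hxQ (m := o) ?_)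
    obtain ⟨p, hp, q, hq, hpq⟩ :=
      Submodule.mem_sup.1 (hle (Submodule.mem_sup_left (Submodule.mem_span_singleton_self u)))
    rw [← hu, ← hpq, map_add, proj_of_mem hdec hp, proj_of_mem hdec hq, if_neg ho.1, if_neg ho.2, add_zero]
  have hind' : u ∉ Submodule.span F {u'} := fun h => by
    obtain ⟨r, hr⟩ := Submodule.mem_span_singleton.1 h
    have hrx : r • x' = x := by
      have := congrArg ((g : Matrix ι ι F) *ᵥ ·) hr
      simpa [hu, hu', Matrix.mulVec_smul, mulVec_inv_cancel] using this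
    have := congrArg (proj hdec m) hrx
    rw [map_smul, proj_of_mem hdec hx', proj_of_mem hdec hx, if_neg hml, if_pos rfl, smul_zero] at this
    exact hxQ (by rw [← this, q_zero hQ])
  obtain ⟨c, hcu', hcu⟩ := exists_b_one_zero hQ hind'
  have hgc : (g' : Matrix ι ι F) *ᵥ c - c = -((Q u)⁻¹ • u) := by
    rw [hg'eq, Units.val_mul, ← Matrix.mulVec_mulVec]
    simp only [reflection_mulVec hQ, hcu', hcu, mul_zero, zero_smul, sub_zero, mul_one]
    abel
  obtain ⟨j, hj⟩ : ∃ j, Q (proj hdec j u) ≠ 0 := by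
    by_contra h
    push Not at h
    apply hxQ
    rw [← huQ, q_sum_proj hQ hD]
    exact Finset.sum_eq_zero fun j _ => h j
  have hmem : proj hdec j u ∈ Submodule.span F {u} ⊔ Submodule.span F {u'} := by
    have h := hmove (proj hdec j c)
    have := congrArg (proj hdec j) hgc
    rw [map_sub, map_neg, map_smul,
      show proj hdec j ((g' : Matrix ι ι F) *ᵥ c) = (g' : Matrix ι ι F) *ᵥ proj hdec j c by
        conv_lhs => rw [← hall j]
        exact proj_mulVec hdec hσ j c] at this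
    rw [this, neg_mem_iff] at h
    exact (Submodule.smul_mem_iff _ (inv_ne_zero (huQ ▸ hxQ))).1 h
  obtain ⟨p, hp, r, hr, hpr⟩ := Submodule.mem_sup.1 hmem
  obtain ⟨α, rfl⟩ := Submodule.mem_span_singleton.1 hp
  obtain ⟨β, rfl⟩ := Submodule.mem_span_singleton.1 hr
  obtain ⟨o, ho⟩ := exists_slot_not_mem hD {m, l} (by have := Finset.card_le_two (a := m) (b := l); omega)
  simp only [Finset.mem_insert, Finset.mem_singleton, not_or] at ho
  refine hno (fix_of_zero_slot hQ hD hS hn hMI ht hF hg hgD (proj_mem hdec j u) hj (m := o) ?_)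
  rw [← hpr, Matrix.mulVec_add, Matrix.mulVec_smul, Matrix.mulVec_smul, hu, hu', mulVec_inv_cancel,
    mulVec_inv_cancel, map_add, map_smul, map_smul, proj_of_mem hdec hx, proj_of_mem hdec hx', if_neg ho.1,
    if_neg ho.2, smul_zero, smul_zero, add_zero]

/-- Outside the stabiliser: a fixed member vector, or a root element. -/
lemma fix_or_root {g : GL ι F} (hg : g ∈ M) (hgD : g ∉ decompositionStabilizer D) :
    HasFix Q D M ∨ HasRoot hD.decomp.decomp Q M := by
  classical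
  by_cases hno : HasFix Q D M
  · exact Or.inl hno
  right
  have hdec := hD.decomp.decomp
  have hgI := hMI hg
  let i₀ : Fin t := ⟨0, by omega⟩
  have hU₀ := member_radical_free hQ hD i₀
  have hk : 2 ≤ k := (hdec.finrank_eq i₀).symm ▸ (hF i₀).1.ge
  have hzero : ∀ {g : GL ι F}, g ∈ M → g ∉ decompositionStabilizer D → ∀ {i : Fin t} {a : ι → F}, a ∈ D i →
      Q a ≠ 0 → ∀ m, proj hdec m ((g : Matrix ι ι F) *ᵥ a) ≠ 0 :=
    fun hg hgD _ _ ha haQ m hm => hno (fix_of_zero_slot hQ hD hS hn hMI ht hF hg hgD ha haQ hm)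
  have htwo : ∀ a ∈ D i₀, Q a ≠ 0 →
      (Finset.univ.filter fun m => Q (proj hdec m ((g : Matrix ι ι F) *ᵥ a)) ≠ 0).card ≤ 2 := by
    intro a ha haQ
    by_contra hcon
    obtain ⟨p, q, r, hp, hq, hr, hpq, hpr, hqr⟩ := Finset.two_lt_card_iff.1 (not_le.1 hcon)
    simp only [Finset.mem_filter, Finset.mem_univ, true_and] at hp hq hr
    set v := (g : Matrix ι ι F) *ᵥ a with hv
    have hw : ∀ j, Q (proj hdec j v) ≠ 0 → ∃ w ∈ D j, Q w ≠ 0 ∧ bform hQ w v = 0 := fun j hj => by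
      obtain ⟨w, hw, hwQ, hwv⟩ :=
        exists_perp_aniso hQ (member_radical_free hQ hD j) (hF j) (proj_mem hdec j v) hj
      exact ⟨w, hw, hwQ, by rw [b_proj hQ hD hw]; exact hwv⟩
    obtain ⟨wp, hwp, hwpQ, hwpv⟩ := hw p hp
    obtain ⟨wq, hwq, hwqQ, hwqv⟩ := hw q hq
    obtain ⟨wr, hwr, hwrQ, hwrv⟩ := hw r hr
    have key : ∀ {j j' : Fin t} {w w' : ι → F}, j ≠ j' → w ∈ D j → w' ∈ D j' → ∀ (hwQ : Q w ≠ 0) (hw'Q : Q w' ≠ 0),
        bform hQ w v = 0 → bform hQ w' v = 0 → ¬ IsSquare (Q w / Q w') := by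
      intro j j' w w' hjj hw hw' hwQ hw'Q hwv hw'v hsq
      obtain ⟨s, hs, hsQ, -⟩ := exists_scaled hQ hwQ hw'Q hsq
      exact no_pair_slots hQ hD hS hn hMI ht hF hno hg hgD ha haQ hjj hw ((D j').smul_mem s hw') hwQ hsQ hwv
        (by rw [map_smul, LinearMap.smul_apply, hw'v, smul_zero])
    rcases isSquare_div_of_three hwpQ hwqQ hwrQ with h | h | h
    · exact key hpq hwp hwq hwpQ hwqQ hwpv hwqv h
    · exact key hpr hwp hwr hwpQ hwrQ hwpv hwrv h
    · exact key hqr hwq hwr hwqQ hwrQ hwqv hwrv h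
  have hq : 7 ≤ Fintype.card F := by
    by_contra hq
    obtain ⟨a, ha, haQ⟩ := exists_q_ne_zero hQ hU₀ (by rw [(hF i₀).1]; omega)
    have h3 := htwo a ha haQ
    have h4 := Finset.card_le_card (s := (Finset.univ : Finset (Fin t)))
      (t := Finset.univ.filter fun m => Q (proj hdec m ((g : Matrix ι ι F) *ᵥ a)) ≠ 0) fun m _ =>
        Finset.mem_filter.2 ⟨Finset.mem_univ m, fun h0 => hzero hg hgD ha haQ m
          (((hF m).2.resolve_left hq).2 _ (proj_mem hdec m _) h0)⟩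
    rw [Finset.card_univ, Fintype.card_fin] at h4
    omega
  set f : Fin t → (ι → F) →ₗ[F] (ι → F) := fun m => (proj hdec m).comp (Matrix.toLin' (g : Matrix ι ι F)) with hf
  have hfv : ∀ m v, f m v = proj hdec m ((g : Matrix ι ι F) *ᵥ v) := fun m v => by
    rw [hf]; rw [LinearMap.comp_apply, Matrix.toLin'_apply]
  -- four vectors: each is non-singular in at most two slots, so some slot is singular for three of them
  obtain ⟨y, hy, hyQ, hyind⟩ := exists_four_aniso hQ hU₀ (hF i₀) hq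
  set B : Fin t → Finset (Fin 4) := fun m => Finset.univ.filter fun i => Q (f m (y i)) ≠ 0 with hB
  obtain ⟨m, hm⟩ : ∃ m, (B m).card ≤ 1 := by
    by_contra hcon
    push Not at hcon
    have h8 : ∑ m, (B m).card ≤ 8 := by
      simp only [hB, Finset.card_filter]
      rw [Finset.sum_comm]
      refine (Finset.sum_le_sum fun i _ => ?_).trans (by simp : ∑ _i : Fin 4, 2 ≤ 8)
      simpa only [← Finset.card_filter, hfv] using htwo (y i) (hy i) (hyQ i)
    have h12 : ∑ _m : Fin t, 2 ≤ ∑ m, (B m).card := Finset.sum_le_sum fun m _ => hcon m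
    rw [Finset.sum_const, Finset.card_univ, Fintype.card_fin, smul_eq_mul] at h12
    omega
  obtain ⟨i₁, i₂, i₃, hi₁, hi₂, hi₃, hi12, hi13, hi23⟩ := Finset.two_lt_card_iff.1
    (show 2 < (Finset.univ \ B m).card by
      have h := Finset.le_card_sdiff (B m) Finset.univ
      rw [Finset.card_univ, Fintype.card_fin] at h
      omega)
  simp only [hB, Finset.mem_sdiff, Finset.mem_univ, true_and, Finset.mem_filter, not_not] at hi₁ hi₂ hi₃
  obtain ⟨y₁, hy₁, y₂, hy₂, y₃, hy₃, hy₁Q, h12, h13, h23, hm₁, hm₂, hm₃⟩ :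
      ∃ y₁ ∈ D i₀, ∃ y₂ ∈ D i₀, ∃ y₃ ∈ D i₀, Q y₁ ≠ 0 ∧ y₂ ∉ Submodule.span F {y₁} ∧
        y₃ ∉ Submodule.span F {y₁} ∧ y₃ ∉ Submodule.span F {y₂} ∧ Q (f m y₁) = 0 ∧ Q (f m y₂) = 0 ∧
        Q (f m y₃) = 0 :=
    ⟨y i₁, hy i₁, y i₂, hy i₂, y i₃, hy i₃, hyQ i₁, hyind _ _ hi12, hyind _ _ hi13, hyind _ _ hi23, hi₁, hi₂, hi₃⟩
  -- some combination of two of the vectors has an empty slot
  obtain ⟨e, he, he0, hem⟩ : ∃ e ∈ D i₀, e ≠ 0 ∧ f m e = 0 := by
    by_contra hinj
    push Not at hinj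
    have hne : ∀ v ∈ D i₀, v ≠ 0 → f m v ≠ 0 := hinj
    have hindep : ∀ v ∈ D i₀, ∀ w ∈ D i₀, w ∉ Submodule.span F {v} → f m w ∉ Submodule.span F {f m v} := by
      intro v hv w hw hind h
      obtain ⟨c, hc⟩ := Submodule.mem_span_singleton.1 h
      refine hne (w - c • v) ((D i₀).sub_mem hw ((D i₀).smul_mem _ hv)) (fun h0 => hind ?_) ?_
      · rw [sub_eq_zero.1 h0]; exact Submodule.smul_mem _ _ (Submodule.mem_span_singleton_self v)
      · rw [map_sub, map_smul, hc, sub_self]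
    have hmem : ∀ v, f m v ∈ D m := fun v => by rw [hfv]; exact proj_mem hdec m _
    have hy₁0 : y₁ ≠ 0 := fun h => hy₁Q (by rw [h, q_zero hQ])
    obtain ⟨α, β, hab⟩ := plane_span_of_indep (hd := (hF m).1) (hmem y₁) (hmem y₂) (hne y₁ hy₁ hy₁0)
      (hindep y₁ hy₁ y₂ hy₂ h12) _ (hmem y₃)
    have hb : bform hQ (f m y₁) (f m y₂) ≠ 0 := by
      intro h0
      exact hne y₁ hy₁ hy₁0 (plane_eq_zero hQ (member_radical_free hQ hD m) (hF m) (hmem y₁) (hmem y₂)
        (hne y₁ hy₁ hy₁0) (hindep y₁ hy₁ y₂ hy₂ h12) (hmem y₁) (b_self_eq_zero hQ hm₁) (by rw [b_symm hQ]; exact h0))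
    have h0 : α * β * bform hQ (f m y₁) (f m y₂) = 0 := by
      have := hm₃
      rw [hab, q_add hQ, q_smul hQ, q_smul hQ, hm₁, hm₂] at this
      simp only [map_smul, LinearMap.smul_apply, smul_eq_mul] at this
      linear_combination this
    rcases mul_eq_zero.1 ((mul_eq_zero.1 h0).resolve_right hb) with h | h
    · exact hindep y₂ hy₂ y₃ hy₃ h23 (by
        rw [hab, h, zero_smul, zero_add]; exact Submodule.smul_mem _ _ (Submodule.mem_span_singleton_self _))
    · exact hindep y₁ hy₁ y₃ hy₃ h13 (by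
        rw [hab, h, zero_smul, add_zero]; exact Submodule.smul_mem _ _ (Submodule.mem_span_singleton_self _))
  rw [hfv] at hem
  have heQ : Q e = 0 := by
    by_contra h
    exact hzero hg hgD he h m hem
  -- an element fixing the singular vector
  obtain ⟨ρ, hρM, -, hρI, hρzero, hρdisp, hρfix, hρeig, hρsq, -⟩ := exists_rotation hQ hD hS hn hMI ht hF m
  have hgi : g⁻¹ ∉ decompositionStabilizer D := fun h => hgD (by simpa using inv_mem h)
  obtain ⟨h, hhM, hhD, hhe⟩ : ∃ h ∈ M, h ∉ decompositionStabilizer D ∧ (h : Matrix ι ι F) *ᵥ e = e := by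
    refine ⟨g⁻¹ * ρ * g, mul_mem (mul_mem (inv_mem hg) hρM) hg, fun hst => ?_, by
      rw [Units.val_mul, Units.val_mul, ← Matrix.mulVec_mulVec, ← Matrix.mulVec_mulVec, hρzero _ hem,
        inv_mulVec_cancel]⟩
    obtain ⟨l, hl⟩ := whole_member hQ hD hS hn hMI ht hF (g := g⁻¹) (ρ := ρ) (inv_mem hgI) hρI hρzero hρdisp
      hρfix hρeig hρsq (by rwa [inv_inv])
    obtain ⟨x, hx, hxQ⟩ := exists_q_ne_zero hQ (member_radical_free hQ hD m) (by rw [(hF m).1]; omega)
    obtain ⟨o, ho⟩ := exists_slot_not_mem hD {l} (by rw [Finset.card_singleton]; omega)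
    rw [Finset.mem_singleton] at ho
    exact hno (fix_of_zero_slot hQ hD hS hn hMI ht hF (inv_mem hg) hgi hx hxQ (m := o)
      (by rw [proj_of_mem hdec (hl x hx), if_neg ho]))
  have hhI := hMI hhM
  obtain ⟨y, hy, hye⟩ := exists_mem_b_ne_zero hQ (fun h0 => he0 (hU₀ e he h0))
  obtain ⟨y', hy', hey'⟩ : ∃ y' ∈ D i₀, bform hQ e y' = 1 := ⟨(bform hQ y e)⁻¹ • y, (D i₀).smul_mem _ hy,
    by rw [map_smul, b_symm hQ e y, smul_eq_mul, inv_mul_cancel₀ hye]⟩
  obtain ⟨f', hf', hf'Q, hef⟩ : ∃ f' ∈ D i₀, Q f' = 0 ∧ bform hQ e f' = 1 :=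
    ⟨y' - Q y' • e, (D i₀).sub_mem hy' ((D i₀).smul_mem _ he),
      by rw [q_sub hQ, q_smul hQ, heQ, map_smul, b_symm hQ y' e, hey', smul_eq_mul]; ring,
      by rw [map_sub, map_smul, hey', b_self_eq_zero hQ heQ, smul_zero, sub_zero]⟩
  obtain ⟨m₁, hm₁i, hm₁⟩ : ∃ m₁, m₁ ≠ i₀ ∧ proj hdec m₁ ((h : Matrix ι ι F) *ᵥ f') ≠ 0 := by
    by_contra hall
    push Not at hall
    have hfD : (h : Matrix ι ι F) *ᵥ f' ∈ D i₀ := by
      rw [← sum_proj hdec ((h : Matrix ι ι F) *ᵥ f'), Finset.sum_eq_single i₀ (fun j _ hj => hall j hj) (by simp)]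
      exact proj_mem hdec i₀ _
    obtain ⟨o, ho⟩ := exists_slot_not_mem hD {i₀} (by rw [Finset.card_singleton]; omega)
    rw [Finset.mem_singleton] at ho
    refine hno (fix_of_zero_slot hQ hD hS hn hMI ht hF hhM hhD ((D i₀).add_mem he hf') ?_ (m := o) ?_)
    · rw [q_add hQ, heQ, hf'Q, hef]; simp
    · rw [Matrix.mulVec_add, hhe, map_add, proj_of_mem hdec he, proj_of_mem hdec hfD, if_neg ho, if_neg ho, add_zero]
  obtain ⟨τ, hτM, -, hτI, hτzero, -, -, -, -, hτhyp⟩ := exists_rotation hQ hD hS hn hMI ht hF i₀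
  obtain ⟨lam, hlam0, hlam1, hτe, hτf⟩ := hτhyp e f' he hf' heQ hf'Q hef
  have hτinv : ∀ v w, (τ : Matrix ι ι F) *ᵥ v = w → ((τ⁻¹ : GL ι F) : Matrix ι ι F) *ᵥ w = v := fun v w hvw => by
    rw [← hvw, inv_mulVec_cancel]
  have hτi : ((τ⁻¹ : GL ι F) : Matrix ι ι F) *ᵥ e = lam⁻¹ • e := hτinv _ _ (by
    rw [Matrix.mulVec_smul, hτe, smul_smul, inv_mul_cancel₀ hlam0, one_smul])
  have hτif : ((τ⁻¹ : GL ι F) : Matrix ι ι F) *ᵥ f' = lam • f' := hτinv _ _ (by
    rw [Matrix.mulVec_smul, hτf, smul_smul, mul_inv_cancel₀ hlam0, one_smul])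
  have hhie : ((h⁻¹ : GL ι F) : Matrix ι ι F) *ᵥ e = e := by
    conv_lhs => rw [← hhe]
    rw [inv_mulVec_cancel]
  -- modulo the singular vector the rotation acts trivially on its perpendicular
  have hτv : ∀ v, bform hQ e v = 0 → ∃ r : F, (τ : Matrix ι ι F) *ᵥ v = v + r • e := by
    intro v hv
    have hfe : f' ∉ Submodule.span F {e} := fun h0 => by
      obtain ⟨c, rfl⟩ := Submodule.mem_span_singleton.1 h0
      rw [map_smul, b_self_eq_zero hQ heQ, smul_zero] at hef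
      exact zero_ne_one hef
    obtain ⟨α, β, hab⟩ := plane_span_of_indep (hd := (hF i₀).1) he hf' he0 hfe _ (proj_mem hdec i₀ v)
    have hβ : β = 0 := by
      rw [b_proj hQ hD he, hab, map_add, map_smul, map_smul, b_self_eq_zero hQ heQ, hef, smul_zero, zero_add,
        smul_eq_mul, mul_one] at hv
      exact hv
    have hrest := hτzero (v - proj hdec i₀ v) (by
      rw [map_sub, proj_of_mem hdec (proj_mem hdec i₀ v), if_pos rfl, sub_self])
    refine ⟨α * lam - α, ?_⟩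
    rw [Matrix.mulVec_sub, hab, hβ, zero_smul, add_zero, Matrix.mulVec_smul, hτe, sub_eq_iff_eq_add] at hrest
    rw [hrest]
    module
  have hmod : ∀ (G : GL ι F) (c : F), G ∈ Cfsg.isometryGroup F Q → (G : Matrix ι ι F) *ᵥ e = c • e → c ≠ 0 →
      ∀ v, bform hQ e v = 0 → bform hQ e ((G : Matrix ι ι F) *ᵥ v) = 0 := by
    intro G c hG hGe hc v hv
    have := isometry_b hQ hG e v
    rw [hGe, hv, map_smul, LinearMap.smul_apply, smul_eq_zero] at this
    exact this.resolve_left hc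
  set C := h * τ * h⁻¹ * τ⁻¹ with hC
  have hCM : C ∈ M := mul_mem (mul_mem (mul_mem hhM hτM) (inv_mem hhM)) (inv_mem hτM)
  have hCv : ∀ v, bform hQ e v = 0 → ∃ r : F, (C : Matrix ι ι F) *ᵥ v = v + r • e := by
    intro v hv
    set v₁ := ((τ⁻¹ : GL ι F) : Matrix ι ι F) *ᵥ v with hv₁
    have hv₁e : bform hQ e v₁ = 0 := hmod _ _ (inv_mem hτI) hτi (inv_ne_zero hlam0) v hv
    obtain ⟨r₁, hr₁⟩ := hτv v₁ hv₁e
    rw [hv₁, mulVec_inv_cancel] at hr₁
    set v₂ := ((h⁻¹ : GL ι F) : Matrix ι ι F) *ᵥ v₁ with hv₂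
    obtain ⟨r₂, hr₂⟩ := hτv v₂ (hmod _ 1 (inv_mem hhI) (by rw [one_smul]; exact hhie) one_ne_zero v₁ hv₁e)
    refine ⟨r₂ - r₁, ?_⟩
    rw [hC, Units.val_mul, Units.val_mul, Units.val_mul, ← Matrix.mulVec_mulVec, ← Matrix.mulVec_mulVec,
      ← Matrix.mulVec_mulVec, ← hv₁, ← hv₂, hr₂, Matrix.mulVec_add, Matrix.mulVec_smul, hhe, hv₂, mulVec_inv_cancel]
    linear_combination (norm := module) -hr₁
  have hCe : (C : Matrix ι ι F) *ᵥ e = e := by
    rw [hC, Units.val_mul, Units.val_mul, Units.val_mul, ← Matrix.mulVec_mulVec, ← Matrix.mulVec_mulVec,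
      ← Matrix.mulVec_mulVec, hτi, Matrix.mulVec_smul, hhie, Matrix.mulVec_smul, hτe, smul_smul,
      inv_mul_cancel₀ hlam0, one_smul, hhe]
  set r := ((h⁻¹ : GL ι F) : Matrix ι ι F) *ᵥ f' - f' with hr
  obtain ⟨c, hc⟩ := hτv r (by
    have h1 := isometry_b hQ (inv_mem hhI) e f'
    rw [hhie] at h1
    rw [hr, map_sub, h1, sub_self])
  have hCf : (C : Matrix ι ι F) *ᵥ f' =
      (1 - lam) • ((h : Matrix ι ι F) *ᵥ f') + lam • f' + (lam * c) • e := by
    have hh1 : ((h⁻¹ : GL ι F) : Matrix ι ι F) *ᵥ f' = f' + r := by rw [hr]; abel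
    have hh2 : (h : Matrix ι ι F) *ᵥ r = f' - (h : Matrix ι ι F) *ᵥ f' := by
      rw [hr, Matrix.mulVec_sub, mulVec_inv_cancel]
    rw [hC, Units.val_mul, Units.val_mul, Units.val_mul, ← Matrix.mulVec_mulVec, ← Matrix.mulVec_mulVec,
      ← Matrix.mulVec_mulVec, hτif, Matrix.mulVec_smul, hh1]
    simp only [Matrix.mulVec_smul, Matrix.mulVec_add, hτf, hc, hh2, hhe]
    match_scalars <;> field_simp <;> ring
  have hE := eq_eichlerMat_of_fix hQ (hMI hCM) hf'Q hef hCe heQ hCv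
  have hW : bform hQ e (f' - (C : Matrix ι ι F) *ᵥ f') = 0 := by
    have h1 := isometry_b hQ (hMI hCM) e f'
    rw [hCe] at h1
    rw [map_sub, h1, sub_self]
  obtain ⟨x, hx, hx0, hEx⟩ := root_move hQ hD hS hn hMI ht hF heQ hW (m := m₁)
    (by rw [proj_of_mem hdec he, if_neg hm₁i]) (by
      rw [map_sub, hCf, map_add, map_add, map_smul, map_smul, map_smul, proj_of_mem hdec hf', proj_of_mem hdec he,
        if_neg hm₁i, if_neg hm₁i, smul_zero, smul_zero, add_zero, add_zero, zero_sub, neg_ne_zero]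
      exact smul_ne_zero (sub_ne_zero.2 (Ne.symm hlam1)) hm₁) ⟨C, hCM, hE⟩
  exact ⟨e, heQ, he0, {i₀}, by rw [Finset.card_singleton]; omega,
    fun l hl => by rw [proj_of_mem hdec he, if_neg (by simpa using hl)],
    m₁, by simpa using hm₁i, x, hx, hx0, hEx⟩

end CfsgLib.OrthGeo
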