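import Cfsg.Agent.OrthGeo.DecompTwo

/-! Orthogonal decompositions into at least five planes: from an element fixing a member vector to a root
element with second vector in a single plane. -/

set_option autoImplicit false
set_option linter.unusedSectionVars false

namespace CfsgLib.OrthGeo

open Cfsg Cfsg.Geo Module CfsgLib.DecompProj
open scoped Matrix MatrixGroups

variable {ι : Type} [Fintype ι] [DecidableEq ι] {F : Type*} [Field F] [Fintype F]
variable {Q : (ι → F) → F} (hQ : IsNondegenerateQuadraticForm Q)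
include hQ

/-- A reflection applied after perpendicular ones. -/
lemma reflection_after {d w e : ι → F} (hd : Q d ≠ 0) {g : GL ι F} (hg : (g : Matrix ι ι F) *ᵥ w = w + e)
    (hde : bform hQ d e = 0) :
    ((reflection hQ hd * g : GL ι F) : Matrix ι ι F) *ᵥ w = w + (e - ((Q d)⁻¹ * bform hQ d w) • d) := by
  rw [Units.val_mul, ← Matrix.mulVec_mulVec, hg, reflection_mulVec hQ, map_add, hde, add_zero]
  abel

lemma q_scaled {d z : ι → F} {v : F} (hd : Q d ≠ 0) (h : bform hQ d z ^ 2 = v * Q d) :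
    Q (((Q d)⁻¹ * bform hQ d z) • d) = v := by
  rw [q_smul hQ, mul_pow, h]; field_simp

lemma isSquare_moves {d e z : ι → F} {v u : F} (hd : bform hQ d z ^ 2 = v * Q d) (he : bform hQ e z ^ 2 = u * Q e)
    (hd0 : bform hQ d z ≠ 0) (he0 : bform hQ e z ≠ 0) (hvu : IsSquare (v / u)) : IsSquare (Q d / Q e) := by
  obtain ⟨r, hr⟩ := hvu
  have hv : v ≠ 0 := fun h => pow_ne_zero 2 hd0 (by rw [hd, h, zero_mul])
  have hu : u ≠ 0 := fun h => pow_ne_zero 2 he0 (by rw [he, h, zero_mul])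
  have heQ : Q e ≠ 0 := fun h => pow_ne_zero 2 he0 (by rw [he, h, mul_zero])
  have hr0 : r ≠ 0 := fun h => div_ne_zero hv hu (by rw [hr, h, mul_zero])
  rw [div_eq_iff hu] at hr
  refine ⟨bform hQ d z / (bform hQ e z * r), ?_⟩
  field_simp
  linear_combination (-(Q e)) * hd + (-(Q d * Q e)) * hr + (r ^ 2 * Q d) * he

variable {t k : ℕ} {D : Fin t → Submodule F (ι → F)} (hD : IsOrthogonalMDecomposition Q k D)
variable {M : Subgroup (GL ι F)} (hS : decompositionStabilizer D ⊓ omegaGL Q ≤ M)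
variable (hn : 5 ≤ Fintype.card ι) (hMI : M ≤ Cfsg.isometryGroup F Q) (ht : 5 ≤ t) (hF : ∀ i, Fat Q (D i))
include hD hS hn hMI ht hF

lemma slot_pair_mem {p q : Fin t} {d e : ι → F} (hd : d ∈ D p) (he : e ∈ D q) (hdQ : Q d ≠ 0) (heQ : Q e ≠ 0)
    (h : IsSquare (Q d / Q e)) : reflection hQ hdQ * reflection hQ heQ ∈ M ∧
      reflection hQ hdQ * reflection hQ heQ ∈ decompositionStabilizer D := by
  obtain ⟨s, hs, hsQ, hsr⟩ := exists_scaled hQ hdQ heQ h
  refine ⟨hsr ▸ reflection_pair_mem hQ hD hS hn hd ((D q).smul_mem s he) hdQ hs hsQ.symm,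
    mem_decompositionStabilizer_of_maps hD.decomp.decomp 1 fun j z hz => ?_⟩
  rw [Units.val_mul, ← Matrix.mulVec_mulVec]
  exact reflection_maps_member hQ hD hd hdQ (reflection_maps_member hQ hD he heQ hz)

/-- A stabiliser element moving a reflection vector by a singular vector gives a root element. -/
lemma root_of_move {z : ι → F} (hz : Q z ≠ 0) {i : Fin t} {a : ι → F} (ha : a ∈ D i) (haQ : Q a ≠ 0)
    (hpair : reflection hQ hz * reflection hQ haQ ∈ M) {h : GL ι F} (hh : h ∈ M)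
    (hhD : h ∈ decompositionStabilizer D) {d : ι → F} (hhz : (h : Matrix ι ι F) *ᵥ z = z + d) (hd : Q d = 0)
    (hd0 : d ≠ 0) {A : Finset (Fin t)} (hA : A.card ≤ 4)
    (hdA : ∀ l, l ∉ A → proj hD.decomp.decomp l d = 0) {r : Fin t} (hr : r ∉ A)
    (hzr : proj hD.decomp.decomp r z ≠ 0) : HasRoot hD.decomp.decomp Q M := by
  have hdz : bform hQ d z = 0 := by
    have := mem_isometryGroup.1 (hMI hh) z
    rw [hhz, q_add hQ, hd, b_symm hQ z d] at this
    linear_combination this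
  have h' : Q (z + (1 : F) • d) ≠ 0 := by rw [one_smul, ← hhz, mem_isometryGroup.1 (hMI hh)]; exact hz
  have hmem := reflection_move_mem hQ hD hS (hMI hh) hh hhD hz haQ ha h' (by rw [one_smul, hhz]) hpair
  have hw : bform hQ d ((1 / Q z) • z) = 0 := by rw [map_smul, hdz, smul_zero]
  obtain ⟨x, hx, hx0, hE⟩ := root_move hQ hD hS hn hMI ht hF hd hw (m := r) (hdA r hr)
    (by rw [map_smul]; exact smul_ne_zero (one_div_ne_zero hz) hzr)
    ⟨_, hmem, reflection_shift_eq hQ hD hz hd hdz h'⟩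
  exact ⟨d, hd, hd0, A, hA, hdA, r, hr, x, hx, hx0, hE⟩

/-- A vector with three non-empty slots in two of which opposite moves exist. -/
lemma root_of_moves {z : ι → F} (hz : Q z ≠ 0) {i : Fin t} {a : ι → F} (ha : a ∈ D i) (haQ : Q a ≠ 0)
    (hpair : reflection hQ hz * reflection hQ haQ ∈ M) {p q r : Fin t} (hpq : p ≠ q) (hrp : r ≠ p) (hrq : r ≠ q)
    (hzr : proj hD.decomp.decomp r z ≠ 0) {v : F} (hv : v ≠ 0) (h1 : Moves hQ (D p) (proj hD.decomp.decomp p z) v)
    (h2 : Moves hQ (D q) (proj hD.decomp.decomp q z) (-v)) : HasRoot hD.decomp.decomp Q M := by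
  classical
  have hdec := hD.decomp.decomp
  obtain ⟨d, hd, hdQ, hdz, hdv⟩ := h1
  obtain ⟨e, he, heQ, hez, hev⟩ := h2
  rw [← b_proj hQ hD hd] at hdz hdv
  rw [← b_proj hQ hD he] at hez hev
  set α := (Q d)⁻¹ * bform hQ d z with hα
  set β := (Q e)⁻¹ * bform hQ e z with hβ
  have hα0 : α ≠ 0 := mul_ne_zero (inv_ne_zero hdQ) hdz
  have hde : bform hQ d e = 0 := member_b_eq_zero hQ hD hpq hd he
  have hd0 : d ≠ 0 := fun h => hdQ (by rw [h, q_zero hQ])
  set x₂ : ι → F := -(α • d) - β • e with hx₂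
  have hx₂Q : Q x₂ = 0 := by
    rw [hx₂, q_sub hQ, q_neg hQ, hα, hβ, q_scaled hQ hdQ hdv, q_scaled hQ heQ hev, map_neg, LinearMap.neg_apply,
      map_smul, map_smul, LinearMap.smul_apply, hde, smul_zero, smul_zero, neg_zero, sub_zero]
    ring
  have hcalc : ((reflection hQ hdQ * reflection hQ heQ : GL ι F) : Matrix ι ι F) *ᵥ z = z + x₂ := by
    rw [reflection_after hQ hdQ (e := -(β • e)) (by rw [reflection_mulVec hQ, ← hβ, sub_eq_add_neg])
      (by rw [map_neg, map_smul, hde, smul_zero, neg_zero]), ← hα, hx₂]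
    congr 1; abel
  have hslot : ∀ {l : Fin t}, l ≠ p → l ≠ q → proj hdec l x₂ = 0 := fun {l} h1 h2 => by
    rw [hx₂, map_sub, map_neg, map_smul, map_smul, proj_of_mem hdec hd, proj_of_mem hdec he, if_neg h1, if_neg h2]
    simp
  have hx₂0 : x₂ ≠ 0 := fun h => by
    have := congrArg (proj hdec p) h
    rw [hx₂, map_sub, map_neg, map_smul, map_smul, proj_of_mem hdec hd, proj_of_mem hdec he, if_pos rfl,
      if_neg hpq, smul_zero, sub_zero, map_zero, neg_eq_zero, smul_eq_zero] at this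
    exact this.elim hα0 hd0
  have hA : ({p, q} : Finset (Fin t)).card ≤ 4 := Finset.card_le_two.trans (by norm_num)
  have hA' : ∀ l, l ∉ ({p, q} : Finset (Fin t)) → proj hdec l x₂ = 0 := fun l hl => by
    simp only [Finset.mem_insert, Finset.mem_singleton, not_or] at hl; exact hslot hl.1 hl.2
  have hrA : r ∉ ({p, q} : Finset (Fin t)) := by simp [hrp, hrq]
  by_cases hzero : ∃ o, proj hdec o z = 0
  · obtain ⟨o, ho⟩ := hzero
    obtain ⟨h, hh, hhD, -, hfix⟩ := exists_mem_extend hQ hD hS hn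
      (mul_mem (reflection_mem hQ hdQ) (reflection_mem hQ heQ)) (σ := 1)
      (fun j y hy => by
        rw [Units.val_mul, ← Matrix.mulVec_mulVec]
        exact reflection_maps_member hQ hD hd hdQ (reflection_maps_member hQ hD he heQ hy))
      (le_refl (D o)) (fun c => exists_value_any hQ (member_radical_free hQ hD o) (by rw [(hF o).1]) c)
    exact root_of_move hQ hD hS hn hMI ht hF hz ha haQ hpair hh hhD
      ((hfix z fun u hu => b_slot_zero hQ hD hu ho).trans hcalc) hx₂Q hx₂0 hA hA' hrA hzr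
  push Not at hzero
  by_cases hsq : IsSquare (-1 : F)
  · have hde' : IsSquare (Q d / Q e) := isSquare_moves hQ hdv hev hdz hez (by
      rwa [div_neg, div_self hv])
    obtain ⟨hh, hhD⟩ := slot_pair_mem hQ hD hS hn hMI ht hF hd he hdQ heQ hde'
    exact root_of_move hQ hD hS hn hMI ht hF hz ha haQ hpair hh hhD hcalc hx₂Q hx₂0 hA hA' hrA hzr
  -- a second pair
  have h2 : (2 : F) ≠ 0 := fun h2 => hsq ⟨1, by linear_combination (-1 : F) * h2⟩
  obtain ⟨j₁, j₂, hj₁, hj₂, hj12⟩ := Finset.one_lt_card_iff.1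
    (show 1 < (Finset.univ \ ({p, q, r} : Finset (Fin t))).card by
      have h1 := Finset.le_card_sdiff ({p, q, r} : Finset (Fin t)) Finset.univ
      have h2 := Finset.card_le_three (a := p) (b := q) (c := r)
      rw [Finset.card_univ, Fintype.card_fin] at h1
      omega)
  simp only [Finset.mem_sdiff, Finset.mem_univ, true_and, Finset.mem_insert, Finset.mem_singleton, not_or]
    at hj₁ hj₂
  obtain ⟨p', q', hp'q', hp', hq', v', hv', m1, m2⟩ : ∃ p' q', p' ≠ q' ∧ (p' ≠ p ∧ p' ≠ q ∧ p' ≠ r) ∧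
      (q' ≠ p ∧ q' ≠ q ∧ q' ≠ r) ∧ ∃ v' : F, v' ≠ 0 ∧ Moves hQ (D p') (proj hdec p' z) v' ∧
        Moves hQ (D q') (proj hdec q' z) (-v') := by
    refine ⟨j₁, j₂, hj12, hj₁, hj₂, ?_⟩
    have hU₁ := member_radical_free hQ hD j₁
    have hU₂ := member_radical_free hQ hD j₂
    by_cases hz₁ : Q (proj hdec j₁ z) = 0
    · obtain ⟨w, hw, hm⟩ := exists_moves hQ hU₂ (hF j₂) (proj_mem hdec j₂ z) (hzero j₂)
      exact ⟨-w, neg_ne_zero.2 hw, moves_of_singular hQ hU₁ (hF j₁) (proj_mem hdec j₁ z) (hzero j₁) hz₁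
        (neg_ne_zero.2 hw), by rwa [neg_neg]⟩
    by_cases hz₂ : Q (proj hdec j₂ z) = 0
    · obtain ⟨w, hw, hm⟩ := exists_moves hQ hU₁ (hF j₁) (proj_mem hdec j₁ z) (hzero j₁)
      exact ⟨w, hw, hm, moves_of_singular hQ hU₂ (hF j₂) (proj_mem hdec j₂ z) (hzero j₂) hz₂ (neg_ne_zero.2 hw)⟩
    exact exists_opposite_moves hQ hU₁ (hF j₁) hU₂ (hF j₂) h2 (proj_mem hdec j₁ z) (proj_mem hdec j₂ z) hz₁ hz₂
  obtain ⟨d', hd', hd'Q, hd'z, hd'v⟩ := m1
  obtain ⟨e', he', he'Q, he'z, he'v⟩ := m2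
  rw [← b_proj hQ hD hd'] at hd'z hd'v
  rw [← b_proj hQ hD he'] at he'z he'v
  set γ := (Q d')⁻¹ * bform hQ d' z with hγ
  set δ := (Q e')⁻¹ * bform hQ e' z with hδ
  set x₄ : ι → F := -(α • d) - γ • d' - β • e - δ • e' with hx₄
  have edd' : bform hQ d d' = 0 := member_b_eq_zero hQ hD (Ne.symm hp'.1) hd hd'
  have ede' : bform hQ d e' = 0 := member_b_eq_zero hQ hD (Ne.symm hq'.1) hd he'
  have eed' : bform hQ e d' = 0 := member_b_eq_zero hQ hD (Ne.symm hp'.2.1) he hd'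
  have eee' : bform hQ e e' = 0 := member_b_eq_zero hQ hD (Ne.symm hq'.2.1) he he'
  have ed'e' : bform hQ d' e' = 0 := member_b_eq_zero hQ hD hp'q' hd' he'
  have hx₄Q : Q x₄ = 0 := by
    rw [hx₄, q_sub hQ, q_sub hQ, q_sub hQ, q_neg hQ, hα, hβ, hγ, hδ, q_scaled hQ hdQ hdv, q_scaled hQ heQ hev,
      q_scaled hQ hd'Q hd'v, q_scaled hQ he'Q he'v]
    simp [-bform_apply, hde, edd', ede', eed', eee', ed'e', b_symm hQ d' e]
  have hslot4 : ∀ l, l ∉ ({p, q, p', q'} : Finset (Fin t)) → proj hdec l x₄ = 0 := fun l hl => by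
    simp only [Finset.mem_insert, Finset.mem_singleton, not_or] at hl
    rw [hx₄]
    simp [map_sub, map_neg, map_smul, proj_of_mem hdec hd, proj_of_mem hdec he, proj_of_mem hdec hd',
      proj_of_mem hdec he', hl]
  have hx₄0 : x₄ ≠ 0 := fun h => by
    have := congrArg (proj hdec p) h
    rw [hx₄] at this
    simp [map_sub, map_neg, map_smul, proj_of_mem hdec hd, proj_of_mem hdec he, proj_of_mem hdec hd',
      proj_of_mem hdec he', hpq, Ne.symm hp'.1, Ne.symm hq'.1, hα0, hd0] at this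
  have hr4 : r ∉ ({p, q, p', q'} : Finset (Fin t)) := by simp [hrp, hrq, Ne.symm hp'.2.2, Ne.symm hq'.2.2]
  have hA4 : ({p, q, p', q'} : Finset (Fin t)).card ≤ 4 := Finset.card_le_four
  have hsq' : IsSquare (v / v') ∨ IsSquare (v / -v') := by
    by_contra hcon
    push Not at hcon
    rcases isSquare_div_of_three hv hv' (neg_ne_zero.2 hv') with h | h | h
    · exact hcon.1 h
    · exact hcon.2 h
    · exact hsq (by rwa [div_neg, div_self hv'] at h)
  rcases hsq' with h | h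
  · -- (d, d') and (e, e')
    obtain ⟨k1, k1'⟩ := slot_pair_mem hQ hD hS hn hMI ht hF hd hd' hdQ hd'Q (isSquare_moves hQ hdv hd'v hdz hd'z h)
    obtain ⟨k2, k2'⟩ := slot_pair_mem hQ hD hS hn hMI ht hF he he' heQ he'Q
      (isSquare_moves hQ hev he'v hez he'z (by rwa [neg_div_neg_eq]))
    refine root_of_move hQ hD hS hn hMI ht hF hz ha haQ hpair (mul_mem k1 k2) (mul_mem k1' k2') ?_ hx₄Q hx₄0 hA4
      hslot4 hr4 hzr
    have c1 : (reflection hQ he'Q : Matrix ι ι F) *ᵥ z = z + -(δ • e') := by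
      rw [reflection_mulVec hQ, ← hδ, sub_eq_add_neg]
    have c2 := reflection_after hQ heQ c1 (by rw [map_neg, map_smul, eee', smul_zero, neg_zero])
    have c3 := reflection_after hQ hd'Q c2
      (by simp [-bform_apply, ed'e', b_symm hQ d' e, eed'])
    have c4 := reflection_after hQ hdQ c3 (by simp [-bform_apply, hde, edd', ede'])
    rw [mul_assoc, c4, ← hα, ← hβ, ← hγ, hx₄]
    congr 1; abel
  · -- (d, e') and (e, d')
    obtain ⟨k1, k1'⟩ := slot_pair_mem hQ hD hS hn hMI ht hF hd he' hdQ he'Q (isSquare_moves hQ hdv he'v hdz he'z h)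
    obtain ⟨k2, k2'⟩ := slot_pair_mem hQ hD hS hn hMI ht hF he hd' heQ hd'Q
      (isSquare_moves hQ hev hd'v hez hd'z (by rwa [neg_div, ← div_neg]))
    refine root_of_move hQ hD hS hn hMI ht hF hz ha haQ hpair (mul_mem k1 k2) (mul_mem k1' k2') ?_ hx₄Q hx₄0 hA4
      hslot4 hr4 hzr
    have c1 : (reflection hQ hd'Q : Matrix ι ι F) *ᵥ z = z + -(γ • d') := by
      rw [reflection_mulVec hQ, ← hγ, sub_eq_add_neg]
    have c2 := reflection_after hQ heQ c1 (by rw [map_neg, map_smul, eed', smul_zero, neg_zero])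
    have c3 := reflection_after hQ he'Q c2
      (by simp [-bform_apply, b_symm hQ e' d', ed'e', b_symm hQ e' e, eee'])
    have c4 := reflection_after hQ hdQ c3 (by simp [-bform_apply, hde, edd', ede'])
    rw [mul_assoc, c4, ← hα, ← hβ, ← hδ, hx₄]
    congr 1; abel

/-- Three non-empty slots give a root element. -/
lemma root_of_three {z : ι → F} (hz : Q z ≠ 0) {i : Fin t} {a : ι → F} (ha : a ∈ D i) (haQ : Q a ≠ 0)
    (hpair : reflection hQ hz * reflection hQ haQ ∈ M) {p q r : Fin t} (hpq : p ≠ q) (hpr : p ≠ r) (hqr : q ≠ r)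
    (hp : proj hD.decomp.decomp p z ≠ 0) (hq : proj hD.decomp.decomp q z ≠ 0)
    (hr : proj hD.decomp.decomp r z ≠ 0) : HasRoot hD.decomp.decomp Q M := by
  have hdec := hD.decomp.decomp
  rcases exists_moves_of_three hQ (member_radical_free hQ hD p) (hF p) (member_radical_free hQ hD q) (hF q)
    (member_radical_free hQ hD r) (hF r) (proj_mem hdec p z) (proj_mem hdec q z) (proj_mem hdec r z) hp hq hr
    with ⟨v, hv, h1, h2⟩ | ⟨v, hv, h1, h2⟩ | ⟨v, hv, h1, h2⟩
  · exact root_of_moves hQ hD hS hn hMI ht hF hz ha haQ hpair hpq (Ne.symm hpr) (Ne.symm hqr) hr hv h1 h2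
  · exact root_of_moves hQ hD hS hn hMI ht hF hz ha haQ hpair hpr (Ne.symm hpq) hqr hq hv h1 h2
  · exact root_of_moves hQ hD hS hn hMI ht hF hz ha haQ hpair hqr hpq hpr hp hv h1 h2

/-- An element fixing a member vector, outside the stabiliser, gives a root element. -/
lemma root_of_fix (hfix : HasFix Q D M) : HasRoot hD.decomp.decomp Q M := by
  classical
  obtain ⟨g, hg, hgD, i₀, a₀, ha₀, ha₀Q, hga₀⟩ := hfix
  have hdec := hD.decomp.decomp
  have hgI := hMI hg
  obtain ⟨i, a, ha, haQ, hleave⟩ : ∃ i, ∃ a ∈ D i, Q a = Q a₀ ∧ ∀ j, (g : Matrix ι ι F) *ᵥ a ∉ D j := by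
    obtain ⟨i, v, hv, hgv⟩ := exists_not_mem_of_not_stabilizer hdec hgD
    by_contra hall
    push Not at hall
    have hU := member_radical_free hQ hD i
    obtain ⟨x, hx, hxQ⟩ := exists_value_any hQ hU (by rw [(hF i).1]) (Q a₀)
    obtain ⟨y, hy, hyQ, hxy, hind⟩ := exists_rot_partner hQ hU (hF i) hx (hxQ ▸ ha₀Q)
    obtain ⟨l, hl⟩ := hall i x hx hxQ
    obtain ⟨l', hl'⟩ := hall i y hy (hyQ.trans hxQ)
    have hll : l = l' := by
      by_contra h
      exact hxy (by rw [← isometry_b hQ hgI]; exact member_b_eq_zero hQ hD h hl hl')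
    subst hll
    obtain ⟨α, β, rfl⟩ := plane_span_of_indep (hd := (hF i).1) hx hy
      (fun h => ha₀Q (by rw [← hxQ, h, q_zero hQ])) hind v hv
    refine hgv l ?_
    rw [Matrix.mulVec_add, Matrix.mulVec_smul, Matrix.mulVec_smul]
    exact (D l).add_mem ((D l).smul_mem _ hl) ((D l).smul_mem _ hl')
  set z := (g : Matrix ι ι F) *ᵥ a with hzdef
  have haQ' : Q a ≠ 0 := haQ ▸ ha₀Q
  have hz : Q z ≠ 0 := by rw [hzdef, mem_isometryGroup.1 hgI]; exact haQ'
  have hpair : reflection hQ hz * reflection hQ ha₀Q ∈ M := by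
    have h := mul_mem (mul_mem hg (reflection_pair_mem hQ hD hS hn ha ha₀ haQ' ha₀Q haQ)) (inv_mem hg)
    rwa [show g * (reflection hQ haQ' * reflection hQ ha₀Q) * g⁻¹ =
      g * reflection hQ haQ' * g⁻¹ * (g * reflection hQ ha₀Q * g⁻¹) by group,
      conj_reflection hQ hgI haQ' hz hzdef.symm, conj_reflection hQ hgI ha₀Q ha₀Q hga₀] at h
  obtain ⟨b, hb⟩ : ∃ b, Q (proj hdec b z) ≠ 0 := by
    by_contra hall
    push Not at hall
    exact hz (by rw [q_sum_proj hQ hD]; exact Finset.sum_eq_zero fun j _ => hall j)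
  obtain ⟨p, hpb, hp⟩ : ∃ p, p ≠ b ∧ proj hdec p z ≠ 0 := by
    by_contra hall
    push Not at hall
    refine hleave b ?_
    rw [← sum_proj hdec z, Finset.sum_eq_single b (fun l _ h => hall l h) (by simp)]
    exact proj_mem hdec b z
  have hbz : proj hdec b z ≠ 0 := fun h => hb (by rw [h, q_zero hQ])
  by_cases hthree : ∃ r, r ≠ p ∧ r ≠ b ∧ proj hdec r z ≠ 0
  · obtain ⟨r, hrp, hrb, hr⟩ := hthree
    exact root_of_three hQ hD hS hn hMI ht hF hz ha₀ ha₀Q hpair hpb (Ne.symm hrp) (Ne.symm hrb) hp hbz hr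
  push Not at hthree
  -- two slots only: move one of them, then reflect
  set zp := proj hdec p z with hzp
  set zb := proj hdec b z with hzb
  have hzpD : zp ∈ D p := proj_mem hdec p z
  have hzbD : zb ∈ D b := proj_mem hdec b z
  have hzsum : z = zp + zb := by
    conv_lhs => rw [← sum_proj hdec z]
    exact Finset.sum_eq_add_of_mem p b (Finset.mem_univ _) (Finset.mem_univ _) hpb
      (fun r _ hr => hthree r hr.1 hr.2)
  obtain ⟨o₁, ho₁⟩ := exists_slot_not_mem hD {p, b} (by have := Finset.card_le_two (a := p) (b := b); omega)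
  obtain ⟨o₂, ho₂⟩ := exists_slot_not_mem hD {p, b, o₁} (by
    have := Finset.card_le_three (a := p) (b := b) (c := o₁); omega)
  simp only [Finset.mem_insert, Finset.mem_singleton, not_or] at ho₁ ho₂
  obtain ⟨y, hy, hyQ, hby, hind⟩ := exists_rot_partner hQ (member_radical_free hQ hD b) (hF b) hzbD hb
  obtain ⟨s, hsI, -, hs, hsfix⟩ := exists_member_swap hQ hD (Ne.symm ho₁.1 : p ≠ o₁)
  obtain ⟨u, huI, hu, huy⟩ := exists_member_isometry hQ hD hn hzbD hy hb hyQ.symm
  have hsb : (s : Matrix ι ι F) *ᵥ zb = zb := hsfix b (Ne.symm hpb) (Ne.symm ho₁.2) zb hzbD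
  obtain ⟨h, hh, hhD, hmaps, hfix'⟩ := exists_mem_extend hQ hD hS hn (mul_mem huI hsI) (σ := Equiv.swap p o₁)
    (fun j w hw => by rw [Units.val_mul, ← Matrix.mulVec_mulVec]; exact hu _ _ (hs j w hw)) (le_refl (D o₂))
    (fun c => exists_value_any hQ (member_radical_free hQ hD o₂) (by rw [(hF o₂).1]) c)
  have hhzb : (h : Matrix ι ι F) *ᵥ zb = y := by
    rw [hfix' zb (fun w hw => member_b_eq_zero hQ hD ho₂.2.1 hw hzbD), Units.val_mul, ← Matrix.mulVec_mulVec,
      hsb, huy]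
  set x := (h : Matrix ι ι F) *ᵥ zp with hx
  have hxD : x ∈ D o₁ := by
    have := hmaps p zp hzpD
    rwa [Equiv.swap_apply_left] at this
  have hx0 : x ≠ 0 := fun e => hp (by rw [← inv_mulVec_cancel h zp, ← hx, e, Matrix.mulVec_zero])
  set z₂ := (h : Matrix ι ι F) *ᵥ z with hz₂
  have hz₂eq : z₂ = x + y := by rw [hz₂, hzsum, Matrix.mulVec_add, hhzb]
  have hz₂Q : Q z₂ ≠ 0 := by rw [hz₂, mem_isometryGroup.1 (hMI hh)]; exact hz
  have hz₂pair : reflection hQ hz₂Q * reflection hQ ha₀Q ∈ M := by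
    have h1 := mul_mem (reflection_move_mem hQ hD hS (hMI hh) hh hhD hz ha₀Q ha₀ hz₂Q rfl hpair) hpair
    rwa [mul_assoc, ← mul_assoc (reflection hQ hz), reflection_mul_reflection_self hQ hz, one_mul] at h1
  set z₃ := (reflection hQ hz : Matrix ι ι F) *ᵥ z₂ with hz₃
  have hz₃Q : Q z₃ ≠ 0 := by rw [hz₃, mem_isometryGroup.1 (reflection_mem hQ hz)]; exact hz₂Q
  have hz₃pair : reflection hQ hz₃Q * reflection hQ ha₀Q ∈ M := by
    rw [← conj_reflection hQ (reflection_mem hQ hz) hz₂Q hz₃Q hz₃.symm, reflection_inv hQ]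
    have h1 := mul_mem (mul_mem hpair (inv_mem hz₂pair)) hpair
    rwa [mul_inv_rev, reflection_inv hQ, reflection_inv hQ,
      show reflection hQ hz * reflection hQ ha₀Q * (reflection hQ ha₀Q * reflection hQ hz₂Q) *
        (reflection hQ hz * reflection hQ ha₀Q) = reflection hQ hz *
          (reflection hQ ha₀Q * reflection hQ ha₀Q) * reflection hQ hz₂Q * reflection hQ hz * reflection hQ ha₀Q
        by group, reflection_mul_reflection_self hQ ha₀Q, mul_one] at h1
  set c := (Q z)⁻¹ * bform hQ z z₂ with hc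
  have hbzz : bform hQ z z₂ = bform hQ zb y := by
    rw [hzsum, hz₂eq, map_add, map_add, LinearMap.add_apply, LinearMap.add_apply,
      member_b_eq_zero hQ hD (Ne.symm ho₁.1) hzpD hxD, member_b_eq_zero hQ hD (Ne.symm ho₁.2) hzbD hxD,
      member_b_eq_zero hQ hD hpb hzpD hy]
    ring
  have hc0 : c ≠ 0 := mul_ne_zero (inv_ne_zero hz) (by rw [hbzz]; exact hby)
  have hz₃eq : z₃ = x + (y - c • zb) - c • zp := by
    rw [hz₃, reflection_mulVec hQ, ← hc, hz₂eq, hzsum]; module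
  have hybD : y - c • zb ∈ D b := (D b).sub_mem hy ((D b).smul_mem _ hzbD)
  refine root_of_three hQ hD hS hn hMI ht hF hz₃Q ha₀ ha₀Q hz₃pair hpb (Ne.symm ho₁.1) (Ne.symm ho₁.2) ?_ ?_ ?_
  · rw [hz₃eq, map_sub, map_add, map_smul, proj_of_mem hdec hxD, proj_of_mem hdec hybD, proj_of_mem hdec hzpD,
      if_neg (Ne.symm ho₁.1), if_neg hpb, if_pos rfl, add_zero, zero_sub, neg_ne_zero]
    exact smul_ne_zero hc0 hp
  · rw [hz₃eq, map_sub, map_add, map_smul, proj_of_mem hdec hxD, proj_of_mem hdec hybD, proj_of_mem hdec hzpD,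
      if_neg (Ne.symm ho₁.2), if_pos rfl, if_neg (Ne.symm hpb), smul_zero, sub_zero, zero_add, sub_ne_zero]
    exact fun e => hind (e ▸ Submodule.smul_mem _ _ (Submodule.mem_span_singleton_self _))
  · rw [hz₃eq, map_sub, map_add, map_smul, proj_of_mem hdec hxD, proj_of_mem hdec hybD, proj_of_mem hdec hzpD,
      if_pos rfl, if_neg ho₁.2, if_neg ho₁.1, smul_zero, sub_zero, add_zero]
    exact hx0

/-- Outside the stabiliser there is a root element with one vector in a single member. -/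
lemma exists_root_two {g : GL ι F} (hg : g ∈ M) (hgD : g ∉ decompositionStabilizer D) :
    HasRoot hD.decomp.decomp Q M :=
  (fix_or_root hQ hD hS hn hMI ht hF hg hgD).elim (root_of_fix hQ hD hS hn hMI ht hF) id

/-- A root element can be moved to one leaving two members free of the support. -/
lemma root_reduce (h : HasRoot hD.decomp.decomp Q M) : ∃ d : ι → F, Q d = 0 ∧ d ≠ 0 ∧ ∃ A : Finset (Fin t),
    A.card + 2 ≤ t ∧ (∀ l, l ∉ A → proj hD.decomp.decomp l d = 0) ∧
      ∃ m, m ∉ A ∧ ∃ x ∈ D m, x ≠ 0 ∧ EIn Q M d x := by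
  classical
  obtain ⟨d, hdQ, hd0, A, -, hdA, m, hm, x, hx, hx0, hE⟩ := h
  have hdec := hD.decomp.decomp
  set S := Finset.univ.filter fun l => proj hdec l d ≠ 0 with hSdef
  have hdm : proj hdec m d = 0 := hdA m hm
  have hmS : m ∉ S := by simp [hSdef, hdm]
  have hdS : ∀ l, l ∉ S → proj hdec l d = 0 := fun l hl => by simpa [hSdef] using hl
  by_cases h3 : S.card + 2 ≤ t
  · exact ⟨d, hdQ, hd0, S, h3, hdS, m, hmS, x, hx, hx0, hE⟩
  obtain ⟨p₁, p₂, p₃, h1, h2, h3, h12, h13, h23⟩ := Finset.two_lt_card_iff.1 (show 2 < S.card by omega)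
  simp only [hSdef, Finset.mem_filter, Finset.mem_univ, true_and] at h1 h2 h3
  have hdx : bform hQ d x = 0 := by rw [b_symm hQ]; exact b_slot_zero hQ hD hx hdm
  have hne : ∀ {l : Fin t}, proj hdec l d ≠ 0 → l ≠ m := fun hl e => hl (e ▸ hdm)
  by_cases hxQ : Q x = 0
  · obtain ⟨x', hx', hx'0, hE'⟩ := root_move hQ hD hS hn hMI ht hF (m := p₁) hxQ (by rw [b_symm hQ]; exact hdx)
      (by rw [proj_of_mem hdec hx, if_neg (hne h1)]) h1 (hE.swap hQ hdQ hxQ hdx)
    exact ⟨x, hxQ, hx0, {m}, by rw [Finset.card_singleton]; omega,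
      fun l hl => by rw [proj_of_mem hdec hx, if_neg (by simpa using hl)],
      p₁, by simpa using hne h1, x', hx', hx'0, hE'⟩
  obtain ⟨p, q, c, hp, hq, hc, hpq, hcp, hcq, v, hv, m1, m2⟩ : ∃ p q c : Fin t, proj hdec p d ≠ 0 ∧
      proj hdec q d ≠ 0 ∧ proj hdec c d ≠ 0 ∧ p ≠ q ∧ c ≠ p ∧ c ≠ q ∧ ∃ v : F, v ≠ 0 ∧
        Moves hQ (D p) (proj hdec p d) v ∧ Moves hQ (D q) (proj hdec q d) (-v) := by
    rcases exists_moves_of_three hQ (member_radical_free hQ hD p₁) (hF p₁) (member_radical_free hQ hD p₂) (hF p₂)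
      (member_radical_free hQ hD p₃) (hF p₃) (proj_mem hdec p₁ d) (proj_mem hdec p₂ d) (proj_mem hdec p₃ d)
      h1 h2 h3 with h | h | h
    · exact ⟨p₁, p₂, p₃, h1, h2, h3, h12, Ne.symm h13, Ne.symm h23, h⟩
    · exact ⟨p₁, p₃, p₂, h1, h3, h2, h13, Ne.symm h12, h23, h⟩
    · exact ⟨p₂, p₃, p₁, h2, h3, h1, h23, h12, h13, h⟩
  obtain ⟨a, ha, haQ, had, hav⟩ := m1
  obtain ⟨e, he, heQ, hed, hev⟩ := m2
  rw [← b_proj hQ hD ha] at had hav
  rw [← b_proj hQ hD he] at hed hev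
  set α := (Q a)⁻¹ * bform hQ a d with hα
  set β := (Q e)⁻¹ * bform hQ e d with hβ
  have hae : bform hQ a e = 0 := member_b_eq_zero hQ hD hpq ha he
  have ha0 : a ≠ 0 := fun h => haQ (by rw [h, q_zero hQ])
  set x₂ : ι → F := -(α • a) - β • e with hx₂
  have hx₂Q : Q x₂ = 0 := by
    rw [hx₂, q_sub hQ, q_neg hQ, hα, hβ, q_scaled hQ haQ hav, q_scaled hQ heQ hev, map_neg, LinearMap.neg_apply,
      map_smul, map_smul, LinearMap.smul_apply, hae, smul_zero, smul_zero, neg_zero, sub_zero]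
    ring
  have hslot : ∀ {l : Fin t}, l ≠ p → l ≠ q → proj hdec l x₂ = 0 := fun {l} g1 g2 => by
    rw [hx₂, map_sub, map_neg, map_smul, map_smul, proj_of_mem hdec ha, proj_of_mem hdec he, if_neg g1, if_neg g2]
    simp
  have hx₂0 : x₂ ≠ 0 := fun h => by
    have := congrArg (proj hdec p) h
    rw [hx₂, map_sub, map_neg, map_smul, map_smul, proj_of_mem hdec ha, proj_of_mem hdec he, if_pos rfl,
      if_neg hpq, smul_zero, sub_zero, map_zero, neg_eq_zero, smul_eq_zero] at this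
    exact this.elim (mul_ne_zero (inv_ne_zero haQ) had) ha0
  -- the element moving `d` by that vector, corrected in the member of `x`
  obtain ⟨h, hh, -, hmaps, hfix⟩ := exists_mem_extend hQ hD hS hn
    (mul_mem (reflection_mem hQ haQ) (reflection_mem hQ heQ)) (σ := 1)
    (fun j y hy => by
      rw [Units.val_mul, ← Matrix.mulVec_mulVec]
      exact reflection_maps_member hQ hD ha haQ (reflection_maps_member hQ hD he heQ hy))
    (le_refl (D m)) (fun r => exists_value_any hQ (member_radical_free hQ hD m) (by rw [(hF m).1]) r)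
  have hhd : (h : Matrix ι ι F) *ᵥ d = d + x₂ := by
    rw [hfix d fun u hu => b_slot_zero hQ hD hu hdm,
      reflection_after hQ haQ (e := -(β • e)) (by rw [reflection_mulVec hQ, ← hβ, sub_eq_add_neg])
        (by rw [map_neg, map_smul, hae, smul_zero, neg_zero]), ← hα, hx₂]
    congr 1; abel
  have hd₂Q : Q (d + x₂) = 0 := by rw [← hhd, mem_isometryGroup.1 (hMI hh), hdQ]
  have hd₂m : proj hdec m (d + x₂) = 0 := by
    rw [map_add, hdm, hslot (Ne.symm (hne hp)) (Ne.symm (hne hq)), add_zero]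
  have hdd₂ : bform hQ d x₂ = 0 := by
    have := hd₂Q
    rw [q_add hQ, hdQ, hx₂Q] at this
    linear_combination this
  have hy₀ : (h : Matrix ι ι F) *ᵥ x ∈ D m := by simpa using hmaps m x hx
  have hE₀ := hE.conj hQ hdQ hdx hh (hMI hh)
  rw [hhd] at hE₀
  obtain ⟨y, hy, hyx, hEy⟩ : ∃ y ∈ D m, bform hQ y x ≠ 0 ∧ EIn Q M (d + x₂) y := by
    set y₀ := (h : Matrix ι ι F) *ᵥ x
    by_cases hb : bform hQ y₀ x = 0
    swap
    · exact ⟨y₀, hy₀, hb, hE₀⟩
    obtain ⟨ρ, hρM, -, hρI, hzero, hdisp, -, heig, -⟩ := exists_rotation hQ hD hS hn hMI ht hF m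
    have hρy : (ρ : Matrix ι ι F) *ᵥ y₀ ∈ D m := by simpa using (D m).add_mem (hdisp y₀) hy₀
    have h' := hE₀.conj hQ hd₂Q (by rw [b_symm hQ]; exact b_slot_zero hQ hD hy₀ hd₂m) hρM hρI
    rw [hzero _ hd₂m] at h'
    refine ⟨_, hρy, fun hb' => ?_, h'⟩
    have hy₀Q : Q y₀ ≠ 0 := by rw [mem_isometryGroup.1 (hMI hh)]; exact hxQ
    have hy₀0 : y₀ ≠ 0 := fun e => hy₀Q (by rw [e, q_zero hQ])
    refine hx0 (plane_eq_zero hQ (member_radical_free hQ hD m) (hF m) hy₀ hρy hy₀0 (fun hspan => ?_) hx hb hb')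
    obtain ⟨r, hr⟩ := Submodule.mem_span_singleton.1 hspan
    exact heig y₀ hy₀ hy₀0 hy₀Q r hr.symm
  have hdy : bform hQ (d + x₂) y = 0 := by rw [b_symm hQ]; exact b_slot_zero hQ hD hy hd₂m
  have hgd : (eichler hQ hd₂Q hdy : Matrix ι ι F) *ᵥ d = d := eichler_fix hQ hd₂Q hdy
    (by rw [map_add, LinearMap.add_apply, b_self_eq_zero hQ hdQ, b_symm hQ x₂, hdd₂, add_zero])
    (b_slot_zero hQ hD hy hdm)
  have hg := hEy.mem hQ hd₂Q hdy
  have h1 := hE.displacement hQ hdQ hdx hg (hMI hg) hgd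
  set k := bform hQ y x with hk
  have hgx : (eichler hQ hd₂Q hdy : Matrix ι ι F) *ᵥ x - x = k • (d + x₂) := by
    rw [eichler_mulVec hQ, b_symm hQ (d + x₂) x, b_slot_zero hQ hD hx hd₂m, ← hk]
    module
  rw [hgx] at h1
  have hdk : bform hQ d (k • d) = 0 := by rw [map_smul, b_self_eq_zero hQ hdQ, smul_zero]
  have hself : EIn Q M d (k • d) := ⟨1, M.one_mem, Matrix.ext_of_mulVec_single fun i => by
    rw [eichlerMat_mulVec hQ, Units.val_one, Matrix.one_mulVec, q_smul hQ, hdQ, map_smul, LinearMap.smul_apply]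
    simp only [smul_eq_mul, mul_zero, zero_mul, zero_smul, sub_zero]
    module⟩
  have hdk₂ : bform hQ d (k • (d + x₂)) = 0 := by
    rw [map_smul, map_add, b_self_eq_zero hQ hdQ, hdd₂, add_zero, smul_zero]
  have h2 := h1.sub hQ hself hdQ hdk₂ hdk
  rw [← smul_sub, add_sub_cancel_left] at h2
  have hbk : bform hQ d (k • x₂) = 0 := by rw [map_smul, hdd₂, smul_zero]
  have hkQ : Q (k • x₂) = 0 := by rw [q_smul hQ, hx₂Q, mul_zero]
  obtain ⟨x', hx', hx'0, hE'⟩ := root_move hQ hD hS hn hMI ht hF (m := c) hkQ (by rw [b_symm hQ]; exact hbk)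
    (by rw [map_smul, hslot hcp hcq, smul_zero]) hc (h2.swap hQ hdQ hkQ hbk)
  exact ⟨k • x₂, hkQ, smul_ne_zero hyx hx₂0, {p, q},
    by have := Finset.card_le_two (a := p) (b := q); omega,
    fun l hl => by
      simp only [Finset.mem_insert, Finset.mem_singleton, not_or] at hl
      rw [map_smul, hslot hl.1 hl.2, smul_zero],
    c, by simp [hcp, hcq], x', hx', hx'0, hE'⟩

end CfsgLib.OrthGeo
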