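import Mathlib
import Cfsg.Agent.LinAlg.Witt.Bases

/-!
Non-degenerate symmetric bilinear forms in characteristic two over a finite field: two such forms of the
same dimension are equivalent when both or neither are alternating.
-/

set_option autoImplicit false
set_option linter.unusedSectionVars false

namespace CfsgLib.SymFormTwo

open Module LinearMap

variable {F : Type*} [Field F]

/-- Gram matrix of the normal form: a head of size at most two and hyperbolic pairs. -/
def normalGram (e k : ℕ) : Fin e ⊕ (Fin k ⊕ Fin k) → Fin e ⊕ (Fin k ⊕ Fin k) → F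
  | .inl i, .inl j => if (i : ℕ) = 1 ∧ (j : ℕ) = 1 then 0 else 1
  | .inr (.inl i), .inr (.inr j) => if i = j then 1 else 0
  | .inr (.inr i), .inr (.inl j) => if j = i then 1 else 0
  | _, _ => 0

theorem normalGram_nondeg {e k : ℕ} (he : e ≤ 2) (c : Fin e ⊕ (Fin k ⊕ Fin k) → F)
    (h : ∀ j, ∑ i, c i * normalGram e k i j = 0) : c = 0 := by
  funext i
  rcases i with i | i | i
  · interval_cases e
    · exact i.elim0
    · have h0 := h (.inl 0)
      obtain rfl : i = 0 := Subsingleton.elim _ _
      simpa [normalGram, Fintype.sum_sum_type] using h0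
    · have h0 := h (.inl 0)
      have h1 := h (.inl 1)
      simp [normalGram, Fintype.sum_sum_type, Fin.sum_univ_two] at h0 h1
      fin_cases i
      · simpa using h1
      · simpa [h1] using h0
  · simpa [normalGram, Fintype.sum_sum_type] using h (.inr (.inr i))
  · simpa [normalGram, Fintype.sum_sum_type] using h (.inr (.inl i))

variable {V : Type*} [AddCommGroup V] [Module F V] [FiniteDimensional F V]

/-- A basis with the normal Gram matrix, given a head and a projection onto it. -/
theorem exists_normal_basis (B : LinearMap.BilinForm F V) (hs : ∀ x y, B x y = B y x)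
    (hnd : ∀ x, (∀ y, B x y = 0) → x = 0) {e : ℕ} (he : e ≤ 2) (h : Fin e → V)
    (hgram : ∀ i j, B (h i) (h j) = normalGram e 0 (.inl i) (.inl j))
    (hproj : ∀ v, ∃ c : Fin e → F, ∀ i, B (h i) (v - ∑ j, c j • h j) = 0)
    (halt : ∀ w, (∀ i, B (h i) w = 0) → B w w = 0) :
    ∃ (k : ℕ) (b : Basis (Fin e ⊕ (Fin k ⊕ Fin k)) F V), ∀ i j, B (b i) (b j) = normalGram e k i j := by
  classical
  let W : Submodule F V := ⨅ i, LinearMap.ker (B (h i))
  have hW : ∀ {w}, w ∈ W ↔ ∀ i, B (h i) w = 0 := by simp [W]
  let B' : LinearMap.BilinForm F W := B.compl₁₂ W.subtype W.subtype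
  have hA : B'.IsAlt := fun w => halt w (hW.1 w.2)
  have hker : LinearMap.ker B' = ⊥ := by
    rw [Submodule.eq_bot_iff]
    intro w hw
    refine Subtype.ext (hnd _ fun y => ?_)
    obtain ⟨c, hc⟩ := hproj y
    have h1 : B w (y - ∑ j, c j • h j) = 0 :=
      LinearMap.congr_fun (LinearMap.mem_ker.1 hw) ⟨_, hW.2 hc⟩
    have h2 : B (w : V) (∑ j, c j • h j) = 0 := by
      rw [map_sum]
      exact Finset.sum_eq_zero fun j _ => by rw [map_smul, hs, hW.1 w.2 j, smul_zero]
    rw [map_sub, h2, sub_zero] at h1
    exact h1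
  obtain ⟨k, bW, -, hef, hee, hff⟩ := LinAlg.Witt.exists_symplectic_basis B' hA hker
  let v : Fin e ⊕ (Fin k ⊕ Fin k) → V := Sum.elim h fun i => (bW i : V)
  have hG : ∀ i j, B (v i) (v j) = normalGram e k i j := by
    rintro (i | i | i) (j | j | j)
    · exact hgram i j
    · exact hW.1 (bW _).2 i
    · exact hW.1 (bW _).2 i
    · exact (hs _ _).trans (hW.1 (bW _).2 j)
    · exact hee i j
    · exact hef i j
    · exact (hs _ _).trans (hW.1 (bW _).2 j)
    · exact (hs _ _).trans (hef j i)
    · exact hff i j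
  have hli : LinearIndependent F v := Fintype.linearIndependent_iff.2 fun c hc => congrFun
    (normalGram_nondeg he c fun j => by
      have := congrArg (fun x => B x (v j)) hc
      simpa [map_sum, LinearMap.sum_apply, hG] using this)
  have hsp : ⊤ ≤ Submodule.span F (Set.range v) := fun x _ => by
    obtain ⟨c, hc⟩ := hproj x
    have h1 : (∑ j, c j • h j) ∈ Submodule.span F (Set.range v) :=
      Submodule.sum_mem _ fun j _ => Submodule.smul_mem _ _ (Submodule.subset_span ⟨.inl j, rfl⟩)
    have h2 : x - ∑ j, c j • h j ∈ Submodule.span F (Set.range v) := by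
      have := Submodule.mem_map_of_mem (f := W.subtype) (bW.mem_span ⟨_, hW.2 hc⟩)
      rw [Submodule.map_span] at this
      refine Submodule.span_mono ?_ this
      rintro _ ⟨_, ⟨i, rfl⟩, rfl⟩
      exact ⟨.inr i, rfl⟩
    simpa using Submodule.add_mem _ h1 h2
  exact ⟨k, Basis.mk hli hsp, fun i j => by simp only [Basis.coe_mk]; exact hG i j⟩

variable [Finite F] [CharP F 2]

/-- The squares of the diagonal of a symmetric form in characteristic two come from one vector. -/
theorem exists_diag_vector (B : LinearMap.BilinForm F V) (hs : ∀ x y, B x y = B y x)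
    (hnd : ∀ x, (∀ y, B x y = 0) → x = 0) : ∃ d : V, ∀ x, B x x = B x d ^ 2 := by
  have two : (2 : F) = 0 := by exact_mod_cast CharP.cast_eq_zero F 2
  have hsq : ∀ a : F, ∃ r : F, r * r = a := fun a => by
    obtain ⟨r, hr⟩ := FiniteField.isSquare_of_char_two (ringChar.eq F 2) a
    exact ⟨r, hr.symm⟩
  choose rt hrt using hsq
  have huniq : ∀ a b : F, a * a = b * b → a = b := fun a b h => by
    rcases mul_self_eq_mul_self_iff.1 h with h | h
    · exact h
    · rw [h]; linear_combination -b * two
  let φ : V →ₗ[F] F :=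
    { toFun := fun x => rt (B x x)
      map_add' := fun x y => huniq _ _ (by
        rw [hrt]; simp only [map_add, LinearMap.add_apply, hs y x]
        linear_combination -hrt (B x x) - hrt (B y y) + (B x y - rt (B x x) * rt (B y y)) * two)
      map_smul' := fun c x => huniq _ _ (by
        rw [hrt]; simp only [RingHom.id_apply, map_smul, LinearMap.smul_apply, smul_eq_mul]
        linear_combination -(c * c) * hrt (B x x)) }
  have hinj : Function.Injective B := (injective_iff_map_eq_zero B).2 fun x hx =>
    hnd x fun y => LinearMap.congr_fun hx y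
  obtain ⟨d, hd⟩ := (LinearMap.injective_iff_surjective_of_finrank_eq_finrank
    Subspace.dual_finrank_eq.symm).1 hinj φ
  exact ⟨d, fun x => by rw [hs x d, hd, sq]; exact (hrt _).symm⟩

/-- Normal form. -/
theorem exists_normal (B : LinearMap.BilinForm F V) (hs : ∀ x y, B x y = B y x)
    (hnd : ∀ x, (∀ y, B x y = 0) → x = 0) :
    ∃ (e k : ℕ) (b : Basis (Fin e ⊕ (Fin k ⊕ Fin k)) F V), e ≤ 2 ∧ (e = 0 ↔ ∀ x, B x x = 0) ∧
      ∀ i j, B (b i) (b j) = normalGram e k i j := by
  by_cases hall : ∀ x, B x x = 0
  · obtain ⟨k, b, hb⟩ := exists_normal_basis B hs hnd (e := 0) (by norm_num) Fin.elim0 (fun i => i.elim0)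
      (fun v => ⟨Fin.elim0, fun i => i.elim0⟩) fun w _ => hall w
    exact ⟨0, k, b, by norm_num, iff_of_true rfl hall, hb⟩
  obtain ⟨d, hd⟩ := exists_diag_vector B hs hnd
  have hsd : B d d = 0 ∨ B d d = 1 := by
    rcases eq_or_ne (B d d) 0 with h | h
    · exact Or.inl h
    · exact Or.inr (mul_left_cancel₀ h (by rw [mul_one, ← sq, ← hd]))
  rcases hsd with h0 | h1
  · obtain ⟨x, hx⟩ := not_forall.1 hall
    have hxd : B x d ≠ 0 := fun h => hx (by rw [hd, h]; ring)
    set u := (B x d)⁻¹ • x
    have hud : B u d = 1 := by rw [map_smul, LinearMap.smul_apply, smul_eq_mul, inv_mul_cancel₀ hxd]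
    have huu : B u u = 1 := by rw [hd, hud, one_pow]
    obtain ⟨k, b, hb⟩ := exists_normal_basis B hs hnd (e := 2) le_rfl ![u, d] (fun i j => by
        fin_cases i <;> fin_cases j <;> simp [normalGram, huu, hud, h0, hs d u])
      (fun v => ⟨![B d v, B u v - B d v], fun i => by
        fin_cases i <;> simp [Fin.sum_univ_two, huu, hud, h0, hs d u]⟩)
      fun w hw => by rw [hd, hs]; simpa using hw 1
    exact ⟨2, k, b, le_rfl, iff_of_false two_ne_zero hall, hb⟩
  · obtain ⟨k, b, hb⟩ := exists_normal_basis B hs hnd (e := 1) (by norm_num) ![d] (fun i j => by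
        fin_cases i; fin_cases j; simp [normalGram, h1])
      (fun v => ⟨![B d v], fun i => by fin_cases i; simp [h1]⟩)
      fun w hw => by rw [hd, hs, show B d w = 0 from hw 0]; ring
    exact ⟨1, k, b, by norm_num, iff_of_false one_ne_zero hall, hb⟩

variable {V' : Type*} [AddCommGroup V'] [Module F V'] [FiniteDimensional F V']

/-- Forms of the same dimension and type are equivalent. -/
theorem exists_equiv (B : LinearMap.BilinForm F V) (hs : ∀ x y, B x y = B y x)
    (hnd : ∀ x, (∀ y, B x y = 0) → x = 0) (B' : LinearMap.BilinForm F V') (hs' : ∀ x y, B' x y = B' y x)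
    (hnd' : ∀ x, (∀ y, B' x y = 0) → x = 0) (hdim : finrank F V = finrank F V')
    (halt : (∀ x, B x x = 0) ↔ ∀ x, B' x x = 0) :
    ∃ L : V ≃ₗ[F] V', ∀ x y, B' (L x) (L y) = B x y := by
  obtain ⟨e, k, b, he, h0, hb⟩ := exists_normal B hs hnd
  obtain ⟨e', k', b', he', h0', hb'⟩ := exists_normal B' hs' hnd'
  rw [finrank_eq_card_basis b, finrank_eq_card_basis b'] at hdim
  simp only [Fintype.card_sum, Fintype.card_fin] at hdim
  have hee : e = e' := by
    have h00 : e = 0 ↔ e' = 0 := h0.trans (halt.trans h0'.symm)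
    omega
  subst hee
  obtain rfl : k = k' := by omega
  refine ⟨b.equiv b' (Equiv.refl _), fun x y => ?_⟩
  have : B'.compl₁₂ (b.equiv b' (Equiv.refl _)).toLinearMap (b.equiv b' (Equiv.refl _)).toLinearMap = B :=
    LinearMap.ext_basis b b fun i j => by simp [hb, hb']
  exact LinearMap.congr_fun (LinearMap.congr_fun this x) y

end CfsgLib.SymFormTwo
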