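import Mathlib
import Cfsg.Agent.OrthGeo.InvolutionTwo
import Cfsg.Agent.OrthGeo.SymFormTwo
import Cfsg.Agent.LinAlg.Witt.Mat

/-!
Conjugacy classes of involutions of orthogonal groups in characteristic two: an involution is determined
up to conjugacy by the rank of `t - 1` and by whether the image of `t - 1` is totally singular.
-/

set_option autoImplicit false
set_option linter.unusedSectionVars false

namespace CfsgLib.OrthGeo.InvClass

open Module Matrix CfsgLib.OrthGeo
open scoped MatrixGroups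

variable {ι : Type} [Fintype ι] [DecidableEq ι] {F : Type*} [Field F] {Q : (ι → F) → F}

/-- The map `v ↦ t v - v`. -/
noncomputable def dmap (Q : (ι → F) → F) (t : Cfsg.isometryGroup F Q) : (ι → F) →ₗ[F] (ι → F) :=
  Matrix.toLin' (((t : GL ι F) : Matrix ι ι F) - 1)

theorem dmap_apply (t : Cfsg.isometryGroup F Q) (v : ι → F) :
    dmap Q t v = ((t : GL ι F) : Matrix ι ι F) *ᵥ v - v := by
  rw [dmap, Matrix.toLin'_apply, Matrix.sub_mulVec, Matrix.one_mulVec]

/-- The residual space of an element. -/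
noncomputable def res (Q : (ι → F) → F) (t : Cfsg.isometryGroup F Q) : Submodule F (ι → F) :=
  LinearMap.range (dmap Q t)

theorem finrank_res (t : Cfsg.isometryGroup F Q) :
    finrank F (res Q t) = (((t : GL ι F) : Matrix ι ι F) - 1).rank := rfl

theorem res_conj (g t : Cfsg.isometryGroup F Q) :
    res Q (g * t * g⁻¹) = imgSub (g : GL ι F) (res Q t) := by
  have e : ((((g * t * g⁻¹ : Cfsg.isometryGroup F Q)) : GL ι F) : Matrix ι ι F) - 1 =
      ((g : GL ι F) : Matrix ι ι F) * (((t : GL ι F) : Matrix ι ι F) - 1) *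
        (((g : GL ι F)⁻¹ : GL ι F) : Matrix ι ι F) := by
    simp only [Subgroup.coe_mul, InvMemClass.coe_inv, Units.val_mul, Matrix.mul_sub, Matrix.sub_mul, mul_one,
      Units.mul_inv]
  ext x
  simp only [res, dmap, e, imgSub, Submodule.mem_map, LinearMap.mem_range, Matrix.toLin'_apply]
  constructor
  · rintro ⟨y, rfl⟩
    exact ⟨_, ⟨(((g : GL ι F)⁻¹ : GL ι F) : Matrix ι ι F) *ᵥ y, rfl⟩, by simp only [Matrix.mulVec_mulVec, mul_assoc]⟩
  · rintro ⟨_, ⟨y, rfl⟩, rfl⟩
    refine ⟨((g : GL ι F) : Matrix ι ι F) *ᵥ y, ?_⟩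
    simp only [Matrix.mulVec_mulVec, mul_assoc, Units.inv_mul, mul_one]

theorem singular_conj_iff (g t : Cfsg.isometryGroup F Q) :
    Cfsg.Geo.IsTotallySingularQuad Q (res Q (g * t * g⁻¹)) ↔ Cfsg.Geo.IsTotallySingularQuad Q (res Q t) := by
  rw [res_conj]
  constructor
  · intro h v hv
    rw [← mem_isometryGroup.1 g.2 v]
    exact h _ (Submodule.mem_map.2 ⟨v, hv, rfl⟩)
  · intro h v hv
    obtain ⟨w, hw, rfl⟩ := Submodule.mem_map.1 hv
    exact (mem_isometryGroup.1 g.2 w).trans (h w hw)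

theorem finrank_res_conj (g t : Cfsg.isometryGroup F Q) :
    finrank F (res Q (g * t * g⁻¹)) = finrank F (res Q t) := by
  rw [res_conj, finrank_imgSub]

/-- A preimage map. -/
noncomputable def sect (Q : (ι → F) → F) (t : Cfsg.isometryGroup F Q) : res Q t →ₗ[F] (ι → F) :=
  Classical.choose (LinearMap.exists_rightInverse_of_surjective (dmap Q t).rangeRestrict
    (LinearMap.range_rangeRestrict _))

variable (hQ : Cfsg.Geo.IsNondegenerateQuadraticForm Q)

/-- The symmetric form on the residual space. -/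
noncomputable def gamma (t : Cfsg.isometryGroup F Q) : LinearMap.BilinForm F (res Q t) :=
  (bform hQ).compl₁₂ (sect Q t) (res Q t).subtype

variable [CharP F 2]
include hQ

theorem b_self_two (x : ι → F) : bform hQ x x = 0 := by
  rw [b_self hQ, show (2 : F) = 0 by exact_mod_cast CharP.cast_eq_zero F 2, zero_mul]

variable {t : Cfsg.isometryGroup F Q} (ht : t * t = 1)
include ht

theorem t_t (v : ι → F) :
    ((t : GL ι F) : Matrix ι ι F) *ᵥ (((t : GL ι F) : Matrix ι ι F) *ᵥ v) = v := by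
  rw [Matrix.mulVec_mulVec, ← Units.val_mul, ← Subgroup.coe_mul, ht]
  simp

theorem dmap_dmap (v : ι → F) : dmap Q t (dmap Q t v) = 0 := by
  have two : (2 : F) = 0 := by exact_mod_cast CharP.cast_eq_zero F 2
  rw [dmap_apply, dmap_apply, Matrix.mulVec_sub, t_t hQ ht]
  rw [show v - ((t : GL ι F) : Matrix ι ι F) *ᵥ v - (((t : GL ι F) : Matrix ι ι F) *ᵥ v - v) =
    (2 : F) • (v - ((t : GL ι F) : Matrix ι ι F) *ᵥ v) by module, two, zero_smul]

theorem b_dmap (x y : ι → F) : bform hQ (dmap Q t x) y = bform hQ x (dmap Q t y) := by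
  have h := isometry_b hQ t.2 x (((t : GL ι F) : Matrix ι ι F) *ᵥ y)
  rw [t_t hQ ht] at h
  rw [dmap_apply, dmap_apply, map_sub, LinearMap.sub_apply, map_sub, h]

theorem q_dmap (x : ι → F) : Q (dmap Q t x) = bform hQ x (dmap Q t x) := by
  have two : (2 : F) = 0 := by exact_mod_cast CharP.cast_eq_zero F 2
  have h := mem_isometryGroup.1 t.2 x
  rw [show ((t : GL ι F) : Matrix ι ι F) *ᵥ x = x + dmap Q t x by rw [dmap_apply]; abel, q_add hQ] at h
  linear_combination h - bform hQ x (dmap Q t x) * two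

theorem b_res {r r' : ι → F} (hr : r ∈ res Q t) (hr' : r' ∈ res Q t) : bform hQ r r' = 0 := by
  obtain ⟨x, rfl⟩ := hr
  obtain ⟨y, rfl⟩ := hr'
  rw [b_dmap hQ ht, dmap_dmap hQ ht, map_zero]

theorem dmap_sect (r : res Q t) : dmap Q t (sect Q t r) = r := by
  have := Classical.choose_spec (LinearMap.exists_rightInverse_of_surjective (dmap Q t).rangeRestrict
    (LinearMap.range_rangeRestrict _))
  exact congrArg Subtype.val (LinearMap.congr_fun this r)

theorem gamma_eq {x : ι → F} {r : res Q t} (hx : dmap Q t x = r) (r' : res Q t) :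
    gamma hQ t r r' = bform hQ x r' := by
  show bform hQ (sect Q t r) (r' : ι → F) = _
  obtain ⟨y, hy⟩ := r'.2
  rw [← hy, ← b_dmap hQ ht, ← b_dmap hQ ht, dmap_sect hQ ht, hx]

theorem gamma_symm (r r' : res Q t) : gamma hQ t r r' = gamma hQ t r' r := by
  rw [gamma_eq hQ ht (dmap_sect hQ ht r), gamma_eq hQ ht (dmap_sect hQ ht r')]
  calc bform hQ (sect Q t r) (r' : ι → F)
      = bform hQ (sect Q t r) (dmap Q t (sect Q t r')) := by rw [dmap_sect hQ ht]
    _ = bform hQ (r : ι → F) (sect Q t r') := by rw [← b_dmap hQ ht, dmap_sect hQ ht]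
    _ = _ := b_symm hQ _ _

theorem gamma_self (r : res Q t) : gamma hQ t r r = Q r := by
  obtain ⟨x, hx⟩ := r.2
  rw [gamma_eq hQ ht hx, ← hx, q_dmap hQ ht]

theorem b_eq_gamma (v : ι → F) (r : res Q t) :
    bform hQ v r = gamma hQ t ⟨dmap Q t v, LinearMap.mem_range_self _ _⟩ r :=
  (gamma_eq hQ ht rfl r).symm

theorem gamma_nondeg (r : res Q t) (h : ∀ r', gamma hQ t r r' = 0) : r = 0 := by
  refine Subtype.ext ((b_nondeg hQ).1 _ fun v => ?_)
  rw [b_symm hQ, b_eq_gamma hQ ht, gamma_symm hQ ht]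
  exact h _

theorem singular_iff : Cfsg.Geo.IsTotallySingularQuad Q (res Q t) ↔ ∀ r, gamma hQ t r r = 0 := by
  simp only [gamma_self hQ ht, Subtype.forall]
  rfl

theorem two_finrank_res_le : 2 * finrank F (res Q t) ≤ Fintype.card ι := by
  have h : res Q t ≤ perp hQ (res Q t) := fun x hx => (mem_perp hQ).2 fun y hy => b_res hQ ht hy hx
  have := Submodule.finrank_mono h
  have := finrank_perp_add hQ (res Q t)
  omega

theorem even_of_singular (h : Cfsg.Geo.IsTotallySingularQuad Q (res Q t)) : Even (finrank F (res Q t)) := by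
  obtain ⟨m, -, hm, -⟩ := LinAlg.Witt.exists_symplectic_basis (gamma hQ t) ((singular_iff hQ ht).1 h)
    (by
      rw [Submodule.eq_bot_iff]
      intro r hr
      refine gamma_nondeg hQ ht r fun r' => ?_
      rw [LinearMap.mem_ker.1 hr]; rfl)
  exact ⟨m, by omega⟩

theorem res_ne_zero (hne : t ≠ 1) : 0 < finrank F (res Q t) := by
  refine Nat.pos_of_ne_zero fun h => hne (Subtype.ext (Units.ext ?_))
  have h0 := Submodule.finrank_eq_zero.1 h
  refine Matrix.ext_of_mulVec_single fun i => sub_eq_zero.1 ?_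
  show ((t : GL ι F) : Matrix ι ι F) *ᵥ Pi.single i 1 - (1 : Matrix ι ι F) *ᵥ Pi.single i 1 = 0
  rw [Matrix.one_mulVec, ← dmap_apply]
  exact (Submodule.eq_bot_iff _).1 h0 _ (LinearMap.mem_range_self _ _)

/-- Involutions with residual spaces of equal dimension and type are conjugate. -/
theorem isConj_of_type [Finite F] {s : Cfsg.isometryGroup F Q} (hs : s * s = 1)
    (hdim : finrank F (res Q t) = finrank F (res Q s))
    (htype : Cfsg.Geo.IsTotallySingularQuad Q (res Q t) ↔ Cfsg.Geo.IsTotallySingularQuad Q (res Q s)) :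
    IsConj t s := by
  classical
  obtain ⟨L, hL⟩ := SymFormTwo.exists_equiv (gamma hQ t) (gamma_symm hQ ht) (gamma_nondeg hQ ht)
    (gamma hQ s) (gamma_symm hQ hs) (gamma_nondeg hQ hs) hdim
    (by rw [← singular_iff hQ ht, ← singular_iff hQ hs]; exact htype)
  let B := Module.finBasis F (res Q t)
  have hl : ∀ {R : Submodule F (ι → F)} (b : Basis (Fin (finrank F (res Q t))) F R),
      LinearIndependent F fun i => (b i : ι → F) := fun b =>
    b.linearIndependent.map' _ (Submodule.ker_subtype _)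
  obtain ⟨g, hg, hgb⟩ := LinAlg.Witt.exists_quadFun_family hQ (hl B) (hl (B.map L))
    (fun i => by rw [← gamma_self hQ ht, ← gamma_self hQ hs, Basis.map_apply, hL])
    (fun i j => by
      show bform hQ _ _ = bform hQ _ _
      rw [b_res hQ ht (B i).2 (B j).2, b_res hQ hs ((B.map L) i).2 ((B.map L) j).2])
  have hgL : ∀ r : res Q t, (g : Matrix ι ι F) *ᵥ (r : ι → F) = L r := by
    have : (Matrix.toLin' (g : Matrix ι ι F)).comp (res Q t).subtype = (res Q s).subtype.comp L.toLinearMap :=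
      B.ext fun i => by simpa using hgb i
    exact fun r => by simpa using LinearMap.congr_fun this r
  have hcomm : ∀ v, (g : Matrix ι ι F) *ᵥ dmap Q t v = dmap Q s ((g : Matrix ι ι F) *ᵥ v) := by
    intro v
    set r : res Q t := ⟨dmap Q t v, LinearMap.mem_range_self _ _⟩
    set r₂ : res Q s := ⟨dmap Q s ((g : Matrix ι ι F) *ᵥ v), LinearMap.mem_range_self _ _⟩
    have key : L r = r₂ := by
      refine sub_eq_zero.1 (gamma_nondeg hQ hs _ fun r' => ?_)
      rw [map_sub, LinearMap.sub_apply, sub_eq_zero]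
      obtain ⟨r'', rfl⟩ := L.surjective r'
      rw [hL, ← b_eq_gamma hQ ht, ← b_eq_gamma hQ hs, ← hgL, isometry_b hQ hg]
    rw [show dmap Q t v = (r : ι → F) from rfl, hgL, key]
  refine isConj_iff.2 ⟨⟨g, hg⟩, mul_inv_eq_iff_eq_mul.2 (Subtype.ext (Units.ext ?_))⟩
  refine Matrix.ext_of_mulVec_single fun i => ?_
  have h := hcomm (Pi.single i 1)
  rw [dmap_apply, dmap_apply, Matrix.mulVec_sub, sub_left_inj] at h
  simp only [Subgroup.coe_mul, Units.val_mul, ← Matrix.mulVec_mulVec]
  exact h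

end CfsgLib.OrthGeo.InvClass
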