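import Mathlib
import Cfsg.Agent.OrthGeo.InvolutionClasses

/-!
Counting the classes of involutions of orthogonal groups in characteristic two and of their Omega.
-/

set_option autoImplicit false
set_option linter.unusedSectionVars false

namespace CfsgLib.OrthGeo.InvClass

open Module Matrix CfsgLib.OrthGeo
open scoped MatrixGroups

variable {ι : Type} [Fintype ι] [DecidableEq ι] {F : Type*} [Field F] [Fintype F] [CharP F 2]
variable {Q : (ι → F) → F} (hQ : Cfsg.Geo.IsNondegenerateQuadraticForm Q)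
include hQ

theorem q_comb {κ : Type*} (r : κ → ι → F) (ho : ∀ i j, bform hQ (r i) (r j) = 0) (c : κ → F) (S : Finset κ) :
    Q (∑ i ∈ S, c i • r i) = ∑ i ∈ S, c i ^ 2 * Q (r i) := by
  classical
  induction S using Finset.induction_on with
  | empty => simp [q_zero hQ]
  | insert a S ha ih =>
    have hz : bform hQ (c a • r a) (∑ i ∈ S, c i • r i) = 0 := by
      rw [map_sum]
      exact Finset.sum_eq_zero fun i _ => by simp [ho]
    rw [Finset.sum_insert ha, Finset.sum_insert ha, q_add hQ, q_smul hQ, ih, hz, add_zero]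

/-- The involution attached to an orthogonal family and an involutive permutation of it. -/
theorem exists_involution {κ : Type*} [Fintype κ] [DecidableEq κ] (r : κ → ι → F) (σ : κ → κ)
    (hσ : Function.Involutive σ) (hli : LinearIndependent F r) (ho : ∀ i j, bform hQ (r i) (r j) = 0)
    (hq : ∀ i, Q (r i) = if σ i = i then 1 else 0) :
    ∃ t : Cfsg.isometryGroup F Q, t * t = 1 ∧ res Q t = Submodule.span F (Set.range r) := by
  classical
  have two : (2 : F) = 0 := by exact_mod_cast CharP.cast_eq_zero F 2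
  let a : (ι → F) →ₗ[F] (ι → F) := ∑ i, ((bform hQ).flip (r (σ i))).smulRight (r i)
  have ha : ∀ v, a v = ∑ i, bform hQ v (r (σ i)) • r i := fun v => by simp [a, LinearMap.sum_apply]
  have haa : ∀ v, a (a v) = 0 := fun v => by
    rw [ha (a v)]
    refine Finset.sum_eq_zero fun i _ => ?_
    rw [ha v, map_sum, LinearMap.sum_apply, Finset.sum_eq_zero fun j _ => by
      rw [map_smul, LinearMap.smul_apply, ho, smul_zero], zero_smul]
  have hiso : ∀ v, Q (v + a v) = Q v := fun v => by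
    rw [q_add hQ, ha v, q_comb hQ r ho, map_sum]
    simp only [map_smul, smul_eq_mul]
    rw [add_assoc, ← Finset.sum_add_distrib, add_eq_left]
    refine Finset.sum_involution (fun i _ => σ i) (fun i _ => ?_) (fun i _ hi h => hi ?_)
      (fun i _ => Finset.mem_univ _) (fun i _ => hσ i)
    · rw [hσ, hq, hq, hσ]
      rcases eq_or_ne (σ i) i with h | h
      · rw [h, if_pos rfl]; linear_combination (bform hQ v (r i) ^ 2 + bform hQ v (r i) * bform hQ v (r i)) * two
      · rw [if_neg h, if_neg (Ne.symm h)]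
        linear_combination bform hQ v (r (σ i)) * bform hQ v (r i) * two
    · rw [hq, if_pos h, h]
      linear_combination bform hQ v (r i) ^ 2 * two
  let L : (ι → F) →ₗ[F] (ι → F) := LinearMap.id + a
  have hLL : L.comp L = LinearMap.id := LinearMap.ext fun v => by
    simp only [L, LinearMap.comp_apply, LinearMap.add_apply, LinearMap.id_apply, map_add, haa]
    linear_combination (norm := module) (congrArg (· • a v) two)
  have hMM : LinearMap.toMatrix' L * LinearMap.toMatrix' L = 1 := by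
    rw [← LinearMap.toMatrix'_comp, hLL, LinearMap.toMatrix'_id]
  let g : GL ι F := ⟨_, _, hMM, hMM⟩
  have hgv : ∀ v, (g : Matrix ι ι F) *ᵥ v = v + a v := fun v => by
    show LinearMap.toMatrix' L *ᵥ v = _
    rw [LinearMap.toMatrix'_mulVec]; rfl
  refine ⟨⟨g, mem_isometryGroup.2 fun v => by rw [hgv, hiso]⟩, Subtype.ext (Units.ext hMM), ?_⟩
  have hd : ∀ v, dmap Q ⟨g, mem_isometryGroup.2 fun v => by rw [hgv, hiso]⟩ v = a v := fun v => by
    rw [dmap_apply]
    show (g : Matrix ι ι F) *ᵥ v - v = _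
    rw [hgv]; abel
  refine le_antisymm ?_ (Submodule.span_le.2 ?_)
  · rintro _ ⟨v, rfl⟩
    rw [hd, ha]
    exact Submodule.sum_mem _ fun i _ => Submodule.smul_mem _ _ (Submodule.subset_span ⟨i, rfl⟩)
  let Φ : (ι → F) →ₗ[F] (κ → F) := LinearMap.pi fun i => (bform hQ).flip (r (σ i))
  have hΦ : LinearMap.range Φ = ⊤ := by
    by_contra hne
    obtain ⟨φ, hφ0, hφ⟩ := Submodule.exists_le_ker_of_lt_top _ (lt_top_iff_ne_top.2 hne)
    have hc : ∀ c : κ → F, φ c = ∑ i, c i * φ (Pi.single i 1) := fun c => by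
      conv_lhs => rw [pi_eq_sum_univ' c]
      rw [map_sum]; simp
    have hz : ∀ v, bform hQ v (∑ i, φ (Pi.single i 1) • r (σ i)) = 0 := fun v => by
      have h0 : φ (Φ v) = 0 := hφ ⟨v, rfl⟩
      rw [hc] at h0
      rw [map_sum, ← h0]
      exact Finset.sum_congr rfl fun i _ => by rw [map_smul, smul_eq_mul, mul_comm]; rfl
    have hsum : ∑ i, φ (Pi.single i 1) • r (σ i) = 0 :=
      (b_nondeg hQ).1 _ fun v => by rw [b_symm hQ]; exact hz v
    have h0 := Fintype.linearIndependent_iff.1 (hli.comp σ hσ.injective) _ hsum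
    exact hφ0 (LinearMap.ext fun c => by rw [hc]; simp [h0])
  rintro _ ⟨i, rfl⟩
  obtain ⟨v, hv⟩ := LinearMap.range_eq_top.1 hΦ (Pi.single i 1)
  refine ⟨v, ?_⟩
  rw [hd, ha, Finset.sum_eq_single i (fun j _ hj => by
    rw [show bform hQ v (r (σ j)) = Φ v j from rfl, hv, Pi.single_eq_of_ne hj, zero_smul]) (by simp),
    show bform hQ v (r (σ i)) = Φ v i from rfl, hv, Pi.single_eq_same, one_smul]

theorem ne_one_of_res {t : Cfsg.isometryGroup F Q} (h : 0 < finrank F (res Q t)) : t ≠ 1 := by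
  rintro rfl
  have : res Q (1 : Cfsg.isometryGroup F Q) = ⊥ := by
    rw [Submodule.eq_bot_iff]
    rintro _ ⟨v, rfl⟩
    rw [dmap_apply]
    simp
  rw [this, finrank_bot] at h
  exact lt_irrefl 0 h

/-- Representatives: residual space of dimension `k`, not totally singular. -/
theorem exists_rep_ortho {m : ℕ} (hU : ∃ r : Fin m → ι → F, LinearIndependent F r ∧
      (∀ i j, bform hQ (r i) (r j) = 0) ∧ ∀ i, Q (r i) = 1) {k : ℕ} (hk0 : 0 < k) (hk : k ≤ m) :
    ∃ t : Cfsg.isometryGroup F Q, t * t = 1 ∧ t ≠ 1 ∧ finrank F (res Q t) = k ∧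
      ¬ Cfsg.Geo.IsTotallySingularQuad Q (res Q t) := by
  obtain ⟨r, hli, ho, hq⟩ := hU
  obtain ⟨t, htt, hres⟩ := exists_involution hQ (r ∘ Fin.castLE hk) id (fun _ => rfl)
    (hli.comp _ (Fin.castLE_injective hk)) (fun i j => ho _ _) (fun i => by simp [hq])
  have hd : finrank F (res Q t) = k := by
    rw [hres, finrank_span_eq_card (hli.comp _ (Fin.castLE_injective hk)), Fintype.card_fin]
  refine ⟨t, htt, ne_one_of_res hQ (by omega), hd, fun h => one_ne_zero (α := F) ?_⟩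
  rw [← hq (Fin.castLE hk ⟨0, hk0⟩)]
  exact h _ (hres.symm ▸ Submodule.subset_span ⟨⟨0, hk0⟩, rfl⟩)

/-- Representatives: totally singular residual space of dimension `2 k`. -/
theorem exists_rep_singular {M : ℕ} (hT : ∃ r : Fin M → ι → F, LinearIndependent F r ∧
      (∀ i j, bform hQ (r i) (r j) = 0) ∧ ∀ i, Q (r i) = 0) {k : ℕ} (hk0 : 0 < k) (hk : k + k ≤ M) :
    ∃ t : Cfsg.isometryGroup F Q, t * t = 1 ∧ t ≠ 1 ∧ finrank F (res Q t) = k + k ∧
      Cfsg.Geo.IsTotallySingularQuad Q (res Q t) := by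
  obtain ⟨r, hli, ho, hq⟩ := hT
  have hinj : Function.Injective fun i : Fin k ⊕ Fin k => Fin.castLE hk (finSumFinEquiv i) :=
    (Fin.castLE_injective hk).comp finSumFinEquiv.injective
  obtain ⟨t, htt, hres⟩ := exists_involution hQ _ Sum.swap Sum.swap_swap (hli.comp _ hinj) (fun i j => ho _ _)
    (fun i => by rcases i with i | i <;> simp [hq])
  have hd : finrank F (res Q t) = k + k := by
    rw [hres, finrank_span_eq_card (hli.comp _ hinj), Fintype.card_sum, Fintype.card_fin]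
  refine ⟨t, htt, ne_one_of_res hQ (by omega), hd, ?_⟩
  intro x hx
  rw [hres] at hx
  obtain ⟨c, rfl⟩ := (Submodule.mem_span_range_iff_exists_fun F).1 hx
  show Q (∑ i, c i • (r (Fin.castLE hk (finSumFinEquiv i)))) = 0
  rw [q_comb hQ (fun i => r (Fin.castLE hk (finSumFinEquiv i))) (fun i j => ho _ _)]
  exact Finset.sum_eq_zero fun i _ => by simp [hq]

variable {m M : ℕ} (hcard : Fintype.card ι = 2 * m)
  (hU : ∃ r : Fin m → ι → F, LinearIndependent F r ∧ (∀ i j, bform hQ (r i) (r j) = 0) ∧ ∀ i, Q (r i) = 1)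
  (hT : ∃ r : Fin M → ι → F, LinearIndependent F r ∧ (∀ i j, bform hQ (r i) (r j) = 0) ∧ ∀ i, Q (r i) = 0)
  (hM : ∀ U : Submodule F (ι → F), Cfsg.Geo.IsTotallySingularQuad Q U → finrank F U ≤ M)
include hcard hU hT hM

theorem m_bound : M ≤ m := by
  obtain ⟨r, hli, ho, hq⟩ := hT
  have hts : Cfsg.Geo.IsTotallySingularQuad Q (Submodule.span F (Set.range r)) := fun x hx => by
    obtain ⟨c, rfl⟩ := (Submodule.mem_span_range_iff_exists_fun F).1 hx
    rw [q_comb hQ r ho]
    exact Finset.sum_eq_zero fun i _ => by simp [hq]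
  have := two_mul_finrank_le hQ hts
  rw [finrank_span_eq_card hli, Fintype.card_fin] at this
  omega

/-- Representatives of all classes. -/
theorem exists_reps : ∃ rep : Fin m ⊕ Fin (M / 2) → Cfsg.isometryGroup F Q,
    (∀ i, rep i * rep i = 1 ∧ rep i ≠ 1) ∧
    (∀ i, finrank F (res Q (rep (.inl i))) = (i : ℕ) + 1 ∧
      ¬ Cfsg.Geo.IsTotallySingularQuad Q (res Q (rep (.inl i)))) ∧
    (∀ i, finrank F (res Q (rep (.inr i))) = 2 * ((i : ℕ) + 1) ∧
      Cfsg.Geo.IsTotallySingularQuad Q (res Q (rep (.inr i)))) := by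
  choose f hf1 hf2 hf3 hf4 using fun i : Fin m =>
    exists_rep_ortho hQ hU (Nat.succ_pos i) (Nat.succ_le_iff.2 i.2)
  choose g hg1 hg2 hg3 hg4 using fun i : Fin (M / 2) =>
    exists_rep_singular hQ hT (k := i + 1) (Nat.succ_pos _) (by have := i.2; omega)
  exact ⟨Sum.elim f g, Sum.rec (fun i => ⟨hf1 i, hf2 i⟩) fun i => ⟨hg1 i, hg2 i⟩, fun i => ⟨hf3 i, hf4 i⟩,
    fun i => ⟨(hg3 i).trans (two_mul _).symm, hg4 i⟩⟩

theorem type_cases {t : Cfsg.isometryGroup F Q} (ht : t * t = 1) (hne : t ≠ 1) :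
    (¬ Cfsg.Geo.IsTotallySingularQuad Q (res Q t) ∧ ∃ i : Fin m, finrank F (res Q t) = (i : ℕ) + 1) ∨
    (Cfsg.Geo.IsTotallySingularQuad Q (res Q t) ∧ ∃ i : Fin (M / 2), finrank F (res Q t) = 2 * ((i : ℕ) + 1)) := by
  have h0 := res_ne_zero hQ ht hne
  have h1 := two_finrank_res_le hQ ht
  by_cases h : Cfsg.Geo.IsTotallySingularQuad Q (res Q t)
  · obtain ⟨c, hc⟩ := even_of_singular hQ ht h
    have := hM _ h
    exact Or.inr ⟨h, ⟨c - 1, by omega⟩, by show _ = 2 * (c - 1 + 1); omega⟩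
  · exact Or.inl ⟨h, ⟨finrank F (res Q t) - 1, by omega⟩, by show _ = _ - 1 + 1; omega⟩

/-- Classes of involutions of the orthogonal group. -/
theorem card_classes : Nat.card {C : ConjClasses ↥(Cfsg.isometryGroup F Q) //
    ∃ g : ↥(Cfsg.isometryGroup F Q), ConjClasses.mk g = C ∧ orderOf g = 2} = m + M / 2 := by
  obtain ⟨rep, hrep, hl, hr⟩ := exists_reps hQ hcard hU hT hM
  have hord : ∀ i, orderOf (rep i) = 2 := fun i => orderOf_eq_prime (by rw [sq]; exact (hrep i).1) (hrep i).2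
  let f : Fin m ⊕ Fin (M / 2) → {C : ConjClasses ↥(Cfsg.isometryGroup F Q) //
      ∃ g : ↥(Cfsg.isometryGroup F Q), ConjClasses.mk g = C ∧ orderOf g = 2} :=
    fun i => ⟨ConjClasses.mk (rep i), rep i, rfl, hord i⟩
  have hinv : ∀ {x y : Cfsg.isometryGroup F Q}, IsConj x y → finrank F (res Q x) = finrank F (res Q y) ∧
      (Cfsg.Geo.IsTotallySingularQuad Q (res Q x) ↔ Cfsg.Geo.IsTotallySingularQuad Q (res Q y)) := by
    intro x y h
    obtain ⟨c, rfl⟩ := isConj_iff.1 h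
    exact ⟨(finrank_res_conj c x).symm, (singular_conj_iff c x).symm⟩
  have hf : Function.Bijective f := by
    constructor
    · intro i j hij
      obtain ⟨h1, h2⟩ := hinv (ConjClasses.mk_eq_mk_iff_isConj.1 (congrArg Subtype.val hij))
      rcases i with i | i <;> rcases j with j | j
      · exact congrArg _ (Fin.ext (by have := (hl i).1; have := (hl j).1; omega))
      · exact absurd (h2.2 (hr j).2) (hl i).2
      · exact absurd (h2.1 (hr i).2) (hl j).2
      · exact congrArg _ (Fin.ext (by have := (hr i).1; have := (hr j).1; omega))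
    · rintro ⟨C, g, rfl, hg⟩
      have hgg : g * g = 1 := by rw [← sq, ← hg, pow_orderOf_eq_one]
      have hg1 : g ≠ 1 := fun h => by rw [h, orderOf_one] at hg; omega
      rcases type_cases hQ hcard hU hT hM hgg hg1 with ⟨hs, i, hi⟩ | ⟨hs, i, hi⟩
      · refine ⟨.inl i, Subtype.ext (ConjClasses.mk_eq_mk_iff_isConj.2 ?_)⟩
        exact isConj_of_type hQ (hrep _).1 hgg ((hl i).1.trans hi.symm) (iff_of_false (hl i).2 hs)
      · refine ⟨.inr i, Subtype.ext (ConjClasses.mk_eq_mk_iff_isConj.2 ?_)⟩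
        exact isConj_of_type hQ (hrep _).1 hgg ((hr i).1.trans hi.symm) (iff_of_true (hr i).2 hs)
  rw [← Nat.card_congr (Equiv.ofBijective f hf), Nat.card_sum, Nat.card_fin, Nat.card_fin]

/-- Classes of involutions of Omega. -/
theorem card_omega_classes (hexc : ¬ (Nat.card F = 2 ∧ Fintype.card ι = 4)) :
    Nat.card {C : ConjClasses ↥(Cfsg.Omega F Q) // ∃ g : ↥(Cfsg.Omega F Q), ConjClasses.mk g = C ∧ orderOf g = 2} =
      m / 2 + M / 2 + (if M = m ∧ Even m ∧ 0 < m then 1 else 0) := by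
  classical
  obtain ⟨rep, hrep, hl, hr⟩ := exists_reps hQ hcard hU hT hM
  have hMm := m_bound hQ hcard hU hT hM
  have hmem : ∀ {t : Cfsg.isometryGroup F Q}, t ∈ Cfsg.Omega F Q ↔ Even (finrank F (res Q t)) :=
    fun {t} => involution_mem_omega_iff hQ hexc t
  have hinv : ∀ {x y : Cfsg.isometryGroup F Q}, IsConj x y → finrank F (res Q x) = finrank F (res Q y) ∧
      (Cfsg.Geo.IsTotallySingularQuad Q (res Q x) ↔ Cfsg.Geo.IsTotallySingularQuad Q (res Q y)) := by
    intro x y h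
    obtain ⟨c, rfl⟩ := isConj_iff.1 h
    exact ⟨(finrank_res_conj c x).symm, (singular_conj_iff c x).symm⟩
  have hfix : ∀ {t : Cfsg.isometryGroup F Q}, t * t = 1 →
      ¬ (Cfsg.Geo.IsTotallySingularQuad Q (res Q t) ∧ finrank F (res Q t) = m) →
      ∃ v : ι → F, ((t : GL ι F) : Matrix ι ι F) *ᵥ v = v ∧ Q v ≠ 0 := by
    intro t ht hn
    refine (involution_fixed_dichotomy hQ ht).resolve_right fun h => hn ⟨h.1, ?_⟩
    have h2 : 2 * finrank F (res Q t) = Fintype.card ι := h.2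
    omega
  -- the second class when the residual space is maximal
  have hextra : ∀ hc : M = m ∧ Even m ∧ 0 < m, ∃ t : Cfsg.isometryGroup F Q, t * t = 1 ∧ t ≠ 1 ∧
      finrank F (res Q t) = m ∧ Cfsg.Geo.IsTotallySingularQuad Q (res Q t) ∧
      ∀ j : Fin (M / 2), (¬ ∃ g ∈ Cfsg.Omega F Q, g * rep (.inr j) * g⁻¹ = t) ∧
        (2 * ((j : ℕ) + 1) = m → ∀ s : Cfsg.isometryGroup F Q, IsConj (rep (.inr j)) s →
          (∃ g ∈ Cfsg.Omega F Q, g * rep (.inr j) * g⁻¹ = s) ∨ ∃ g ∈ Cfsg.Omega F Q, g * t * g⁻¹ = s) := by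
    rintro ⟨hMeq, ⟨c, hc⟩, hm0⟩
    subst hMeq
    let top : Fin (M / 2) := ⟨c - 1, by omega⟩
    have htopd : finrank F (res Q (rep (.inr top))) = M := by
      rw [(hr top).1]; show 2 * (c - 1 + 1) = M; omega
    obtain ⟨a, ha⟩ : ∃ a, Q a ≠ 0 := by
      obtain ⟨r, -, -, hq⟩ := hU
      exact ⟨r ⟨0, hm0⟩, by rw [hq]; exact one_ne_zero⟩
    let σ : Cfsg.isometryGroup F Q := ⟨reflection hQ ha, reflection_mem hQ ha⟩
    have hne' : σ * rep (.inr top) * σ⁻¹ ≠ 1 := fun h => (hrep (.inr top)).2 (conj_eq_one_iff.1 h)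
    refine ⟨σ * rep (.inr top) * σ⁻¹, by rw [show ∀ x y : Cfsg.isometryGroup F Q,
      x * y * x⁻¹ * (x * y * x⁻¹) = x * (y * y) * x⁻¹ from fun x y => by group, (hrep _).1]; group,
      hne', by rw [finrank_res_conj, htopd], (singular_conj_iff _ _).2 (hr top).2, fun j => ⟨?_, ?_⟩⟩
    · rintro ⟨g, hg, hgt⟩
      have hconj : IsConj (rep (.inr j)) (σ * rep (.inr top) * σ⁻¹) := isConj_iff.2 ⟨g, hgt⟩
      have hj : j = top := by
        have h := (hinv hconj).1
        rw [finrank_res_conj, (hr j).1, (hr top).1] at h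
        exact Fin.ext (by omega)
      subst hj
      have ht : rep (.inr top) ∈ Cfsg.Omega F Q := hmem.2 (by rw [htopd]; exact ⟨c, by omega⟩)
      have h1 := (omega_conj_iff_of_residual hQ (by omega) hexc ht hconj (hr top).2
        (by rw [← finrank_res, htopd]; omega)).1 ⟨g, hg, hgt⟩
      change Even (finrank F ↥(res Q (rep (.inr top)) ⊓ res Q (σ * rep (.inr top) * σ⁻¹))) at h1
      rw [res_conj] at h1
      have h2 := reflection_swaps_class hQ (U := res Q (rep (.inr top)))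
        ⟨(hr top).2, by rw [htopd]; omega⟩ ha
      rw [htopd] at h2
      exact Nat.not_even_iff_odd.2 h2 (Even.add ⟨c, hc⟩ h1)
    · intro hjm s hs
      have hj : j = top := Fin.ext (show (j : ℕ) = c - 1 by omega)
      subst hj
      obtain ⟨h, hh⟩ := isConj_iff.1 hs
      rcases mem_omega_or_reflection_mul_mem hQ hexc ha (inv_mem h.2) with ⟨y, hy, hye⟩ | ⟨y, hy, hye⟩
      · refine Or.inl ⟨h, ?_, hh⟩
        have e : h⁻¹ = y := Subtype.ext hye.symm
        rw [← inv_inv h, e]; exact inv_mem hy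
      · refine Or.inr ⟨y⁻¹, inv_mem hy, ?_⟩
        have e : y = σ * h⁻¹ := Subtype.ext hye
        rw [e, ← hh]; group
  -- indices
  let K := (Fin (m / 2) ⊕ Fin (M / 2)) ⊕ Fin (if M = m ∧ Even m ∧ 0 < m then 1 else 0)
  let base : Fin (m / 2) ⊕ Fin (M / 2) → Cfsg.isometryGroup F Q :=
    Sum.elim (fun i => rep (.inl ⟨2 * (i : ℕ) + 1, by have := i.2; omega⟩)) fun i => rep (.inr i)
  have hpos : ∀ {n : Fin (if M = m ∧ Even m ∧ 0 < m then 1 else 0)}, M = m ∧ Even m ∧ 0 < m := fun {n} => by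
    by_contra h
    rw [if_neg h] at n
    exact n.elim0
  choose t₂ ht₂ using hextra
  let el : K → Cfsg.isometryGroup F Q := Sum.elim base fun n => t₂ (hpos (n := n))
  have hel : ∀ i, el i ∈ Cfsg.Omega F Q ∧ el i * el i = 1 ∧ el i ≠ 1 := by
    rintro ((i | i) | n)
    · refine ⟨hmem.2 ?_, hrep _⟩
      show Even (finrank F (res Q (rep (.inl _))))
      rw [(hl _).1]; exact ⟨(i : ℕ) + 1, by ring⟩
    · refine ⟨hmem.2 ?_, hrep _⟩
      show Even (finrank F (res Q (rep (.inr i))))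
      rw [(hr _).1]; exact even_two_mul _
    · obtain ⟨h1, h2, h3, -⟩ := ht₂ (hpos (n := n))
      refine ⟨hmem.2 ?_, h1, h2⟩
      show Even (finrank F (res Q (t₂ _)))
      rw [h3]; exact (hpos (n := n)).2.1
  let f : K → {C : ConjClasses ↥(Cfsg.Omega F Q) //
      ∃ g : ↥(Cfsg.Omega F Q), ConjClasses.mk g = C ∧ orderOf g = 2} := fun i =>
    ⟨ConjClasses.mk ⟨el i, (hel i).1⟩, ⟨el i, (hel i).1⟩, rfl, orderOf_eq_prime
      (Subtype.ext (by rw [sq]; exact (hel i).2.1)) fun h => (hel i).2.2 (congrArg Subtype.val h)⟩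
  have hconjΩ : ∀ {x y : ↥(Cfsg.Omega F Q)},
      ConjClasses.mk x = ConjClasses.mk y ↔ ∃ g ∈ Cfsg.Omega F Q, g * x.1 * g⁻¹ = y.1 := by
    intro x y
    rw [ConjClasses.mk_eq_mk_iff_isConj, isConj_iff]
    exact ⟨fun ⟨g, hg⟩ => ⟨g.1, g.2, congrArg Subtype.val hg⟩, fun ⟨g, hg, h⟩ => ⟨⟨g, hg⟩, Subtype.ext h⟩⟩
  have hf : Function.Bijective f := by
    constructor
    · intro i j hij
      have hgij := hconjΩ.1 (congrArg Subtype.val hij)
      obtain ⟨g, hg, hgij'⟩ := hgij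
      obtain ⟨h1, h2⟩ := hinv (isConj_iff.2 ⟨g, hgij'⟩)
      rcases i with (i | i) | i <;> rcases j with (j | j) | j <;> simp only [el, base, Sum.elim_inl, Sum.elim_inr] at h1 h2 hgij'
      · have := (hl ⟨2 * (i : ℕ) + 1, by have := i.2; omega⟩).1
        have := (hl ⟨2 * (j : ℕ) + 1, by have := j.2; omega⟩).1
        refine congrArg (Sum.inl ∘ Sum.inl) (Fin.ext ?_)
        have e : 2 * (i : ℕ) + 1 + 1 = 2 * (j : ℕ) + 1 + 1 :=
          (hl ⟨2 * (i : ℕ) + 1, by have := i.2; omega⟩).1.symm.trans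
            (h1.trans (hl ⟨2 * (j : ℕ) + 1, by have := j.2; omega⟩).1)
        omega
      · exact absurd (h2.2 (hr j).2) (hl _).2
      · exact absurd (h2.2 (ht₂ _).2.2.2.1) (hl _).2
      · exact absurd (h2.1 (hr i).2) (hl _).2
      · refine congrArg (Sum.inl ∘ Sum.inr) (Fin.ext ?_)
        have e := (hr i).1.symm.trans (h1.trans (hr j).1)
        omega
      · exact absurd ⟨g, hg, hgij'⟩ ((ht₂ _).2.2.2.2 i).1
      · exact absurd (h2.1 (ht₂ _).2.2.2.1) (hl _).2
      · refine absurd ⟨g⁻¹, inv_mem hg, ?_⟩ ((ht₂ (hpos (n := i))).2.2.2.2 j).1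
        rw [← hgij']; group
      · refine congrArg Sum.inr (Fin.ext ?_)
        have h3 : (i : ℕ) < if M = m ∧ Even m ∧ 0 < m then 1 else 0 := i.2
        have h4 : (j : ℕ) < if M = m ∧ Even m ∧ 0 < m then 1 else 0 := j.2
        split_ifs at h3 h4 <;> omega
    · rintro ⟨C, ⟨g, hgΩ⟩, rfl, hg⟩
      have hgg : g * g = 1 := by
        have h := pow_orderOf_eq_one (⟨g, hgΩ⟩ : ↥(Cfsg.Omega F Q))
        rw [hg, sq] at h
        exact congrArg Subtype.val h
      have hg1 : g ≠ 1 := fun h => by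
        subst h
        rw [show (⟨1, hgΩ⟩ : ↥(Cfsg.Omega F Q)) = 1 from rfl, orderOf_one] at hg
        omega
      obtain ⟨c, hc⟩ := hmem.1 hgΩ
      rcases type_cases hQ hcard hU hT hM hgg hg1 with ⟨hs, i, hi⟩ | ⟨hs, i, hi⟩
      · refine ⟨.inl (.inl ⟨c - 1, by have := i.2; omega⟩), Subtype.ext (hconjΩ.2 ?_)⟩
        have hi' : (⟨2 * (c - 1) + 1, by have := i.2; omega⟩ : Fin m) = i := Fin.ext (show 2 * (c - 1) + 1 = i by omega)
        show ∃ g' ∈ Cfsg.Omega F Q, g' * rep (.inl ⟨2 * (c - 1) + 1, _⟩) * g'⁻¹ = g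
        rw [hi']
        refine omega_conj_of_fixed hQ hexc (isConj_of_type hQ (hrep _).1 hgg ((hl i).1.trans hi.symm)
          (iff_of_false (hl i).2 hs)) (hfix (hrep _).1 fun h => (hl i).2 h.1)
      · have hconj : IsConj (rep (.inr i)) g :=
          isConj_of_type hQ (hrep _).1 hgg ((hr i).1.trans hi.symm) (iff_of_true (hr i).2 hs)
        by_cases hmax : 2 * ((i : ℕ) + 1) = m
        · have hcnd : M = m ∧ Even m ∧ 0 < m := ⟨by have := i.2; omega, ⟨(i : ℕ) + 1, by omega⟩, by omega⟩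
          rcases ((ht₂ hcnd).2.2.2.2 i).2 hmax g hconj with ⟨a, ha, hag⟩ | ⟨a, ha, hag⟩
          · exact ⟨.inl (.inr i), Subtype.ext (hconjΩ.2 ⟨a, ha, hag⟩)⟩
          · exact ⟨.inr ⟨0, by rw [if_pos hcnd]; norm_num⟩, Subtype.ext (hconjΩ.2 ⟨a, ha, hag⟩)⟩
        · refine ⟨.inl (.inr i), Subtype.ext (hconjΩ.2 ?_)⟩
          exact omega_conj_of_fixed hQ hexc hconj (hfix (hrep _).1 fun h => hmax ((hr i).1 ▸ h.2))
  rw [← Nat.card_congr (Equiv.ofBijective f hf)]
  simp only [K, Nat.card_sum, Nat.card_fin]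

end CfsgLib.OrthGeo.InvClass
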