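import Cfsg.Agent.OrthGeo.InvolutionCount
import Cfsg.Agent.OrthGeo.Forms
import Cfsg.Agent.Char2Forms.Standard

/-!
The data for counting involution classes in the standard plus and minus groups in characteristic two.
-/

set_option autoImplicit false

namespace CfsgLib.OrthGeo.InvClass

open Module CfsgLib.OrthGeo

variable {F : Type*} [Field F] [CharP F 2]

theorem linearIndependent_of_dual {κ ι : Type} [Fintype κ] [DecidableEq κ] (r : κ → ι → F) (p : κ → ι)
    (h : ∀ i j, r i (p j) = if i = j then 1 else 0) : LinearIndependent F r := by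
  rw [Fintype.linearIndependent_iff]
  intro c hc j
  have := congrFun hc (p j)
  simpa [h] using this

theorem plus_data (m : ℕ) (hQ : Cfsg.Geo.IsNondegenerateQuadraticForm (Cfsg.quadFormPlus m F)) :
    (∃ r : Fin m → (Fin m ⊕ Fin m → F), LinearIndependent F r ∧ (∀ i j, bform hQ (r i) (r j) = 0) ∧
      ∀ i, Cfsg.quadFormPlus m F (r i) = 1) ∧
    (∃ r : Fin m → (Fin m ⊕ Fin m → F), LinearIndependent F r ∧ (∀ i j, bform hQ (r i) (r j) = 0) ∧
      ∀ i, Cfsg.quadFormPlus m F (r i) = 0) := by
  have two : (1 : F) + 1 = 0 := CharTwo.add_self_eq_zero 1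
  constructor
  · refine ⟨fun i => Sum.elim (Pi.single i 1) (Pi.single i 1), linearIndependent_of_dual _ Sum.inl
      (fun i j => by simp [Pi.single_apply, eq_comm]), fun i j => ?_, fun i => ?_⟩
    · rw [bform_apply]
      rcases eq_or_ne i j with rfl | h
      · simp [QuadraticMap.polar, Cfsg.quadFormPlus, CharTwo.add_self_eq_zero, CharTwo.sub_eq_add]
      · simp [QuadraticMap.polar, Cfsg.quadFormPlus, Pi.single_apply, add_mul, mul_add, Finset.sum_add_distrib,
          h, h.symm]
    · simp [Cfsg.quadFormPlus, Pi.single_apply]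
  · refine ⟨fun i => Sum.elim (Pi.single i 1) 0, linearIndependent_of_dual _ Sum.inl
      (fun i j => by simp [Pi.single_apply, eq_comm]), fun i j => ?_, fun i => ?_⟩
    · rw [bform_apply]; simp [QuadraticMap.polar, Cfsg.quadFormPlus]
    · simp [Cfsg.quadFormPlus]

theorem minus_data (m : ℕ) (a b : F)
    (hQ : Cfsg.Geo.IsNondegenerateQuadraticForm (Cfsg.quadFormMinus m F a b)) :
    (∃ r : Fin (m + 1) → ((Fin m ⊕ Fin m) ⊕ Fin 2 → F), LinearIndependent F r ∧
      (∀ i j, bform hQ (r i) (r j) = 0) ∧ ∀ i, Cfsg.quadFormMinus m F a b (r i) = 1) ∧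
    (∃ r : Fin m → ((Fin m ⊕ Fin m) ⊕ Fin 2 → F), LinearIndependent F r ∧ (∀ i j, bform hQ (r i) (r j) = 0) ∧
      ∀ i, Cfsg.quadFormMinus m F a b (r i) = 0) := by
  have two : (1 : F) + 1 = 0 := CharTwo.add_self_eq_zero 1
  constructor
  · refine ⟨Fin.snoc (fun i => Sum.elim (Sum.elim (Pi.single i 1) (Pi.single i 1)) 0) (Pi.single (.inr 0) 1),
      linearIndependent_of_dual _ (Fin.snoc (fun i => Sum.inl (Sum.inl i)) (Sum.inr 0)) (fun i j => ?_),
      fun i j => ?_, fun i => ?_⟩
    · induction i using Fin.lastCases <;> induction j using Fin.lastCases <;>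
        simp [Pi.single_apply, Fin.castSucc_ne_last, eq_comm, Ne.symm (Fin.castSucc_ne_last _)]
    · rw [bform_apply]
      induction i using Fin.lastCases with
      | last =>
        induction j using Fin.lastCases with
        | last => simp [QuadraticMap.polar, Cfsg.quadFormMinus, CharTwo.add_self_eq_zero, CharTwo.sub_eq_add]
        | cast j => simp [QuadraticMap.polar, Cfsg.quadFormMinus, Pi.single_apply]
      | cast i =>
        induction j using Fin.lastCases with
        | last => simp [QuadraticMap.polar, Cfsg.quadFormMinus, Pi.single_apply]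
        | cast j =>
          rcases eq_or_ne i j with rfl | h
          · simp [QuadraticMap.polar, Cfsg.quadFormMinus, CharTwo.add_self_eq_zero, CharTwo.sub_eq_add]
          · simp [QuadraticMap.polar, Cfsg.quadFormMinus, Pi.single_apply, add_mul, mul_add,
              Finset.sum_add_distrib, h, h.symm]
    · induction i using Fin.lastCases <;> simp [Cfsg.quadFormMinus, Pi.single_apply]
  · refine ⟨fun i => Sum.elim (Sum.elim (Pi.single i 1) 0) 0, linearIndependent_of_dual _ (fun i => .inl (.inl i))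
      (fun i j => by simp [Pi.single_apply, eq_comm]), fun i j => ?_, fun i => ?_⟩
    · rw [bform_apply]; simp [QuadraticMap.polar, Cfsg.quadFormMinus]
    · simp [Cfsg.quadFormMinus]

theorem plus_bound [Fintype F] (m : ℕ) (hQ : Cfsg.Geo.IsNondegenerateQuadraticForm (Cfsg.quadFormPlus m F))
    (U : Submodule F (Fin m ⊕ Fin m → F)) (hU : Cfsg.Geo.IsTotallySingularQuad (Cfsg.quadFormPlus m F) U) :
    finrank F U ≤ m := by
  have := two_mul_finrank_le hQ hU
  simp only [Fintype.card_sum, Fintype.card_fin] at this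
  omega

theorem minus_bound [Fintype F] (m : ℕ) (a b : F)
    (hab : ∀ x y : F, x ^ 2 + a * x * y + b * y ^ 2 = 0 → x = 0 ∧ y = 0)
    (U : Submodule F ((Fin m ⊕ Fin m) ⊕ Fin 2 → F))
    (hU : Cfsg.Geo.IsTotallySingularQuad (Cfsg.quadFormMinus m F a b) U) : finrank F U ≤ m :=
  CfsgLib.Char2Forms.minus_finrank_le (by exact_mod_cast CharP.cast_eq_zero F 2) m a b hab U hU

end CfsgLib.OrthGeo.InvClass

namespace CfsgLib.OrthGeo.InvClass

open Equiv

/-- Involutions in the commutator subgroup of a copy of the symmetric group of degree five. -/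
theorem card_five {G : Type*} [Group G] (e : G ≃* Perm (Fin 5)) :
    Nat.card {C : ConjClasses ↥(commutator G) //
      ∃ g : ↥(commutator G), ConjClasses.mk g = C ∧ orderOf g = 2} = 1 := by
  classical
  have hmem : ∀ g, g ∈ commutator G ↔ e g ∈ alternatingGroup (Fin 5) := fun g => by
    have h : (commutator G).map (e : G →* Perm (Fin 5)) = commutator (Perm (Fin 5)) := by
      rw [commutator_def, commutator_def, Subgroup.map_commutator,
        Subgroup.map_top_of_surjective _ e.surjective]
    rw [← alternatingGroup.commutator_perm_eq (by simp), ← h]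
    exact (Subgroup.mem_map_iff_mem (f := (e : G →* Perm (Fin 5))) e.injective).symm
  have htype : ∀ σ : Perm (Fin 5), σ ∈ alternatingGroup (Fin 5) → orderOf σ = 2 →
      σ.cycleType = Multiset.replicate 2 2 := by
    intro σ h1 h2
    obtain ⟨n, hn⟩ := Perm.cycleType_prime_order (σ := σ) (by rw [h2]; norm_num)
    rw [h2] at hn
    have hsum := σ.sum_cycleType_le
    rw [hn, Multiset.sum_replicate, smul_eq_mul, Fintype.card_fin] at hsum
    have hs := Perm.mem_alternatingGroup.1 h1
    rw [Perm.sign_of_cycleType, hn, Multiset.sum_replicate, Multiset.card_replicate, smul_eq_mul] at hs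
    rcases (show n = 0 ∨ n = 1 by omega) with rfl | rfl
    · exact absurd hs (by decide)
    · exact hn
  rw [Nat.card_eq_one_iff_unique]
  refine ⟨⟨?_⟩, ?_⟩
  · rintro ⟨_, x, rfl, hx⟩ ⟨_, y, rfl, hy⟩
    refine Subtype.ext (ConjClasses.mk_eq_mk_iff_isConj.2 (isConj_iff.2 ?_))
    have ho : ∀ z : ↥(commutator G), orderOf z = 2 → orderOf (e z.1) = 2 := fun z hz => by
      rw [MulEquiv.orderOf_eq, Subgroup.orderOf_coe, hz]
    obtain ⟨π, hπ⟩ := isConj_iff.1 (Perm.isConj_iff_cycleType_eq.2
      ((htype _ ((hmem _).1 x.2) (ho x hx)).trans (htype _ ((hmem _).1 y.2) (ho y hy)).symm))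
    obtain ⟨ρ, hρ, hρe⟩ : ∃ ρ ∈ alternatingGroup (Fin 5), ρ * e x.1 * ρ⁻¹ = e y.1 := by
      by_cases hp : π ∈ alternatingGroup (Fin 5)
      · exact ⟨π, hp, hπ⟩
      obtain ⟨c, hc⟩ : ∃ c, e x.1 c ≠ c := by
        by_contra hcon
        push Not at hcon
        have h1 := ho x hx
        rw [show e x.1 = 1 from Perm.ext hcon, orderOf_one] at h1
        omega
      have hxx : e x.1 (e x.1 c) = c := by
        have h := pow_orderOf_eq_one (e x.1)
        rw [ho x hx, sq] at h
        exact DFunLike.congr_fun h c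
      refine ⟨π * swap c (e x.1 c), ?_, ?_⟩
      · rw [Perm.mem_alternatingGroup, Perm.sign_mul, Perm.sign_swap (Ne.symm hc)]
        rcases Int.units_eq_one_or (Perm.sign π) with h | h
        · exact absurd (Perm.mem_alternatingGroup.2 h) hp
        · rw [h]; rfl
      · have hcomm : swap c (e x.1 c) * e x.1 = e x.1 * swap c (e x.1 c) := by
          rw [mul_swap_eq_swap_mul, hxx, swap_comm]
        rw [← hπ, mul_inv_rev, mul_assoc π, hcomm]
        simp [mul_assoc]
    refine ⟨⟨e.symm ρ, (hmem _).2 (by simpa using hρ)⟩, Subtype.ext (e.injective ?_)⟩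
    simpa using hρe
  · have hw : swap (0 : Fin 5) 1 * swap 2 3 ∈ alternatingGroup (Fin 5) := by
      rw [Perm.mem_alternatingGroup]; decide
    let w : ↥(commutator G) := ⟨e.symm (swap (0 : Fin 5) 1 * swap 2 3), (hmem _).2 (by simpa using hw)⟩
    refine ⟨⟨ConjClasses.mk w, w, rfl, ?_⟩⟩
    rw [← Subgroup.orderOf_coe]
    show orderOf (e.symm (swap (0 : Fin 5) 1 * swap 2 3)) = 2
    rw [MulEquiv.orderOf_eq]
    exact orderOf_eq_prime (by decide) (by decide)

end CfsgLib.OrthGeo.InvClass
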