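import Cfsg.Agent.OrthGeo.Simple
import Cfsg.Agent.OrthGeo.PlusPlane

/-! The stabiliser in Omega of a non-zero totally singular subspace is a maximal subgroup of Omega,
unless the subspace has dimension one less than half the dimension and is not maximal. -/

set_option autoImplicit false
set_option linter.unusedSectionVars false

namespace CfsgLib.OrthGeo

open Cfsg.Geo Module
open scoped Matrix MatrixGroups

variable {ι : Type} [Fintype ι] [DecidableEq ι] {F : Type*} [Field F]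
variable {Q : (ι → F) → F}

theorem parabolic_isMaximal [Finite F] (hQ : IsNondegenerateQuadraticForm Q) (hn : 5 ≤ Fintype.card ι)
    (W : Submodule F (ι → F)) (hW0 : W ≠ ⊥) (hW : IsTotallySingularQuad Q W)
    (hdim : ∀ u : ι → F, u ∈ perp hQ W → Q u = 0 → u ∉ W → 2 * (finrank F W + 1) ≠ Fintype.card ι) :
    IsMaximalIn (omegaGL Q) (subspaceStabilizer W ⊓ omegaGL Q) := by
  obtain ⟨w₀, hw₀, hw₀0⟩ := Submodule.exists_mem_ne_zero_of_ne_bot hW0
  have ww : ∀ a ∈ W, ∀ b ∈ W, bform hQ a b = 0 := fun a ha b hb => le_perp_self hQ hW hb a ha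
  refine ⟨lt_of_le_not_ge inf_le_right fun hle => ?_, fun M hPM hMΩ => ?_⟩
  · -- the stabiliser is proper
    obtain ⟨v, hv, hwv⟩ := exists_partner hQ (hW w₀ hw₀) hw₀0
    have hv0 : v ≠ 0 := by rintro rfl; rw [map_zero] at hwv; exact zero_ne_one hwv
    obtain ⟨g, hg, hgv⟩ := exists_map_singular hQ hn (hW w₀ hw₀) hv hw₀0 hv0
    have hmem := (mem_subspaceStabilizer.1 (hle (eichlerGroup_le_omega hQ hn hg)).1 w₀).1 hw₀
    rw [hgv] at hmem
    exact one_ne_zero (hwv.symm.trans (ww w₀ hw₀ v hmem))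
  by_cases hMP : M ≤ subspaceStabilizer W ⊓ omegaGL Q
  · exact Or.inl (le_antisymm hMP hPM)
  refine Or.inr (le_antisymm hMΩ ?_)
  -- singular vectors whose Eichler elements lie in `M`
  let S : Set (ι → F) := {u | ∃ hu : Q u = 0, ∀ (w : ι → F) (hw : bform hQ u w = 0), eichler hQ hu hw ∈ M}
  have hSsmul : ∀ (c : F) u, u ∈ S → c • u ∈ S := by
    rintro c u ⟨hu, h⟩
    refine ⟨by rw [q_smul hQ, hu, mul_zero], fun w hw => ?_⟩
    have hcw : bform hQ u (c • w) = 0 := by
      rw [map_smul, LinearMap.smul_apply] at hw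
      rw [map_smul]; exact hw
    rw [eichler_smul hQ c _ hw hu hcw]
    exact h _ hcw
  have hWS : ∀ u ∈ W, u ∈ S := fun u hu => ⟨hW u hu, fun x hx => hPM ⟨mem_subspaceStabilizer_of_le fun y hy => by
    rw [eichler_mulVec hQ, ww u hu y hy, zero_smul, sub_zero, mul_zero, zero_smul, sub_zero]
    exact W.add_mem hy (W.smul_mem _ hu), eichler_mem_omega hQ hn (hW u hu) hx⟩⟩
  have hSM : ∀ g ∈ M, ∀ u ∈ S, (g : Matrix ι ι F) *ᵥ u ∈ S := by
    rintro g hg u ⟨hu, h⟩
    have hgI := omegaGL_le (hMΩ hg)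
    refine ⟨by rw [mem_isometryGroup.1 hgI, hu], fun w hw => ?_⟩
    obtain ⟨y, rfl⟩ : ∃ y, w = (g : Matrix ι ι F) *ᵥ y := ⟨_, (mulVec_inv_cancel g w).symm⟩
    have hy : bform hQ u y = 0 := by rw [isometry_b hQ hgI] at hw; exact hw
    rw [← conj_eichler hQ hgI hu hy _ hw rfl rfl]
    exact mul_mem (mul_mem hg (h y hy)) (inv_mem hg)
  -- moving one vector of `S` onto another by a root group contained in `M`
  have hmove : ∀ z v u : ι → F, z ∈ S → v ∈ S → Q u = 0 → bform hQ z v ≠ 0 → bform hQ z u ≠ 0 → u ∈ S := by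
    rintro z v u ⟨hz, hzM⟩ hvS hu hzv hzu
    have hv' : Q v = 0 := hvS.1
    set v' : ι → F := (bform hQ z v)⁻¹ • v with hv'def
    set u' : ι → F := (bform hQ z u)⁻¹ • u with hu'def
    obtain ⟨h, he⟩ := exists_eichler_map hQ hz (v := v') (v' := u') (by rw [hv'def, q_smul hQ, hv', mul_zero])
      (by rw [hu'def, q_smul hQ, hu, mul_zero])
      (by rw [hv'def, map_smul, smul_eq_mul, inv_mul_cancel₀ hzv])
      (by rw [hu'def, map_smul, smul_eq_mul, inv_mul_cancel₀ hzu])
    have : u' ∈ S := he ▸ hSM _ (hzM _ h) v' (hSsmul _ v hvS)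
    have h2 := hSsmul (bform hQ z u) u' this
    rwa [hu'def, smul_inv_smul₀ hzu] at h2
  -- a vector of `S` outside `W`
  obtain ⟨u₁, hu₁S, hu₁W⟩ : ∃ u ∈ S, u ∉ W := by
    obtain ⟨g, hgM, hgP⟩ := SetLike.not_le_iff_exists.1 hMP
    by_contra h
    push Not at h
    exact hgP ⟨mem_subspaceStabilizer_of_le fun y hy => h _ (hSM g hgM y (hWS y hy)), hMΩ hgM⟩
  -- a vector of `S` outside the perp of `W`
  obtain ⟨u₂, hu₂S, hu₂W⟩ : ∃ u ∈ S, u ∉ perp hQ W := by
    by_contra h
    push Not at h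
    obtain ⟨hu₁, hu₁M⟩ := hu₁S
    have hu₁P : u₁ ∈ perp hQ W := h u₁ ⟨hu₁, hu₁M⟩
    obtain ⟨y, hy, hyu⟩ : ∃ y ∈ perp hQ W, bform hQ y u₁ ≠ 0 :=
      exists_mem_b_ne_zero hQ (by rwa [perp_perp hQ])
    obtain ⟨x, hxP, hx, hxu⟩ : ∃ x ∈ perp hQ W, Q x = 0 ∧ bform hQ x u₁ = 1 := by
      obtain ⟨y', hy', hy'u⟩ : ∃ y' ∈ perp hQ W, bform hQ y' u₁ = 1 :=
        ⟨_, Submodule.smul_mem _ _ hy, by
          rw [map_smul, LinearMap.smul_apply, smul_eq_mul]; exact inv_mul_cancel₀ hyu⟩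
      refine ⟨y' - Q y' • u₁, Submodule.sub_mem _ hy' (Submodule.smul_mem _ _ hu₁P), ?_, ?_⟩
      · rw [q_sub hQ, q_smul hQ, hu₁, map_smul, smul_eq_mul, hy'u]; ring
      · rw [map_sub, map_smul, LinearMap.sub_apply, LinearMap.smul_apply, hy'u, b_self_eq_zero hQ hu₁, smul_zero,
          sub_zero]
    have hWu : IsTotallySingularQuad Q (W ⊔ Submodule.span F {u₁}) := by
      intro z hz
      obtain ⟨a, ha, b, hb, rfl⟩ := Submodule.mem_sup.1 hz
      obtain ⟨c, rfl⟩ := Submodule.mem_span_singleton.1 hb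
      rw [q_add hQ, q_smul hQ, hW a ha, hu₁, map_smul, smul_eq_mul, hu₁P a ha]
      ring
    have hk1 := two_mul_finrank_le hQ hWu
    have hk2 := Submodule.finrank_lt_finrank_of_lt (show W < W ⊔ Submodule.span F {u₁} from
      lt_of_le_not_ge le_sup_left fun hle => hu₁W (hle (Submodule.mem_sup_right (Submodule.mem_span_singleton_self u₁))))
    have hk3 := hdim u₁ hu₁P hu₁ hu₁W
    obtain ⟨w, hwS, hQw⟩ : ∃ w ∈ perp hQ (W ⊔ Submodule.span F {x}), Q w ≠ 0 := by
      by_contra hc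
      push Not at hc
      have h1 := two_mul_finrank_le hQ hc
      have h2 := finrank_perp_add hQ (W ⊔ Submodule.span F {x})
      have h3 := Submodule.finrank_add_le_finrank_add_finrank W (Submodule.span F {x})
      have h4 : finrank F (Submodule.span F ({x} : Set (ι → F))) ≤ 1 := (finrank_span_le_card _).trans (by simp)
      omega
    rw [perp_sup hQ] at hwS
    have hxw : bform hQ x w = 0 := (mem_perp_span_singleton hQ).1 hwS.2
    have hgP : eichler hQ hx hxw ∈ subspaceStabilizer W ⊓ omegaGL Q := by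
      refine ⟨mem_subspaceStabilizer_of_le fun z hz => ?_, eichler_mem_omega hQ hn hx hxw⟩
      rw [eichler_fix hQ hx hxw (by rw [b_symm hQ]; exact hxP z hz) (by rw [b_symm hQ]; exact hwS.1 z hz)]
      exact hz
    set u' : ι → F := (eichler hQ hx hxw : Matrix ι ι F) *ᵥ u₁ with hu'
    have hu'S : u' ∈ S := hSM _ (hPM hgP) u₁ ⟨hu₁, hu₁M⟩
    have huu' : bform hQ u₁ u' ≠ 0 := by
      rw [hu', eichler_mulVec hQ]
      simp only [map_sub, map_add, map_smul, hxu, b_self_eq_zero hQ hu₁, b_symm hQ u₁ x, b_symm hQ u₁ w,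
        smul_eq_mul]
      ring_nf
      simpa using hQw
    -- move `u'` out of the perp of `W`
    obtain ⟨t, htu, htW⟩ : ∃ t, bform hQ u₁ t = 0 ∧ t ∉ perp hQ W := by
      by_contra hc
      push Not at hc
      have hle : perp hQ (Submodule.span F {u₁}) ≤ perp hQ W := fun z hz => hc z ((mem_perp_span_singleton hQ).1 hz)
      have h1 := perp_anti hQ hle
      rw [perp_perp hQ, perp_perp hQ] at h1
      obtain ⟨c, hc'⟩ := Submodule.mem_span_singleton.1 (h1 hw₀)
      have hc0 : c ≠ 0 := by rintro rfl; exact hw₀0 (by rw [← hc', zero_smul])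
      exact hu₁W ((Submodule.smul_mem_iff _ hc0).1 (hc' ▸ hw₀))
    have h5 := h _ (hSM _ (hu₁M t htu) u' hu'S)
    rw [eichler_mulVec hQ] at h5
    have h6 : bform hQ u₁ u' • t ∈ perp hQ W := by
      have := (perp hQ W).sub_mem ((perp hQ W).sub_mem ((perp hQ W).add_mem (h u' hu'S)
        ((perp hQ W).smul_mem (bform hQ t u') hu₁P)) ((perp hQ W).smul_mem (Q t * bform hQ u₁ u') hu₁P)) h5
      convert this using 1
      module
    exact htW ((Submodule.smul_mem_iff _ huu').1 h6)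
  -- all singular vectors outside the perp of `W`
  have hout : ∀ u, Q u = 0 → u ∉ perp hQ W → u ∈ S := by
    intro u hu huW
    obtain ⟨w, hw, hwu₂, hwu⟩ : ∃ w ∈ W, bform hQ w u₂ ≠ 0 ∧ bform hQ w u ≠ 0 := by
      obtain ⟨a, ha, hau⟩ := exists_mem_b_ne_zero hQ hu₂W
      obtain ⟨b, hb, hbu⟩ := exists_mem_b_ne_zero hQ huW
      by_cases h1 : bform hQ a u = 0
      swap
      · exact ⟨a, ha, hau, h1⟩
      by_cases h2 : bform hQ b u₂ = 0
      swap
      · exact ⟨b, hb, h2, hbu⟩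
      exact ⟨a + b, W.add_mem ha hb, by simp [map_add, h2, hau, -bform_apply],
        by simp [map_add, h1, hbu, -bform_apply]⟩
    exact hmove w u₂ u (hWS w hw) hu₂S hu hwu₂ hwu
  have hall : ∀ u, Q u = 0 → u ∈ S := by
    intro u hu
    by_cases huW : u ∈ W
    · exact hWS u huW
    by_cases huP : u ∈ perp hQ W
    swap
    · exact hout u hu huP
    have hu0 : u ≠ 0 := fun h => huW (h ▸ W.zero_mem)
    obtain ⟨z₀, hz₀, huz₀⟩ := exists_partner hQ hu hu0
    obtain ⟨z, hz, huz, hzW⟩ : ∃ z, Q z = 0 ∧ bform hQ u z ≠ 0 ∧ z ∉ perp hQ W := by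
      by_cases hz₀W : z₀ ∈ perp hQ W
      swap
      · exact ⟨z₀, hz₀, by rw [huz₀]; exact one_ne_zero, hz₀W⟩
      obtain ⟨t, htu, htW⟩ : ∃ t, bform hQ u t = 0 ∧ t ∉ perp hQ W := by
        by_contra hc
        push Not at hc
        have hle : perp hQ (Submodule.span F {u}) ≤ perp hQ W := fun z hz => hc z ((mem_perp_span_singleton hQ).1 hz)
        have h1 := perp_anti hQ hle
        rw [perp_perp hQ, perp_perp hQ] at h1
        obtain ⟨c, hc'⟩ := Submodule.mem_span_singleton.1 (h1 hw₀)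
        have hc0 : c ≠ 0 := by rintro rfl; exact hw₀0 (by rw [← hc', zero_smul])
        exact huW ((Submodule.smul_mem_iff _ hc0).1 (hc' ▸ hw₀))
      refine ⟨(eichler hQ hu htu : Matrix ι ι F) *ᵥ z₀,
        by rw [mem_isometryGroup.1 (eichler_mem_isometryGroup hQ hu htu), hz₀], ?_, ?_⟩
      · have : bform hQ u ((eichler hQ hu htu : Matrix ι ι F) *ᵥ z₀) = bform hQ u z₀ := by
          have h' := isometry_b hQ (eichler_mem_isometryGroup hQ hu htu) u z₀
          rwa [eichler_fix_left hQ hu htu] at h'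
        rw [this, huz₀]
        exact one_ne_zero
      · intro hmem
        rw [eichler_mulVec hQ, huz₀, one_smul, mul_one] at hmem
        apply htW
        have := (perp hQ W).sub_mem ((perp hQ W).sub_mem ((perp hQ W).add_mem hz₀W
          ((perp hQ W).smul_mem (bform hQ t z₀) huP)) ((perp hQ W).smul_mem (Q t) huP)) hmem
        convert this using 1
        module
    obtain ⟨w, hw, hwz⟩ := exists_mem_b_ne_zero hQ hzW
    exact hmove z w u (hout z hz hzW) (hWS w hw) hu (by rw [b_symm hQ]; exact hwz) (by rw [b_symm hQ]; exact huz)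
  rw [omegaGL_eq_eichlerGroup hQ hn]
  refine (Subgroup.closure_le _).2 ?_
  rintro _ ⟨u, w, hu, hw, rfl⟩
  obtain ⟨_, h⟩ := hall u hu
  exact h w hw

end CfsgLib.OrthGeo
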