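import Cfsg.Agent.OrthGeo.Simple
import Cfsg.Agent.OrthGeo.Forms

/-! Siegel transformations and Eichler transformations of singular pairs. -/

set_option autoImplicit false
set_option linter.unusedSectionVars false

namespace CfsgLib.OrthGeo

open Cfsg.Geo Module
open scoped Matrix MatrixGroups

variable {ι : Type} [Fintype ι] [DecidableEq ι] {F : Type*} [Field F]
variable {Q : (ι → F) → F} (hQ : IsNondegenerateQuadraticForm Q)
include hQ

lemma siegelMatrix_eq_eichler {u v : ι → F} (c : F) (hu : Q u = 0) (hv : Q v = 0)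
    (h : bform hQ u (-(c • v)) = 0) :
    Cfsg.siegelMatrix Q u v c = (eichler hQ hu h : Matrix ι ι F) := by
  refine Matrix.ext_of_mulVec_single fun i => ?_
  generalize (Pi.single i 1 : ι → F) = x
  rw [eichler_mulVec hQ]
  simp only [Cfsg.siegelMatrix, Matrix.add_mulVec, Matrix.one_mulVec, Matrix.smul_mulVec, Matrix.sub_mulVec,
    Matrix.vecMulVec_mulVec, polarVec_dot hQ, op_smul_eq_smul, map_neg, map_smul, LinearMap.neg_apply,
    LinearMap.smul_apply, q_neg hQ, q_smul hQ, hv, smul_eq_mul]
  module

end CfsgLib.OrthGeo
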