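import Cfsg.Agent.OrthGeo.RootLines
import Cfsg.Agent.OrthGeo.Classes

/-! Overgroups in Omega of the root elements attached to two complementary totally singular halves. -/

set_option autoImplicit false
set_option linter.unusedSectionVars false

namespace CfsgLib.OrthGeo

open Cfsg.Geo Module
open scoped Matrix MatrixGroups

variable {ι : Type} [Fintype ι] [DecidableEq ι] {F : Type*} [Field F] [Finite F]
variable {Q : (ι → F) → F} (hQ : IsNondegenerateQuadraticForm Q)
include hQ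

variable {H : Subgroup (GL ι F)} {U W : Submodule F (ι → F)}

omit [DecidableEq ι] [Finite F] in
/-- A vector of a totally singular subspace avoiding a smaller one. -/
lemma exists_half_avoid (hU : IsMaxTS Q U) {T P : Submodule F (ι → F)} (hT : T ≤ U)
    (h : finrank F P < finrank F T) : ∃ c ∈ T, Q c = 0 ∧ c ≠ 0 ∧ c ∉ P := by
  obtain ⟨c, hc, hcP⟩ := SetLike.not_le_iff_exists.1
    (fun hle : T ≤ P => absurd (Submodule.finrank_mono hle) (not_le.2 h))
  exact ⟨c, hc, hU.singular c (hT hc), fun h0 => hcP (h0 ▸ P.zero_mem), hcP⟩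

lemma eichler_half_fix (hU : IsMaxTS Q U) {c d x : ι → F} (hcU : c ∈ U) (hc : Q c = 0) (hcd : bform hQ c d = 0)
    (hx : x ∈ U) : (eichler hQ hc hcd : Matrix ι ι F) *ᵥ x = x + bform hQ d x • c := by
  rw [eichler_mulVec hQ, hU.b_eq_zero hQ hcU hx, zero_smul, sub_zero, mul_zero, zero_smul, sub_zero]

lemma eichler_opposite_fix (hW : IsMaxTS Q W) {c d x : ι → F} (hdW : d ∈ W) (hc : Q c = 0) (hcd : bform hQ c d = 0)
    (hx : x ∈ W) : (eichler hQ hc hcd : Matrix ι ι F) *ᵥ x = x - bform hQ c x • d := by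
  rw [eichler_mulVec hQ, hW.b_eq_zero hQ hdW hx, zero_smul, add_zero, hW.singular d hdW, zero_mul, zero_smul,
    sub_zero]

/-- A root element whose projection to `U` is two-dimensional yields one inside `U`. -/
lemma exists_root_in_half (hU : IsMaxTS Q U) (hW : IsMaxTS Q W) (htop : U ⊔ W = ⊤) (hdim : 5 ≤ finrank F U)
    (hH : H ≤ Cfsg.isometryGroup F Q)
    (hUW : ∀ u ∈ U, ∀ w ∈ W, bform hQ u w = 0 → EIn Q H u w) {aU aW bU bW : ι → F}
    (haU : aU ∈ U) (haW : aW ∈ W) (hbU : bU ∈ U) (hbW : bW ∈ W)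
    (ha : Q (aU + aW) = 0) (hb : Q (bU + bW) = 0) (hab : bform hQ (bU + bW) (aU + aW) = 0)
    (h : EIn Q H (bU + bW) (aU + aW)) (hb0 : bU ≠ 0) (hind : aU ∉ Submodule.span F {bU}) :
    ∃ c ∈ U, ∃ c' ∈ U, c' ∉ Submodule.span F {c} ∧ c ≠ 0 ∧ EIn Q H c c' := by
  have bUU : ∀ x ∈ U, ∀ y ∈ U, bform hQ x y = 0 := fun x hx y hy => hU.b_eq_zero hQ hx hy
  have bWW : ∀ x ∈ W, ∀ y ∈ W, bform hQ x y = 0 := fun x hx y hy => hW.b_eq_zero hQ hx hy
  have hinf : ∀ x ∈ U, x ∈ W → x = 0 := fun x hx hx' => by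
    have h1 := Submodule.finrank_sup_add_finrank_inf_eq U W
    rw [htop, finrank_top, finrank_fintype_fun_eq_card] at h1
    have := hU.two_mul
    have := hW.two_mul
    have h0 : U ⊓ W = ⊥ := Submodule.finrank_eq_zero.1 (by omega)
    exact (Submodule.mem_bot F).1 (h0 ▸ ⟨hx, hx'⟩)
  have hP := finrank_span_pair_le hQ aU bU
  have hP' := finrank_span_pair_le hQ aW bW
  obtain ⟨c, ⟨hcU, hcP⟩, hcQ, hc0, hcN⟩ := exists_half_avoid hQ hU inf_le_left
    (T := U ⊓ perp hQ (Submodule.span F {aW} ⊔ Submodule.span F {bW}))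
    (P := Submodule.span F {aU} ⊔ Submodule.span F {bU}) (by
      have h1 := finrank_le_inf_perp hQ U (Submodule.span F {aW} ⊔ Submodule.span F {bW})
      by_contra hcon
      omega)
  obtain ⟨hcaW, hcbW⟩ := (mem_perp_pair hQ).1 hcP
  rw [b_symm hQ] at hcaW hcbW
  obtain ⟨d, hdW, hdP, had⟩ := exists_b_one_mem hQ (S := W)
    (T := Submodule.span F {bU} ⊔ Submodule.span F {c}) (v := aU) (by
      rw [hW.perp_eq hQ]
      intro hmem
      obtain ⟨t, ht, w, hw, e⟩ := Submodule.mem_sup.1 hmem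
      have htU : t ∈ U := (sup_le ((Submodule.span_singleton_le_iff_mem _ _).2 hbU) ((Submodule.span_singleton_le_iff_mem _ _).2 hcU) : _ ≤ U) ht
      have hw0 : w = 0 := hinf w (by rw [eq_sub_of_add_eq' e]; exact U.sub_mem haU htU) hw
      rw [hw0, add_zero] at e
      subst e
      obtain ⟨_, hp, _, hq, e⟩ := Submodule.mem_sup.1 ht
      obtain ⟨r, rfl⟩ := Submodule.mem_span_singleton.1 hp
      obtain ⟨s, rfl⟩ := Submodule.mem_span_singleton.1 hq
      by_cases hs : s = 0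
      · rw [hs, zero_smul, add_zero] at e
        exact hind (Submodule.mem_span_singleton.2 ⟨r, e⟩)
      · refine hcN ((Submodule.smul_mem_iff _ hs).1 ?_)
        rw [eq_sub_of_add_eq' e]
        exact Submodule.sub_mem _ (Submodule.mem_sup_left (Submodule.mem_span_singleton_self _))
          (Submodule.mem_sup_right (Submodule.smul_mem _ r (Submodule.mem_span_singleton_self _))))
  obtain ⟨hdb, hdc⟩ := (mem_perp_pair hQ).1 hdP
  have hg := (hUW c hcU d hdW hdc).mem hQ hcQ hdc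
  set g := eichler hQ hcQ hdc with hgdef
  have hgb : (g : Matrix ι ι F) *ᵥ (bU + bW) = bU + bW := by
    rw [Matrix.mulVec_add, hgdef, eichler_half_fix hQ hU hcU hcQ hdc hbU,
      eichler_opposite_fix hQ hW hdW hcQ hdc hbW, b_symm hQ d bU, hdb, hcbW]
    simp
  have hga : (g : Matrix ι ι F) *ᵥ (aU + aW) - (aU + aW) = c := by
    rw [Matrix.mulVec_add, hgdef, eichler_half_fix hQ hU hcU hcQ hdc haU,
      eichler_opposite_fix hQ hW hdW hcQ hdc haW, b_symm hQ d aU, had, hcaW]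
    simp
  have hbc := h.displacement hQ hb hab hg (hH hg) hgb
  rw [hga] at hbc
  have hbc0 : bform hQ (bU + bW) c = 0 := by
    rw [map_add, LinearMap.add_apply, bUU bU hbU c hcU, b_symm hQ bW c, hcbW, add_zero]
  have hcb := hbc.swap hQ hb hcQ hbc0
  obtain ⟨c', ⟨hc'U, hc'P⟩, hc'Q, hc'0, hc'N⟩ := exists_half_avoid hQ hU inf_le_left
    (T := U ⊓ perp hQ (Submodule.span F {bW})) (P := Submodule.span F {bU} ⊔ Submodule.span F {c}) (by
      have h1 := finrank_le_inf_perp hQ U (Submodule.span F {bW})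
      have := finrank_span_pair_le hQ bU c
      have h4 : finrank F (Submodule.span F ({bW} : Set (ι → F))) ≤ 1 := (finrank_span_le_card _).trans (by simp)
      by_contra hcon
      omega)
  replace hc'P := (mem_perp_span_singleton hQ).1 hc'P
  rw [b_symm hQ] at hc'P
  have hbUc : bU ∉ Submodule.span F {c} := by
    intro hm
    obtain ⟨r, hr⟩ := Submodule.mem_span_singleton.1 hm
    have hr0 : r ≠ 0 := by rintro rfl; exact hb0 (by rw [← hr, zero_smul])
    exact hcN ((Submodule.smul_mem_iff _ hr0).1 (hr ▸ Submodule.mem_sup_right (Submodule.mem_span_singleton_self _)))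
  obtain ⟨d', hd'W, hd'P, hbd'⟩ := exists_b_one_mem hQ (S := W)
    (T := Submodule.span F {c} ⊔ Submodule.span F {c'}) (v := bU) (by
      rw [hW.perp_eq hQ]
      intro hmem
      obtain ⟨t, ht, w, hw, e⟩ := Submodule.mem_sup.1 hmem
      have htU : t ∈ U := (sup_le ((Submodule.span_singleton_le_iff_mem _ _).2 hcU) ((Submodule.span_singleton_le_iff_mem _ _).2 hc'U) : _ ≤ U) ht
      have hw0 : w = 0 := hinf w (by rw [eq_sub_of_add_eq' e]; exact U.sub_mem hbU htU) hw
      rw [hw0, add_zero] at e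
      subst e
      obtain ⟨_, hp, _, hq, e⟩ := Submodule.mem_sup.1 ht
      obtain ⟨r, rfl⟩ := Submodule.mem_span_singleton.1 hp
      obtain ⟨s, rfl⟩ := Submodule.mem_span_singleton.1 hq
      by_cases hs : s = 0
      · rw [hs, zero_smul, add_zero] at e
        exact hbUc (Submodule.mem_span_singleton.2 ⟨r, e⟩)
      · refine hc'N ((Submodule.smul_mem_iff _ hs).1 ?_)
        rw [eq_sub_of_add_eq' e]
        exact Submodule.sub_mem _ (Submodule.mem_sup_left (Submodule.mem_span_singleton_self _))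
          (Submodule.mem_sup_right (Submodule.smul_mem _ r (Submodule.mem_span_singleton_self _))))
  obtain ⟨hd'c, hd'c'⟩ := (mem_perp_pair hQ).1 hd'P
  have hg' := (hUW c' hc'U d' hd'W hd'c').mem hQ hc'Q hd'c'
  set g' := eichler hQ hc'Q hd'c' with hg'def
  have hg'c : (g' : Matrix ι ι F) *ᵥ c = c := by
    rw [hg'def, eichler_half_fix hQ hU hc'U hc'Q hd'c' hcU, b_symm hQ d' c, hd'c]
    simp
  have hg'b : (g' : Matrix ι ι F) *ᵥ (bU + bW) - (bU + bW) = c' := by
    rw [Matrix.mulVec_add, hg'def, eichler_half_fix hQ hU hc'U hc'Q hd'c' hbU,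
      eichler_opposite_fix hQ hW hd'W hc'Q hd'c' hbW, b_symm hQ d' bU, hbd', hc'P]
    simp
  have hcc' := hcb.displacement hQ hcQ (by rw [b_symm hQ]; exact hbc0) hg' (hH hg') hg'c
  rw [hg'b] at hcc'
  exact ⟨c, hcU, c', hc'U, fun hm => hc'N (Submodule.mem_sup.2 ⟨0, zero_mem _, c', hm, zero_add _⟩), hc0, hcc'⟩

/-- One root element inside `U` yields all of them. -/
lemma root_half_spread (hU : IsMaxTS Q U) (hW : IsMaxTS Q W) (htop : U ⊔ W = ⊤) (hdim : 5 ≤ finrank F U)
    (hH : H ≤ Cfsg.isometryGroup F Q)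
    (hUW : ∀ u ∈ U, ∀ w ∈ W, bform hQ u w = 0 → EIn Q H u w) {c c' : ι → F} (hc : c ∈ U) (hc' : c' ∈ U)
    (hind : c' ∉ Submodule.span F {c}) (hc0 : c ≠ 0) (h : EIn Q H c c') :
    ∀ x ∈ U, ∀ y ∈ U, EIn Q H x y := by
  have bUU : ∀ x ∈ U, ∀ y ∈ U, bform hQ x y = 0 := fun x hx y hy => hU.b_eq_zero hQ hx hy
  have hinf : U ⊓ W = ⊥ := by
    have h1 := Submodule.finrank_sup_add_finrank_inf_eq U W
    rw [htop, finrank_top, finrank_fintype_fun_eq_card] at h1
    have := hU.two_mul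
    have := hW.two_mul
    exact Submodule.finrank_eq_zero.1 (by omega)
  have row : ∀ a a' : ι → F, a ∈ U → a' ∈ U → a' ∉ Submodule.span F {a} → EIn Q H a a' →
      ∀ e ∈ U, EIn Q H a e := by
    intro a a' ha ha' hind h
    have part : ∀ e ∈ U, a' ∉ Submodule.span F {a} ⊔ Submodule.span F {e} → EIn Q H a e := by
      intro e he hne
      obtain ⟨d, hdW, hdP, hd⟩ := exists_b_one_mem hQ (S := W)
        (T := Submodule.span F {a} ⊔ Submodule.span F {e}) (v := a') (by
          rw [hW.perp_eq hQ]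
          intro hmem
          obtain ⟨t, ht, w, hw, e'⟩ := Submodule.mem_sup.1 hmem
          have htU : t ∈ U := (sup_le ((Submodule.span_singleton_le_iff_mem _ _).2 ha) ((Submodule.span_singleton_le_iff_mem _ _).2 he) : _ ≤ U) ht
          have hw0 : w = 0 := (Submodule.mem_bot F).1 (hinf ▸
            ⟨by rw [eq_sub_of_add_eq' e']; exact U.sub_mem ha' htU, hw⟩)
          rw [hw0, add_zero] at e'
          exact hne (e' ▸ ht))
      obtain ⟨hda, hde⟩ := (mem_perp_pair hQ).1 hdP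
      have heQ := hU.singular e he
      have hg := (hUW e he d hdW hde).mem hQ heQ hde
      have h1 := h.displacement hQ (hU.singular a ha) (bUU a ha a' ha') hg (hH hg)
        (by rw [eichler_half_fix hQ hU he heQ hde ha, b_symm hQ d a, hda]; simp)
      rw [eichler_half_fix hQ hU he heQ hde ha', b_symm hQ d a', hd, one_smul, add_sub_cancel_left] at h1
      exact h1
    intro e he
    by_cases hne : a' ∈ Submodule.span F {a} ⊔ Submodule.span F {e}
    swap
    · exact part e he hne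
    obtain ⟨f, hfU, -, -, hf⟩ := exists_half_avoid hQ hU le_rfl
      (T := U) (P := Submodule.span F {a} ⊔ Submodule.span F {e}) (by
        have := finrank_span_pair_le hQ a e
        omega)
    have haf : a' ∉ Submodule.span F {a} ⊔ Submodule.span F {f} := by
      intro hm
      obtain ⟨_, hp, _, hq, e'⟩ := Submodule.mem_sup.1 hm
      obtain ⟨r, rfl⟩ := Submodule.mem_span_singleton.1 hp
      obtain ⟨s, rfl⟩ := Submodule.mem_span_singleton.1 hq
      by_cases hs : s = 0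
      · rw [hs, zero_smul, add_zero] at e'
        exact hind (Submodule.mem_span_singleton.2 ⟨r, e'⟩)
      · refine hf ((Submodule.smul_mem_iff _ hs).1 ?_)
        rw [eq_sub_of_add_eq' e']
        exact Submodule.sub_mem _ hne (Submodule.mem_sup_left (Submodule.smul_mem _ r (Submodule.mem_span_singleton_self _)))
    have hafe : a' ∉ Submodule.span F {a} ⊔ Submodule.span F {e - f} := by
      intro hm
      obtain ⟨_, hp, _, hq, e'⟩ := Submodule.mem_sup.1 hm
      obtain ⟨r, rfl⟩ := Submodule.mem_span_singleton.1 hp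
      obtain ⟨s, rfl⟩ := Submodule.mem_span_singleton.1 hq
      by_cases hs : s = 0
      · rw [hs, zero_smul, add_zero] at e'
        exact hind (Submodule.mem_span_singleton.2 ⟨r, e'⟩)
      · refine hf ((Submodule.smul_mem_iff _ hs).1 ?_)
        rw [show s • f = r • a + s • e - a' by rw [← e', smul_sub]; abel]
        exact Submodule.sub_mem _ (Submodule.add_mem _
          (Submodule.mem_sup_left (Submodule.smul_mem _ r (Submodule.mem_span_singleton_self _)))
          (Submodule.mem_sup_right (Submodule.smul_mem _ s (Submodule.mem_span_singleton_self _)))) hne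
    have := (part (e - f) (U.sub_mem he hfU) hafe).add hQ (part f hfU haf) (hU.singular a ha)
      (bUU a ha _ (U.sub_mem he hfU)) (bUU a ha f hfU)
    rwa [sub_add_cancel] at this
  have hrc := row c c' hc hc' hind h
  intro x hx
  by_cases hx0 : x = 0
  · subst hx0
    intro y _
    exact ⟨1, one_mem _, by
      refine Matrix.ext_of_mulVec_single fun i => ?_
      rw [eichlerMat_mulVec hQ, Units.val_one, Matrix.one_mulVec]
      simp⟩
  have swapInd : ∀ p q : ι → F, q ∉ Submodule.span F {p} → p ≠ 0 → p ∉ Submodule.span F {q} := by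
    intro p q hq hp hm
    obtain ⟨r, hr⟩ := Submodule.mem_span_singleton.1 hm
    have hr0 : r ≠ 0 := by rintro rfl; exact hp (by rw [← hr, zero_smul])
    exact hq (Submodule.mem_span_singleton.2 ⟨r⁻¹, by rw [← hr, inv_smul_smul₀ hr0]⟩)
  by_cases hxc : x ∈ Submodule.span F {c}
  swap
  · exact row x c hx hc (swapInd c x hxc hc0) ((hrc x hx).swap hQ (hU.singular c hc) (hU.singular x hx) (bUU c hc x hx))
  have hc'0 : c' ≠ 0 := fun h0 => hind (h0 ▸ zero_mem _)
  have hrc' := row c' c hc' hc (swapInd c c' hind hc0) ((hrc c' hc').swap hQ (hU.singular c hc) (hU.singular c' hc') (bUU c hc c' hc'))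
  have hxc' : x ∉ Submodule.span F {c'} := by
    intro hm
    obtain ⟨r, hr⟩ := Submodule.mem_span_singleton.1 hm
    obtain ⟨s, hs⟩ := Submodule.mem_span_singleton.1 hxc
    have hr0 : r ≠ 0 := by rintro rfl; exact hx0 (by rw [← hr, zero_smul])
    exact hind ((Submodule.smul_mem_iff _ hr0).1 (by rw [hr, ← hs]; exact Submodule.smul_mem _ _ (Submodule.mem_span_singleton_self c)))
  exact row x c' hx hc' (swapInd c' x hxc' hc'0) ((hrc' x hx).swap hQ (hU.singular c' hc') (hU.singular x hx) (bUU c' hc' x hx))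

/-- The stabiliser in Omega of an exchangeable pair of complementary totally singular halves is maximal. -/
theorem singularHalves_isMaximal (hU : IsMaxTS Q U) (hW : IsMaxTS Q W) (htop : U ⊔ W = ⊤)
    (hdim : 5 ≤ finrank F U) (hev : Even (finrank F U)) (P : Subgroup (GL ι F))
    (hP : ∀ g, g ∈ P ↔ g ∈ omegaGL Q ∧
      ((∀ x ∈ U, (g : Matrix ι ι F) *ᵥ x ∈ U) ∧ (∀ x ∈ W, (g : Matrix ι ι F) *ᵥ x ∈ W) ∨
       (∀ x ∈ U, (g : Matrix ι ι F) *ᵥ x ∈ W) ∧ (∀ x ∈ W, (g : Matrix ι ι F) *ᵥ x ∈ U))) :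
    IsMaximalIn (omegaGL Q) P := by
  have h2U := hU.two_mul
  have h2W := hW.two_mul
  have hn : 5 ≤ Fintype.card ι := by omega
  have hinf : U ⊓ W = ⊥ := by
    have h1 := Submodule.finrank_sup_add_finrank_inf_eq U W
    rw [htop, finrank_top, finrank_fintype_fun_eq_card] at h1
    exact Submodule.finrank_eq_zero.1 (by omega)
  have hinf0 : ∀ x ∈ U, x ∈ W → x = 0 := fun x hx hx' => (Submodule.mem_bot F).1 (hinf ▸ ⟨hx, hx'⟩)
  have hPUW : ∀ u ∈ U, ∀ w ∈ W, bform hQ u w = 0 → EIn Q P u w := by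
    intro u hu w hw huw
    refine eIn_of_mem hQ (hU.singular u hu) huw ((hP _).2 ⟨eichler_mem_omega hQ hn _ huw, Or.inl ⟨?_, ?_⟩⟩)
    · intro x hx
      rw [eichler_half_fix hQ hU hu _ huw hx]
      exact U.add_mem hx (U.smul_mem _ hu)
    · intro x hx
      rw [eichler_opposite_fix hQ hW hw _ huw hx]
      exact W.sub_mem hx (W.smul_mem _ hw)
  have hsplit : ∀ v : ι → F, ∃ p ∈ U, ∃ q ∈ W, p + q = v := fun v =>
    Submodule.mem_sup.1 (htop ▸ Submodule.mem_top)
  refine ⟨lt_of_le_not_ge (fun g hg => ((hP g).1 hg).1) fun hle => ?_, fun M hPM hMΩ => ?_⟩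
  · -- a root element inside `U` moves `W` without exchanging the halves
    obtain ⟨u, huU, hu0⟩ := Submodule.exists_mem_ne_zero_of_ne_bot (p := U) (by intro h; rw [h, finrank_bot] at hdim; omega)
    obtain ⟨u', hu'U, hu', -, hu'N⟩ := exists_half_avoid hQ hU le_rfl (T := U) (P := Submodule.span F {u})
      (by rw [finrank_span_singleton hu0]; omega)
    have huu' := hU.b_eq_zero hQ huU hu'U
    obtain ⟨-, hfix⟩ := (hP _).1 (hle (eichler_mem_omega hQ hn (hU.singular u huU) huu'))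
    obtain ⟨y, hyW, hyP, hy⟩ := exists_b_one_mem hQ (S := W) (T := Submodule.span F {u'}) (v := u) (by
      rw [hW.perp_eq hQ]
      intro hmem
      obtain ⟨t, ht, w, hw, e⟩ := Submodule.mem_sup.1 hmem
      have htU : t ∈ U := Submodule.span_le.2 (by simpa using hu'U) ht
      have hw0 : w = 0 := hinf0 w (by rw [eq_sub_of_add_eq' e]; exact U.sub_mem huU htU) hw
      rw [hw0, add_zero] at e
      subst e
      obtain ⟨r, hr⟩ := Submodule.mem_span_singleton.1 ht
      have hr0 : r ≠ 0 := by rintro rfl; exact hu0 (by rw [← hr, zero_smul])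
      exact hu'N (Submodule.mem_span_singleton.2 ⟨r⁻¹, by rw [← hr, inv_smul_smul₀ hr0]⟩))
    rw [mem_perp_span_singleton hQ] at hyP
    rcases hfix with ⟨-, h⟩ | ⟨h, -⟩
    · have h1 := h y hyW
      rw [eichler_mulVec hQ, hyP, hy, zero_smul, add_zero, hu', zero_mul, zero_smul, sub_zero, one_smul] at h1
      have h2 : u' ∈ W := by simpa using W.sub_mem hyW h1
      exact hu'N (hinf0 u' hu'U h2 ▸ zero_mem _)
    · have h1 := h u huU
      rw [eichler_fix_left hQ _ huu'] at h1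
      exact hu0 (hinf0 u huU h1)
  by_cases hMP : M ≤ P
  · exact Or.inl (le_antisymm hMP hPM)
  refine Or.inr (le_antisymm hMΩ ?_)
  have hMI : M ≤ Cfsg.isometryGroup F Q := hMΩ.trans omegaGL_le
  have hUW : ∀ u ∈ U, ∀ w ∈ W, bform hQ u w = 0 → EIn Q M u w := fun u hu w hw h => (hPUW u hu w hw h).mono hPM
  have hWU : ∀ w ∈ W, ∀ u ∈ U, bform hQ w u = 0 → EIn Q M w u := fun w hw u hu h =>
    (hUW u hu w hw (by rw [b_symm hQ]; exact h)).swap hQ (hU.singular u hu) (hW.singular w hw) (by rw [b_symm hQ]; exact h)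
  -- the exchanging element
  obtain ⟨s, hsΩ, hsU, hsW, -⟩ := exists_swap_paired hQ (omegaGL Q)
    (fun u x hu _ hux => eichler_mem_omega hQ hn hu hux) _ U W hU.singular hW.singular rfl
    (by omega) (fun u hu hu0 => by
      by_contra hc
      push Not at hc
      refine hu0 (hinf0 u hu ?_)
      rw [← hW.perp_eq hQ]
      exact (mem_perp' hQ).2 hc) hev
  have hsM : s ∈ M := hPM ((hP s).2 ⟨hsΩ, Or.inr ⟨fun x hx => hsU ▸ mem_imgSub.2 ⟨x, hx, rfl⟩,
    fun x hx => hsW ▸ mem_imgSub.2 ⟨x, hx, rfl⟩⟩⟩)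
  -- a root element inside one of the halves
  obtain ⟨g, hgM, hgP⟩ := SetLike.not_le_iff_exists.1 hMP
  have hgI := hMI hgM
  have hsrc : (∃ c ∈ U, ∃ c' ∈ U, c' ∉ Submodule.span F {c} ∧ c ≠ 0 ∧ EIn Q M c c') ∨
      (∃ c ∈ W, ∃ c' ∈ W, c' ∉ Submodule.span F {c} ∧ c ≠ 0 ∧ EIn Q M c c') := by
    by_contra hnone
    push Not at hnone
    obtain ⟨hnU, hnW⟩ := hnone
    have hUWU : ∀ (a b : ι → F), Q a = 0 → Q b = 0 → bform hQ b a = 0 → EIn Q M b a →
        ∀ p ∈ U, ∀ q ∈ W, p + q = b → ∀ p' ∈ U, ∀ q' ∈ W, p' + q' = a →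
        (p ≠ 0 → p' ∈ Submodule.span F {p}) ∧ (q ≠ 0 → q' ∈ Submodule.span F {q}) := by
      intro a b ha hb hab h p hp q hq hpq p' hp' q' hq' hpq'
      subst hpq hpq'
      refine ⟨fun hp0 => ?_, fun hq0 => ?_⟩
      · by_contra hind
        obtain ⟨c, hc, c', hc', h1, h2, h3⟩ := exists_root_in_half hQ hU hW htop hdim hMI hUW hp' hq' hp hq ha hb hab h hp0 hind
        exact hnU c hc c' hc' h1 h2 h3
      · by_contra hind
        rw [add_comm p q, add_comm p' q'] at hab h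
        rw [add_comm] at ha hb
        obtain ⟨c, hc, c', hc', h1, h2, h3⟩ := exists_root_in_half hQ hW hU (by rw [sup_comm, htop]) (by omega) hMI hWU hq' hp' hq hp ha hb hab h hq0 hind
        exact hnW c hc c' hc' h1 h2 h3
    -- every vector of a half goes into a half
    have hhalf : ∀ X Y : Submodule F (ι → F), IsMaxTS Q X → IsMaxTS Q Y →
        (∀ x ∈ X, ∀ y ∈ Y, bform hQ x y = 0 → EIn Q M x y) →
        ∀ x ∈ X, (g : Matrix ι ι F) *ᵥ x ∈ U ∨ (g : Matrix ι ι F) *ᵥ x ∈ W := by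
      intro X Y hX hY hXY x hx
      obtain ⟨p, hp, q, hq, hpq⟩ := hsplit ((g : Matrix ι ι F) *ᵥ x)
      by_contra hc
      push Not at hc
      have hp0 : p ≠ 0 := by rintro rfl; rw [zero_add] at hpq; exact hc.2 (hpq ▸ hq)
      have hq0 : q ≠ 0 := by rintro rfl; rw [add_zero] at hpq; exact hc.1 (hpq ▸ hp)
      have hle : (Y ⊓ perp hQ (Submodule.span F {x})).map (Matrix.toLin' (g : Matrix ι ι F)) ≤
          Submodule.span F {p} ⊔ Submodule.span F {q} := by
        rintro _ ⟨y, ⟨hyY, hyx⟩, rfl⟩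
        replace hyx := (mem_perp_span_singleton hQ).1 hyx
        rw [Matrix.toLin'_apply]
        obtain ⟨p', hp', q', hq', hpq'⟩ := hsplit ((g : Matrix ι ι F) *ᵥ y)
        have h := (hXY x hx y hyY hyx).conj hQ (hX.singular x hx) hyx hgM hgI
        obtain ⟨h1, h2⟩ := hUWU _ _ (by rw [mem_isometryGroup.1 hgI, hY.singular y hyY])
          (by rw [mem_isometryGroup.1 hgI, hX.singular x hx]) (by rw [isometry_b hQ hgI, hyx]) h
          p hp q hq hpq p' hp' q' hq' hpq'
        rw [← hpq']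
        exact Submodule.add_mem_sup (h1 hp0) (h2 hq0)
      have h1 := Submodule.finrank_mono hle
      rw [(Submodule.equivMapOfInjective _ (toLin'_injective g) _).finrank_eq.symm] at h1
      have h2 := finrank_span_pair_le hQ p q
      have h3 := finrank_le_inf_perp hQ Y (Submodule.span F {x})
      have h4 : finrank F (Submodule.span F ({x} : Set (ι → F))) ≤ 1 := (finrank_span_le_card _).trans (by simp)
      have := hY.two_mul
      omega
    have hwhole : ∀ X : Submodule F (ι → F), (∀ x ∈ X, (g : Matrix ι ι F) *ᵥ x ∈ U ∨ (g : Matrix ι ι F) *ᵥ x ∈ W) →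
        (∀ x ∈ X, (g : Matrix ι ι F) *ᵥ x ∈ U) ∨ (∀ x ∈ X, (g : Matrix ι ι F) *ᵥ x ∈ W) := by
      intro X hX
      by_contra hc
      push Not at hc
      obtain ⟨⟨x, hx, hxU⟩, ⟨y, hy, hyW⟩⟩ := hc
      have hxW := (hX x hx).resolve_left hxU
      have hyU := (hX y hy).resolve_right hyW
      rcases hX (x + y) (X.add_mem hx hy) with h | h <;> rw [Matrix.mulVec_add] at h
      · exact hxU (by simpa using U.sub_mem h hyU)
      · exact hyW (by simpa using W.sub_mem h hxW)
    have hboth : ∀ X : Submodule F (ι → F), finrank F X < Fintype.card ι →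
        ¬ ((∀ x ∈ U, (g : Matrix ι ι F) *ᵥ x ∈ X) ∧ (∀ x ∈ W, (g : Matrix ι ι F) *ᵥ x ∈ X)) := by
      rintro X hlt ⟨h1, h2⟩
      have : (⊤ : Submodule F (ι → F)) ≤ X := fun v _ => by
        obtain ⟨p, hp, q, hq, hpq⟩ := hsplit (((g⁻¹ : GL ι F) : Matrix ι ι F) *ᵥ v)
        rw [← mulVec_inv_cancel g v, ← hpq, Matrix.mulVec_add]
        exact X.add_mem (h1 p hp) (h2 q hq)
      have := Submodule.finrank_mono this
      rw [finrank_top, finrank_fintype_fun_eq_card] at this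
      omega
    refine hgP ((hP g).2 ⟨hMΩ hgM, ?_⟩)
    rcases hwhole U (hhalf U W hU hW hUW) with h1 | h1 <;> rcases hwhole W (hhalf W U hW hU hWU) with h2 | h2
    · exact absurd ⟨h1, h2⟩ (hboth U (by omega))
    · exact Or.inl ⟨h1, h2⟩
    · exact Or.inr ⟨h1, h2⟩
    · exact absurd ⟨h1, h2⟩ (hboth W (by omega))
  -- all root elements inside both halves
  have himgU : ∀ x ∈ U, (s : Matrix ι ι F) *ᵥ x ∈ W := fun x hx => hsU ▸ mem_imgSub.2 ⟨x, hx, rfl⟩
  have himgW : ∀ x ∈ W, (s : Matrix ι ι F) *ᵥ x ∈ U := fun x hx => hsW ▸ mem_imgSub.2 ⟨x, hx, rfl⟩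
  have hsI := hMI hsM
  have hWfromU : (∀ x ∈ U, ∀ y ∈ U, EIn Q M x y) → ∀ x ∈ W, ∀ y ∈ W, EIn Q M x y := by
    intro h x hx y hy
    obtain ⟨x', hx', rfl⟩ := mem_imgSub.1 (hsU.symm ▸ hx : x ∈ imgSub s U)
    obtain ⟨y', hy', rfl⟩ := mem_imgSub.1 (hsU.symm ▸ hy : y ∈ imgSub s U)
    exact (h x' hx' y' hy').conj hQ (hU.singular x' hx') (hU.b_eq_zero hQ hx' hy') hsM hsI
  have hUU : ∀ x ∈ U, ∀ y ∈ U, EIn Q M x y := by
    rcases hsrc with ⟨c, hc, c', hc', h1, h2, h3⟩ | ⟨c, hc, c', hc', h1, h2, h3⟩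
    · exact root_half_spread hQ hU hW htop hdim hMI hUW hc hc' h1 h2 h3
    · intro x hx y hy
      obtain ⟨x', hx', rfl⟩ := mem_imgSub.1 (hsW.symm ▸ hx : x ∈ imgSub s W)
      obtain ⟨y', hy', rfl⟩ := mem_imgSub.1 (hsW.symm ▸ hy : y ∈ imgSub s W)
      exact (root_half_spread hQ hW hU (by rw [sup_comm, htop]) (by omega) hMI hWU hc hc' h1 h2 h3 x' hx' y' hy').conj
        hQ (hW.singular x' hx') (hW.b_eq_zero hQ hx' hy') hsM hsI
  have hWW := hWfromU hUU
  refine omega_le_of_root_vectors hQ hn hMI {z | z ∈ U ∨ z ∈ W} ?_ ?_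
  · rintro z (hz | hz)
    · refine ⟨hU.singular z hz, fun w hw => ?_⟩
      obtain ⟨p, hp, q, hq, rfl⟩ := hsplit w
      have hzq : bform hQ z q = 0 := by rwa [map_add, hU.b_eq_zero hQ hz hp, zero_add] at hw
      exact (hUU z hz p hp).add hQ (hUW z hz q hq hzq) (hU.singular z hz) (hU.b_eq_zero hQ hz hp) hzq
    · refine ⟨hW.singular z hz, fun w hw => ?_⟩
      obtain ⟨p, hp, q, hq, rfl⟩ := hsplit w
      have hzp : bform hQ z p = 0 := by rwa [map_add, hW.b_eq_zero hQ hz hq, add_zero] at hw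
      exact (hWU z hz p hp hzp).add hQ (hWW z hz q hq) (hW.singular z hz) hzp (hW.b_eq_zero hQ hz hq)
  · intro u hu hu0
    have pick : ∀ X Y : Submodule F (ι → F), IsMaxTS Q X → IsMaxTS Q Y → (∀ x ∈ X, x ∈ Y → x = 0) →
        u ∉ X → ∃ z ∈ X, ∃ v ∈ Y, bform hQ z v ≠ 0 ∧ bform hQ z u ≠ 0 := by
      intro X Y hX hY hXY hux
      obtain ⟨z, hz, hzu⟩ := exists_mem_b_ne_zero hQ (by rwa [hX.perp_eq hQ] : u ∉ perp hQ X)
      have hz0 : z ≠ 0 := by rintro rfl; simp at hzu
      obtain ⟨v, hv, hvz⟩ := exists_mem_b_ne_zero hQ (S := Y) (v := z)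
        (by rw [hY.perp_eq hQ]; exact fun h => hz0 (hXY z hz h))
      exact ⟨z, hz, v, hv, by rw [b_symm hQ]; exact hvz, hzu⟩
    by_cases huU : u ∈ U
    · obtain ⟨z, hz, v, hv, h⟩ := pick W U hW hU (fun x h1 h2 => hinf0 x h2 h1) (fun h => hu0 (hinf0 u huU h))
      exact ⟨z, Or.inr hz, v, Or.inl hv, h⟩
    · obtain ⟨z, hz, v, hv, h⟩ := pick U W hU hW hinf0 huU
      exact ⟨z, Or.inl hz, v, Or.inr hv, h⟩

end CfsgLib.OrthGeo
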