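import Cfsg.Agent.OrthGeo.SingularSpan

/-! Singular vectors in perpendiculars of subspaces, with the sharper bounds needed in dimension ten. -/

set_option autoImplicit false
set_option linter.unusedSectionVars false

namespace CfsgLib.OrthGeo

open Cfsg.Geo Module
open scoped Matrix MatrixGroups

variable {ι : Type} [Fintype ι] [DecidableEq ι] {F : Type*} [Field F] [Finite F]
variable {Q : (ι → F) → F} (hQ : IsNondegenerateQuadraticForm Q)
include hQ

/-- If the radical of `perp P` is small, `perp P` has a singular vector outside `P`. -/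
lemma exists_singular_perp_avoid_of_radical (P : Submodule F (ι → F))
    (h : finrank F ↥(P ⊓ perp hQ P) + 3 + finrank F P ≤ Fintype.card ι) :
    ∃ c, c ∈ perp hQ P ∧ Q c = 0 ∧ c ≠ 0 ∧ c ∉ P := by
  have := finrank_perp_add hQ P
  obtain ⟨c, h1, h2, h3, h4⟩ := exists_singular_avoid hQ (T := perp hQ P) (P := P ⊓ perp hQ P) (by omega)
  exact ⟨c, h1, h2, h3, fun h5 => h4 ⟨h5, h1⟩⟩

/-- Variant of `exists_singular_b_one` with one dimension less. -/
lemma exists_singular_b_one_small (h2 : (2 : F) ≠ 0) (P : Submodule F (ι → F)) {c : ι → F} (hc : c ∉ P)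
    (h : 2 * finrank F P + 4 ≤ Fintype.card ι) :
    ∃ u ∈ perp hQ P, Q u = 0 ∧ bform hQ c u = 1 := by
  obtain ⟨y, -, hy, hcy⟩ := exists_b_one_mem hQ (S := ⊤) (T := P) (v := c) (by
    intro hm
    obtain ⟨t, ht, v, hv, e⟩ := Submodule.mem_sup.1 hm
    have hv0 : v = 0 := by
      by_contra h0
      obtain ⟨-, z, hz⟩ := hQ.nondegenerate v h0
      exact hz ((b_symm hQ v z).trans (hv z Submodule.mem_top))
    rw [hv0, add_zero] at e
    exact hc (e ▸ ht))
  set P' := P ⊔ Submodule.span F {c} with hP'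
  have h1 : finrank F P' ≤ finrank F P + 1 := by
    have h1 := Submodule.finrank_add_le_finrank_add_finrank P (Submodule.span F {c})
    have h2 : finrank F (Submodule.span F ({c} : Set (ι → F))) ≤ 1 := (finrank_span_le_card _).trans (by simp)
    rw [← hP'] at h1
    omega
  suffices ∃ z ∈ perp hQ P', Q (y + z) = 0 by
    obtain ⟨z, hz, hzQ⟩ := this
    rw [hP', perp_sup hQ, Submodule.mem_inf, mem_perp_span_singleton hQ] at hz
    exact ⟨y + z, Submodule.add_mem _ hy hz.1, hzQ, by rw [map_add, hcy, hz.2, add_zero]⟩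
  by_cases hsmall : finrank F ↥(P' ⊓ perp hQ P') + 3 + finrank F P' ≤ Fintype.card ι
  · obtain ⟨e, heP, heQ, -, heN⟩ := exists_singular_perp_avoid_of_radical hQ P' hsmall
    obtain ⟨f, hf, -, hef⟩ := exists_b_one_mem hQ (S := perp hQ P') (T := (⊥ : Submodule F (ι → F))) (v := e)
      (by rwa [bot_sup_eq, perp_perp hQ])
    have key : ∀ y' : ι → F, bform hQ y' e ≠ 0 → ∃ t : F, Q (y' + t • e) = 0 := fun y' h' =>
      ⟨-Q y' / bform hQ y' e, by
        rw [q_add hQ, q_smul hQ, heQ, map_smul, smul_eq_mul, div_mul_cancel₀ _ h']; ring⟩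
    by_cases hye : bform hQ y e = 0
    · obtain ⟨t, ht⟩ := key (y + f) (by
        rw [map_add, LinearMap.add_apply, hye, b_symm hQ f e, hef, zero_add]; exact one_ne_zero)
      exact ⟨f + t • e, Submodule.add_mem _ hf (Submodule.smul_mem _ _ heP), by rwa [← add_assoc]⟩
    · obtain ⟨t, ht⟩ := key y hye
      exact ⟨t • e, Submodule.smul_mem _ _ heP, ht⟩
  · have h3 := Submodule.finrank_mono (inf_le_left : P' ⊓ perp hQ P' ≤ P')
    have hle : P' ≤ perp hQ P' := by
      rw [← inf_eq_left]
      exact Submodule.eq_of_le_of_finrank_le inf_le_left (by omega)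
    have hc' : c ∈ P' := Submodule.mem_sup_right (Submodule.mem_span_singleton_self c)
    have hcQ : Q c = 0 := by
      have h5 : bform hQ c c = 0 := hle hc' c hc'
      have h6 := q_add hQ c c
      rw [h5, ← two_smul F c, q_smul hQ] at h6
      exact (mul_eq_zero.1 (show (2 : F) * Q c = 0 by linear_combination h6)).resolve_left h2
    refine ⟨-Q y • c, Submodule.smul_mem _ _ (hle hc'), ?_⟩
    rw [q_add hQ, q_smul hQ, hcQ, map_smul, smul_eq_mul, b_symm hQ y c, hcy]
    ring

end CfsgLib.OrthGeo
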