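import Cfsg.Agent.OrthGeo.SingularSmall
import Cfsg.Agent.OrthGeo.DecompMember

/-! Singular vectors in perpendiculars with at least a non-degenerate plane, any characteristic. -/

set_option autoImplicit false
set_option linter.unusedSectionVars false

namespace CfsgLib.OrthGeo

open Cfsg.Geo Module
open scoped Matrix MatrixGroups

variable {ι : Type} [Fintype ι] [DecidableEq ι] {F : Type*} [Field F] [Finite F]
variable {Q : (ι → F) → F} (hQ : IsNondegenerateQuadraticForm Q)
include hQ

/-- A complement of the radical in a perpendicular: non-degenerate and spanning the space with its perp. -/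
lemma exists_radical_complement (P : Submodule F (ι → F)) :
    ∃ C : Submodule F (ι → F), C ≤ perp hQ P ∧ (∀ x ∈ C, x ∈ perp hQ C → x = 0) ∧
      finrank F C + finrank F ↥(P ⊓ perp hQ P) + finrank F P = Fintype.card ι ∧ C ⊓ P = ⊥ ∧
      C ⊔ perp hQ C = ⊤ := by
  have hsum := finrank_perp_add hQ P
  set S := perp hQ P with hS
  obtain ⟨C₀, hC₀⟩ := Submodule.exists_isCompl ((P ⊓ S).comap S.subtype)
  have h1 := Submodule.finrank_add_eq_of_isCompl hC₀
  rw [(Submodule.comapSubtypeEquivOfLe (inf_le_right : P ⊓ S ≤ S)).finrank_eq] at h1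
  set C := C₀.map S.subtype with hC
  have hCS : C ≤ S := by rintro _ ⟨x, -, rfl⟩; exact x.2
  have hd : finrank F C = finrank F C₀ := (Submodule.equivMapOfInjective _ S.injective_subtype _).finrank_eq.symm
  have hinf : C ⊓ P = ⊥ := (Submodule.eq_bot_iff _).2 fun x ⟨hxC, hxP⟩ => by
    obtain ⟨x', hx', rfl⟩ := hxC
    have : x' ∈ (P ⊓ S).comap S.subtype ⊓ C₀ := ⟨⟨hxP, x'.2⟩, hx'⟩
    rw [hC₀.inf_eq_bot, Submodule.mem_bot] at this
    rw [this]; rfl
  have hnd : ∀ x ∈ C, x ∈ perp hQ C → x = 0 := by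
    intro x hx hx'
    have hxP : x ∈ P := by
      rw [← perp_perp hQ P]
      intro v hv
      have htop : (⟨v, hv⟩ : S) ∈ (P ⊓ S).comap S.subtype ⊔ C₀ := by
        rw [hC₀.sup_eq_top]; exact Submodule.mem_top
      obtain ⟨r, hr, c, hc, e⟩ := Submodule.mem_sup.1 htop
      have e' : (r : ι → F) + (c : ι → F) = v := congrArg Subtype.val e
      show bform hQ v x = 0
      rw [← e', map_add, LinearMap.add_apply, show bform hQ (r : ι → F) x = 0 from hCS hx _ hr.1,
        show bform hQ (c : ι → F) x = 0 from hx' _ ⟨c, hc, rfl⟩, add_zero]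
    exact (Submodule.mem_bot F).1 (hinf ▸ ⟨hx, hxP⟩)
  refine ⟨C, hCS, hnd, by omega, hinf, Submodule.eq_top_of_finrank_eq ?_⟩
  have h2 := Submodule.finrank_sup_add_finrank_inf_eq C (perp hQ C)
  rw [show C ⊓ perp hQ C = ⊥ from (Submodule.eq_bot_iff _).2 fun x hx => hnd x hx.1 hx.2, finrank_bot] at h2
  have := finrank_perp_add hQ C
  rw [finrank_fintype_fun_eq_card]
  omega

/-- Every translate of a perpendicular containing a non-degenerate plane contains a singular vector. -/
lemma exists_translate_of_plane (P : Submodule F (ι → F))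
    (h : finrank F ↥(P ⊓ perp hQ P) + 2 + finrank F P ≤ Fintype.card ι) (y : ι → F) :
    ∃ z ∈ perp hQ P, Q (y + z) = 0 := by
  haveI := Fintype.ofFinite F
  obtain ⟨C, hCS, hnd, hd, -, htop⟩ := exists_radical_complement hQ P
  obtain ⟨c, hc, w, hw, rfl⟩ := Submodule.mem_sup.1 (htop ▸ Submodule.mem_top : y ∈ C ⊔ perp hQ C)
  obtain ⟨t, ht, htQ⟩ := exists_value_any hQ hnd (by omega) (-Q w)
  refine ⟨t - c, hCS (C.sub_mem ht hc), ?_⟩
  rw [show c + w + (t - c) = t + w by abel, q_add hQ, htQ, show bform hQ t w = 0 from hw t ht]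
  ring

/-- A singular vector perpendicular to `P` pairing to one with a vector outside `P`. -/
lemma exists_singular_b_one_four (P : Submodule F (ι → F)) {c : ι → F} (hc : c ∉ P)
    (h : 2 * finrank F P + 4 ≤ Fintype.card ι) :
    ∃ u ∈ perp hQ P, Q u = 0 ∧ bform hQ c u = 1 := by
  obtain ⟨y, -, hy, hcy⟩ := exists_b_one_mem hQ (S := ⊤) (T := P) (v := c) (by
    intro hm
    obtain ⟨t, ht, v, hv, e⟩ := Submodule.mem_sup.1 hm
    have hv0 : v = 0 := by
      by_contra h0
      obtain ⟨-, z, hz⟩ := hQ.nondegenerate v h0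
      exact hz ((b_symm hQ v z).trans (hv z Submodule.mem_top))
    rw [hv0, add_zero] at e
    exact hc (e ▸ ht))
  obtain ⟨z, hz, hzQ⟩ := exists_translate_of_plane hQ (P ⊔ Submodule.span F {c}) (by
    have h1 := Submodule.finrank_add_le_finrank_add_finrank P (Submodule.span F {c})
    have h2 : finrank F (Submodule.span F ({c} : Set (ι → F))) ≤ 1 := (finrank_span_le_card _).trans (by simp)
    have h3 := Submodule.finrank_mono (inf_le_left :
      (P ⊔ Submodule.span F {c}) ⊓ perp hQ (P ⊔ Submodule.span F {c}) ≤ P ⊔ Submodule.span F {c})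
    omega) y
  rw [perp_sup hQ, Submodule.mem_inf, mem_perp_span_singleton hQ] at hz
  exact ⟨y + z, Submodule.add_mem _ hy hz.1, hzQ, by rw [map_add, hcy, hz.2, add_zero]⟩

/-- A singular vector perpendicular to `P` outside a small subspace `L`. -/
lemma exists_singular_perp_outside (P L : Submodule F (ι → F))
    (h : finrank F ↥(P ⊓ perp hQ P) + 2 + finrank F P ≤ Fintype.card ι)
    (hL : L ≤ P) (h' : finrank F L + 3 + finrank F P ≤ Fintype.card ι) :
    ∃ e ∈ perp hQ P, Q e = 0 ∧ e ∉ L := by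
  haveI := Fintype.ofFinite F
  by_cases hR : P ⊓ perp hQ P ≤ L
  · obtain ⟨e, he, heQ, -, heN⟩ := exists_singular_perp_avoid_of_radical hQ P (by
      have := Submodule.finrank_mono hR
      omega)
    exact ⟨e, he, heQ, fun hh => heN (hL hh)⟩
  obtain ⟨r, hr, hrL⟩ := SetLike.not_le_iff_exists.1 hR
  obtain ⟨C, hCS, hnd, hd, hinf, -⟩ := exists_radical_complement hQ P
  obtain ⟨t, ht, htQ⟩ := exists_value_any hQ hnd (by omega) (-Q r)
  refine ⟨r + t, Submodule.add_mem _ hr.2 (hCS ht), ?_, fun hh => hrL ?_⟩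
  · rw [q_add hQ, htQ, show bform hQ r t = 0 from hCS ht r hr.1]; ring
  · have ht0 : t = 0 := (Submodule.mem_bot F).1 (hinf ▸
      ⟨ht, by have := P.sub_mem (hL hh) hr.1; rwa [add_sub_cancel_left] at this⟩)
    rwa [ht0, add_zero] at hh

end CfsgLib.OrthGeo
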