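import Cfsg.Agent.Eq.Def_ClassicalGeometry
import Cfsg.Agent.OrthEight96.SmallFive
import Cfsg.Agent.OrthGeo.DecompAll

/-! Planes in a space of minus type, and non-isometric halves of odd dimension at least five. -/

set_option autoImplicit false

namespace CfsgLib.OrthGeo

open Cfsg Cfsg.Geo Module
open scoped Matrix

variable {ι : Type} [Fintype ι] [DecidableEq ι] {F : Type*} [Field F] [Fintype F]
variable {Q : (ι → F) → F} (hQ : IsNondegenerateQuadraticForm Q)

include hQ in
/-- Isometric planes filling a space of minus type are anisotropic. -/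
theorem planes_aniso_of_minus (hminus : ¬ IsPlusTypeOn Q ⊤) {t : ℕ} {D : Fin t → Submodule F (ι → F)}
    (hD : IsOrthogonalMDecomposition Q 2 D) (hcard : Fintype.card ι = 2 * t) (i : Fin t) :
    ∀ x ∈ D i, Q x = 0 → x = 0 := by
  intro x hx hQx
  by_contra hx0
  have hv : ∀ j, ∃ v ∈ D j, v ≠ 0 ∧ Q v = 0 := fun j => by
    obtain ⟨θ, hθ⟩ := hD.isometric i j
    refine ⟨θ ⟨x, hx⟩, (θ ⟨x, hx⟩).2, fun h => hx0 ?_, (hθ ⟨x, hx⟩).trans hQx⟩
    exact congrArg Subtype.val (θ.map_eq_zero_iff.1 (Subtype.ext h))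
  choose v hvD hv0 hvQ using hv
  have hli : LinearIndependent F v := iSupIndep.linearIndependent D hD.decomp.decomp.indep hvD hv0
  refine hminus ⟨Submodule.span F (Set.range v), le_top, fun z hz => ?_, ?_⟩
  · obtain ⟨c, rfl⟩ := Submodule.mem_span_range_iff_exists_fun F |>.1 hz
    rw [q_sum_orth hQ Finset.univ (fun j => c j • v j) fun j _ k _ hjk => hD.decomp.orthogonal j k hjk _
      (Submodule.smul_mem _ _ (hvD j)) _ (Submodule.smul_mem _ _ (hvD k))]
    exact Finset.sum_eq_zero fun j _ => by rw [q_smul hQ, hvQ j, mul_zero]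
  · rw [finrank_span_eq_card hli, Fintype.card_fin, finrank_top, finrank_fintype_fun_eq_card, hcard]

/-- The stabiliser of two non-isometric orthogonal halves of dimension at least five is maximal. -/
theorem nonisometric_halves_five_isMaximal {k : ℕ} (hk : 2 * k = Fintype.card ι) (hk5 : 5 ≤ k)
    (hQ : IsNondegenerateQuadraticForm Q) {D : Fin 2 → Submodule F (ι → F)}
    (hD : IsNondegenerateMDecomposition (QuadraticMap.polar Q) k D) (hni : ¬ AreIsometricFor Q (D 0) (D 1)) :
    IsMaximalIn (omegaGL Q) (decompositionStabilizer D ⊓ omegaGL Q) := by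
  have hd := hD.decomp.finrank_eq
  have hperp : perp hQ (D 0) = D 1 := by
    refine (Submodule.eq_of_le_of_finrank_le (show D 1 ≤ perp hQ (D 0) from
      fun y hy x hx => hD.orthogonal 0 1 (by decide) x hx y hy) ?_).symm
    have := finrank_perp_add hQ (D 0)
    rw [hd] at this ⊢
    omega
  have hperp1 : perp hQ (D 1) = D 0 := by rw [← hperp, perp_perp hQ]
  have hmap : ∀ (g : GL ι F) (i j : Fin 2), (∀ x ∈ D i, (g : Matrix ι ι F) *ᵥ x ∈ D j) →
      (D i).map (Matrix.toLin' (g : Matrix ι ι F)) = D j := by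
    refine fun g i j h => Submodule.eq_of_le_of_finrank_le ?_ (by
      rw [(Submodule.equivMapOfInjective _ (toLin'_injective g) _).finrank_eq.symm, hd, hd])
    rintro _ ⟨x, hx, rfl⟩
    rw [Matrix.toLin'_apply]
    exact h x hx
  have hswap : ∀ g ∈ omegaGL Q, ∃ x ∈ D 0, (g : Matrix ι ι F) *ᵥ x ∉ D 1 := by
    intro g hg
    by_contra h
    push Not at h
    refine hni ⟨(Submodule.equivMapOfInjective _ (toLin'_injective g) (D 0)).trans
      (LinearEquiv.ofEq _ _ (hmap g 0 1 h)), fun w => ?_⟩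
    rw [LinearEquiv.trans_apply, LinearEquiv.coe_ofEq_apply, Submodule.coe_equivMapOfInjective_apply,
      Matrix.toLin'_apply]
    exact mem_isometryGroup.1 (omegaGL_le hg) w
  have key : decompositionStabilizer D ⊓ omegaGL Q = subspaceStabilizer (D 0) ⊓ omegaGL Q := by
    refine le_antisymm ?_ ?_
    · rintro g ⟨⟨σ, hσ⟩, hg⟩
      refine ⟨?_, hg⟩
      obtain ⟨x, hx, hxn⟩ := hswap g hg
      have hσ0 : σ 0 = 0 := by
        by_contra h
        have h1 : σ 0 = 1 := by omega
        refine hxn ?_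
        rw [← h1, ← hσ 0]
        exact ⟨x, hx, Matrix.toLin'_apply _ x⟩
      refine mem_subspaceStabilizer_of_le fun v hv => ?_
      conv => arg 1; rw [← hσ0, ← hσ 0]
      exact ⟨v, hv, Matrix.toLin'_apply _ v⟩
    · rintro g ⟨hg0, hg⟩
      refine ⟨⟨1, Fin.forall_fin_two.2 ⟨hmap g 0 0 fun x hx => (mem_subspaceStabilizer.1 hg0 x).1 hx,
        hmap g 1 1 fun x hx => ?_⟩⟩, hg⟩
      rw [← hperp] at hx ⊢
      intro y hy
      obtain ⟨z, rfl⟩ : ∃ z, y = (g : Matrix ι ι F) *ᵥ z := ⟨_, (mulVec_inv_cancel g y).symm⟩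
      rw [isometry_b hQ (omegaGL_le hg)]
      exact hx z ((mem_subspaceStabilizer.1 hg0 z).2 hy)
  rw [key, ← hperp1, stab_perp_inf_omega hQ]
  refine CfsgLib.OrthEight96.nondeg_five_isMaximal hQ (radical_free_of_nondegenerateOn hQ (hD.nondegenerate 1))
    (fun h => by have := hd 1; rw [h, finrank_bot] at this; omega) (by rw [hperp1, hd]; omega)
    (by rw [hperp1]; exact hswap) (fun h => by have := hd 1; omega)

end CfsgLib.OrthGeo
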