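import Cfsg.Agent.OrthGeo.TensorThree

/-! Over the field with three elements a tensor stabiliser symplectic by three dimensional symmetric in the
symplectic group permutes three orthogonal blocks, so it is not maximal. -/

set_option autoImplicit false
set_option linter.unusedSectionVars false

namespace CfsgLib.OrthGeo

open Cfsg.Geo Module
open scoped Matrix MatrixGroups Kronecker

variable {ι : Type} [Fintype ι] [DecidableEq ι] {F : Type*} [Field F]

/-- the symplectic transvection at a vector -/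
noncomputable def altTransv {f : (ι → F) → (ι → F) → F} (hf : IsBilinearForm f) (halt : ∀ v, f v v = 0)
    (a : ι → F) : GL ι F where
  val := LinearMap.toMatrix' (LinearMap.id + (bilinOf hf a).smulRight a)
  inv := LinearMap.toMatrix' (LinearMap.id - (bilinOf hf a).smulRight a)
  val_inv := by
    rw [← LinearMap.toMatrix'_comp, ← LinearMap.toMatrix'_id]
    refine congrArg LinearMap.toMatrix' (LinearMap.ext fun x => ?_)
    simp [bilinOf_apply, halt, map_sub]
  inv_val := by
    rw [← LinearMap.toMatrix'_comp, ← LinearMap.toMatrix'_id]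
    refine congrArg LinearMap.toMatrix' (LinearMap.ext fun x => ?_)
    simp [bilinOf_apply, halt, map_add]

lemma altTransv_mulVec {f : (ι → F) → (ι → F) → F} (hf : IsBilinearForm f) (halt : ∀ v, f v v = 0)
    (a x : ι → F) : (altTransv hf halt a : Matrix ι ι F) *ᵥ x = x + f a x • a := by
  simp [altTransv, ← Matrix.toLin'_apply, bilinOf_apply]

lemma altTransv_isometry {f : (ι → F) → (ι → F) → F} (hf : IsBilinearForm f) (halt : ∀ v, f v v = 0)
    (a x y : ι → F) :
    f ((altTransv hf halt a : Matrix ι ι F) *ᵥ x) ((altTransv hf halt a : Matrix ι ι F) *ᵥ y) = f x y := by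
  have h := halt (x + a)
  rw [hf.add_left, hf.add_right, hf.add_right, halt, halt] at h
  rw [altTransv_mulVec, altTransv_mulVec]
  simp only [hf.add_left, hf.add_right, hf.smul_left, hf.smul_right, halt]
  linear_combination (f a y) * h

theorem tensor_three_symplectic_not_maximal [Fintype F] (hq : Fintype.card F = 3)
    {f : (ι → F) → (ι → F) → F} (hf : IsBilinearForm f) (halt : ∀ v, f v v = 0)
    (G : Subgroup (GL ι F))
    (hG : ∀ g : GL ι F, g ∈ G ↔ ∀ x y, f ((g : Matrix ι ι F) *ᵥ x) ((g : Matrix ι ι F) *ᵥ y) = f x y)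
    {n₁ : ℕ} (h1 : 2 ≤ n₁) (e : ι ≃ Fin n₁ × Fin 3) (P : GL ι F)
    (f₁ : (Fin n₁ → F) → (Fin n₁ → F) → F) (f₂ : (Fin 3 → F) → (Fin 3 → F) → F)
    (hf₁ : IsSymplecticForm f₁) (hf₂ : IsSymmetricForm f₂)
    (hT : IsTensorFormStructure id f f₁ f₂ e P) :
    ∃ K : Subgroup (GL ι F), tensorProductSubgroup n₁ 3 e P ⊓ G < K ∧ K < G := by
  classical
  obtain ⟨c, hc, hcT⟩ := hT
  obtain ⟨ε, v, hε, hv⟩ := exists_equal_orthogonal hq hf₂
  let ten : (Fin n₁ → F) → (Fin 3 → F) → (ι → F) := fun x y => (P : Matrix ι ι F) *ᵥ (pureTen x y ∘ e)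
  have hten : ∀ x y x' y', f (ten x y) (ten x' y') = c * (f₁ x x' * f₂ y y') := fun x y x' y' =>
    (hcT _ _).trans (by rw [formOfGram_pureTen hf₁.bilinear hf₂.bilinear])
  have hteninj : ∀ x y x' y', ten x y = ten x' y' → ∀ i k, x i * y k = x' i * y' k := by
    intro x y x' y' h i k
    have h' := congrArg (fun z => ((P⁻¹ : GL ι F) : Matrix ι ι F) *ᵥ z) h
    simp only [ten, inv_mulVec_cancel] at h'
    have := congrFun h' (e.symm (i, k))
    simpa [pureTen] using this
  let T : Fin 3 → (Fin n₁ → F) →ₗ[F] (ι → F) := fun i =>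
    { toFun := fun x => ten x (v i)
      map_add' := fun y y' => by
        show (P : Matrix ι ι F) *ᵥ _ = _
        rw [← Matrix.mulVec_add]; congr 1; funext p; simp [pureTen, add_mul]
      map_smul' := fun t y => by
        show (P : Matrix ι ι F) *ᵥ _ = _
        rw [RingHom.id_apply, ← Matrix.mulVec_smul]; congr 1; funext p; simp [pureTen]; ring }
  have hTT : ∀ i j y y', f (T i y) (T j y') = if i = j then c * ε * f₁ y y' else 0 := fun i j y y' => by
    show f (ten y (v i)) (ten y' (v j)) = _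
    rw [hten, hv]; split_ifs <;> ring
  let D : Fin 3 → Submodule F (ι → F) := fun i => LinearMap.range (T i)
  set K : Subgroup (GL ι F) := decompositionStabilizer D ⊓ G
  have hgt : ∀ (g : GL ι F) (A : GL (Fin n₁) F) (B : GL (Fin 3) F),
      (g : Matrix ι ι F) = CfsgLib.Aschbacher.tconj e P ((A : Matrix _ _ F) ⊗ₖ (B : Matrix _ _ F)) →
      ∀ x y, (g : Matrix ι ι F) *ᵥ ten x y = ten ((A : Matrix _ _ F) *ᵥ x) ((B : Matrix _ _ F) *ᵥ y) := by
    intro g A B hAB x y
    rw [hAB, CfsgLib.Aschbacher.tconj_apply]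
    simp only [ten]
    rw [← Matrix.mulVec_mulVec, inv_mulVec_cancel, ← Matrix.mulVec_mulVec, ← kronecker_mulVec_pureTen]
    congr 1
    rw [Matrix.submatrix_mulVec_equiv, Function.comp_assoc, Equiv.self_comp_symm, Function.comp_id]
  obtain ⟨u, hu⟩ : ∃ u : Fin n₁ → F, u ≠ 0 := ⟨Pi.single ⟨0, by omega⟩ 1, by simp⟩
  obtain ⟨w, hw⟩ := (hf₁.nondegenerate u hu).2
  have hle : tensorProductSubgroup n₁ 3 e P ⊓ G ≤ K := by
    rintro g ⟨hg, hgG⟩
    refine ⟨?_, hgG⟩
    obtain ⟨A, B, hAB⟩ := (CfsgLib.Aschbacher.mem_tensorProductSubgroup_iff e P g).1 hg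
    set t := f₁ ((A : Matrix _ _ F) *ᵥ u) ((A : Matrix _ _ F) *ᵥ w)
    have hiso : ∀ y y', t * f₂ ((B : Matrix _ _ F) *ᵥ y) ((B : Matrix _ _ F) *ᵥ y') = f₁ u w * f₂ y y' := by
      intro y y'
      have h := (hG g).1 hgG (ten u y) (ten w y')
      rw [hgt g A B hAB, hgt g A B hAB, hten, hten] at h
      exact mul_left_cancel₀ hc h
    have ht0 : t ≠ 0 := by
      intro h0
      have h := hiso (v 0) (v 0)
      rw [h0, zero_mul, hv, if_pos rfl] at h
      exact mul_ne_zero hw hε h.symm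
    obtain ⟨σ, hσ⟩ := similarity_monomial hq hf₂.bilinear hε v hv (μ := t⁻¹ * f₁ u w)
      (mul_ne_zero (inv_ne_zero ht0) hw) (fun i => (B : Matrix _ _ F) *ᵥ v i) (fun i j => by
        rw [mul_assoc, ← hiso, ← mul_assoc, inv_mul_cancel₀ ht0, one_mul])
    refine ⟨σ, fun i => ?_⟩
    obtain ⟨s, hs, hsa⟩ := hσ i
    have hgT : ∀ y, (g : Matrix ι ι F) *ᵥ T i y = T (σ i) (s • ((A : Matrix _ _ F) *ᵥ y)) := by
      intro y
      show (g : Matrix ι ι F) *ᵥ ten y (v i) = ten _ (v (σ i))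
      rw [hgt g A B hAB, hsa]
      simp only [ten]
      congr 1
      funext p; simp [pureTen]; ring
    apply le_antisymm
    · rintro _ ⟨_, ⟨y, rfl⟩, rfl⟩
      exact ⟨_, (hgT y).symm⟩
    · rintro _ ⟨y, rfl⟩
      refine ⟨T i (((A⁻¹ : GL (Fin n₁) F) : Matrix _ _ F) *ᵥ (s⁻¹ • y)), ⟨_, rfl⟩, ?_⟩
      rw [Matrix.toLin'_apply, hgT, mulVec_inv_cancel, smul_smul, mul_inv_cancel₀ hs, one_smul]
  have hmemG : ∀ a, altTransv hf halt a ∈ G := fun a => (hG _).2 (altTransv_isometry hf halt a)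
  have hk : c * ε * f₁ u w ≠ 0 := mul_ne_zero (mul_ne_zero hc hε) hw
  refine ⟨K, lt_of_le_not_ge hle ?_, lt_of_le_not_ge inf_le_right ?_⟩
  · -- a transvection inside the first block
    intro hge
    set g := altTransv hf halt (T 0 u)
    have hgv : ∀ i y, (g : Matrix ι ι F) *ᵥ T i y = T i (y + (if 0 = i then c * ε * f₁ u y else 0) • u) := by
      intro i y
      rw [altTransv_mulVec, hTT, map_add, map_smul]
      split_ifs with h
      · subst h; rfl
      · simp
    have hgK : g ∈ K := by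
      refine ⟨⟨1, fun i => ?_⟩, hmemG _⟩
      have hinj : Function.Injective (Matrix.toLin' (g : Matrix ι ι F)) := fun p q hpq => by
        have := congrArg (fun r => ((g⁻¹ : GL ι F) : Matrix ι ι F) *ᵥ r) hpq
        simpa [Matrix.toLin'_apply, inv_mulVec_cancel] using this
      refine Submodule.eq_of_le_of_finrank_le ?_ (Submodule.equivMapOfInjective _ hinj (D i)).finrank_eq.le
      rintro _ ⟨_, ⟨y, rfl⟩, rfl⟩
      exact ⟨_, (hgv i y).symm⟩
    obtain ⟨A, B, hAB⟩ := (CfsgLib.Aschbacher.mem_tensorProductSubgroup_iff e P g).1 (hge hgK).1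
    have g2 : ∀ y, (g : Matrix ι ι F) *ᵥ T 1 y = T 1 y := fun y => by simp [hgv]
    have g10 : (g : Matrix ι ι F) *ᵥ T 0 u = T 0 u := by simp [hgv, hf₁.alternating]
    have g1 : (g : Matrix ι ι F) *ᵥ T 0 w ≠ T 0 w := by
      rw [hgv, map_add, Ne, add_eq_left, if_pos rfl, map_smul, smul_eq_zero]
      rintro (h | h)
      · exact hk h
      · have h' := congrArg (fun r => f r (T 0 w)) h
        simp only [hTT, if_pos rfl] at h'
        rw [show f 0 (T 0 w) = 0 by rw [← bilinOf_apply hf, map_zero, LinearMap.zero_apply]] at h'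
        exact hk h'
    obtain ⟨i, hi⟩ : ∃ i, v 1 i ≠ 0 := Function.ne_iff.1 (v.ne_zero 1)
    have hpure : ∀ y j, ((A : Matrix _ _ F) *ᵥ y) j * ((B : Matrix _ _ F) *ᵥ v 1) i = y j * v 1 i :=
      fun y j => hteninj _ _ _ _ ((hgt g A B hAB y (v 1)).symm.trans (g2 y)) j i
    set α := ((B : Matrix _ _ F) *ᵥ v 1) i
    obtain ⟨j, hj⟩ := Function.ne_iff.1 hu
    have hα : α ≠ 0 := fun h0 => by
      have := hpure u j
      rw [h0, mul_zero] at this
      exact mul_ne_zero hj hi this.symm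
    have hA : ∀ y, (A : Matrix _ _ F) *ᵥ y = (v 1 i * α⁻¹) • y := fun y => by
      funext j
      rw [Pi.smul_apply, smul_eq_mul, mul_comm (v 1 i * α⁻¹), ← mul_assoc, ← hpure, mul_assoc,
        mul_inv_cancel₀ hα, mul_one]
    apply g1
    have h0 := hteninj _ _ _ _ ((hgt g A B hAB u (v 0)).symm.trans g10)
    show (g : Matrix ι ι F) *ᵥ ten w (v 0) = ten w (v 0)
    rw [hgt g A B hAB]
    simp only [ten]
    congr 2
    funext p
    have h0p := h0 j p.2
    rw [hA] at h0p ⊢
    simp only [pureTen, Pi.smul_apply, smul_eq_mul] at h0p ⊢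
    have : (v 1 i * α⁻¹) * ((B : Matrix _ _ F) *ᵥ v 0) p.2 = v 0 p.2 :=
      mul_left_cancel₀ hj (by linear_combination h0p)
    linear_combination w p.1 * this
  · -- a transvection mixing two blocks
    intro hge
    set g := altTransv hf halt (T 0 u + T 1 u)
    have hgv : ∀ y, (g : Matrix ι ι F) *ᵥ T 0 y = T 0 y + (c * ε * f₁ u y) • (T 0 u + T 1 u) := by
      intro y
      rw [altTransv_mulVec, hf.add_left, hTT, hTT, if_pos rfl, if_neg (by decide), add_zero]
    obtain ⟨σ, hσ⟩ := (hge (hmemG (T 0 u + T 1 u))).1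
    have hmem : ∀ y, (g : Matrix ι ι F) *ᵥ T 0 y ∈ D (σ 0) := fun y => by
      rw [← hσ 0]; exact ⟨T 0 y, ⟨y, rfl⟩, rfl⟩
    have hσ0 : σ 0 = 0 := by
      by_contra hne
      obtain ⟨y, hy⟩ := hmem u
      rw [hgv, hf₁.alternating, mul_zero, zero_smul, add_zero] at hy
      have h := congrArg (fun r => f r (T 0 w)) hy
      simp only [hTT, if_neg hne, if_pos rfl] at h
      exact hk h.symm
    obtain ⟨y, hy⟩ := hmem w
    rw [hσ0, hgv] at hy
    have h := congrArg (fun r => f r (T 1 w)) hy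
    simp only [hf.add_left, hf.smul_left, hTT] at h
    simp at h
    simp [hc, hε, hw] at h

end CfsgLib.OrthGeo
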