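import Cfsg.Agent.OrthGeo.SingularSmall
import Cfsg.Agent.OrthGeo.SingularTranslate

/-! The normaliser in Omega of a quadratic extension field acting by similarities (unitary overfield) is
maximal in Omega. -/

set_option autoImplicit false
set_option linter.unusedSectionVars false

namespace CfsgLib.OrthGeo

open Cfsg.Geo Module
open scoped Matrix MatrixGroups

variable {ι : Type} [Fintype ι] [DecidableEq ι] {F : Type*} [Field F]
variable {Q : (ι → F) → F} {hQ : IsNondegenerateQuadraticForm Q}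

/-- A generator of a quadratic extension of `F` inside the matrices, adjoint to its conjugate. -/
structure KStr (hQ : IsNondegenerateQuadraticForm Q) (J : Matrix ι ι F) (α β : F) : Prop where
  sq : ∀ v, J *ᵥ (J *ᵥ v) = α • (J *ᵥ v) + β • v
  irr : ∀ t : F, t * t ≠ α * t + β
  adj : ∀ x y, bform hQ (J *ᵥ x) y = α * bform hQ x y - bform hQ x (J *ᵥ y)
  qJ : ∀ x, Q (J *ᵥ x) = -β * Q x
  bJ : ∀ x, bform hQ x (J *ᵥ x) = α * Q x

/-- The `K`-line of a vector. -/
def kline (J : Matrix ι ι F) (v : ι → F) : Submodule F (ι → F) :=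
  Submodule.span F {v} ⊔ Submodule.span F {J *ᵥ v}

variable {J : Matrix ι ι F} {α β : F}

lemma self_mem_kline (v : ι → F) : v ∈ kline J v := Submodule.mem_sup_left (Submodule.mem_span_singleton_self v)

lemma J_mem_kline (v : ι → F) : J *ᵥ v ∈ kline J v := Submodule.mem_sup_right (Submodule.mem_span_singleton_self _)

lemma kline_le_iff {v : ι → F} {S : Submodule F (ι → F)} : kline J v ≤ S ↔ v ∈ S ∧ J *ᵥ v ∈ S := by
  simp [kline, Submodule.span_singleton_le_iff_mem]

lemma mem_kline {v x : ι → F} : x ∈ kline J v ↔ ∃ r s : F, r • v + s • (J *ᵥ v) = x := by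
  simp only [kline, Submodule.mem_sup, Submodule.mem_span_singleton]
  constructor
  · rintro ⟨_, ⟨r, rfl⟩, _, ⟨s, rfl⟩, e⟩; exact ⟨r, s, e⟩
  · rintro ⟨r, s, e⟩; exact ⟨_, ⟨r, rfl⟩, _, ⟨s, rfl⟩, e⟩

variable (hK : KStr hQ J α β)
include hK

lemma KStr.beta_ne : β ≠ 0 := fun h => hK.irr 0 (by rw [h]; ring)

lemma KStr.J_stable {v x : ι → F} (hx : x ∈ kline J v) : J *ᵥ x ∈ kline J v := by
  obtain ⟨r, s, rfl⟩ := mem_kline.1 hx
  refine mem_kline.2 ⟨s * β, r + s * α, ?_⟩
  rw [Matrix.mulVec_add, Matrix.mulVec_smul, Matrix.mulVec_smul, hK.sq]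
  module

lemma KStr.indep {v : ι → F} (hv : v ≠ 0) {r s : F} (h : r • v + s • (J *ᵥ v) = 0) : r = 0 ∧ s = 0 := by
  by_cases hs : s = 0
  · rw [hs, zero_smul, add_zero, smul_eq_zero] at h
    exact ⟨h.resolve_right hv, hs⟩
  exfalso
  have hJ : J *ᵥ v = (-(r / s)) • v := by
    have h1 := congrArg (fun z => s⁻¹ • z) h
    simp only [smul_add, smul_smul, inv_mul_cancel₀ hs, one_smul, smul_zero] at h1
    rw [eq_neg_of_add_eq_zero_right h1, neg_smul, div_eq_inv_mul]
  have h2 := hK.sq v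
  rw [hJ, Matrix.mulVec_smul, hJ, smul_smul, smul_smul, ← add_smul] at h2
  exact hK.irr _ (smul_left_injective F hv h2)

lemma KStr.mem_of_J_eq {v y : ι → F} {t : F} {z : ι → F} (hz : z ∈ kline J v) (h : J *ᵥ y = z + t • y) :
    y ∈ kline J v := by
  have h2 := hK.sq y
  rw [h, Matrix.mulVec_add, Matrix.mulVec_smul, h] at h2
  have h3 : (t * t - α * t - β) • y = α • z - J *ᵥ z - t • z := by
    linear_combination (norm := module) h2
  refine (Submodule.smul_mem_iff _ (show t * t - α * t - β ≠ 0 from fun h0 => hK.irr t (by linear_combination h0))).1 ?_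
  rw [h3]
  exact Submodule.sub_mem _ (Submodule.sub_mem _ (Submodule.smul_mem _ _ hz) (hK.J_stable hz)) (Submodule.smul_mem _ _ hz)

lemma KStr.kline_symm {u v : ι → F} (hu : u ∉ kline J v) (hv : v ≠ 0) : v ∉ kline J u := by
  intro hm
  obtain ⟨r, s, e⟩ := mem_kline.1 hm
  by_cases hs : s = 0
  · rw [hs, zero_smul, add_zero] at e
    have hr : r ≠ 0 := by rintro rfl; exact hv (by rw [← e, zero_smul])
    exact hu ((Submodule.smul_mem_iff _ hr).1 (e.symm ▸ self_mem_kline v))
  · have hJu : J *ᵥ u = s⁻¹ • v + (-(s⁻¹ * r)) • u := by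
      rw [← e, smul_add, smul_smul, smul_smul, inv_mul_cancel₀ hs, one_smul]; module
    exact hu (hK.mem_of_J_eq (Submodule.smul_mem _ _ (self_mem_kline v)) hJu)

lemma KStr.b_J_left (x y : ι → F) (h : bform hQ x y = 0) : bform hQ (J *ᵥ x) y = - bform hQ x (J *ᵥ y) := by
  rw [hK.adj, h, mul_zero, zero_sub]

/-- Orthogonality over the extension field is symmetric. -/
lemma KStr.korth_symm {u v : ι → F} (h1 : bform hQ v u = 0) (h2 : bform hQ (J *ᵥ v) u = 0) :
    bform hQ u v = 0 ∧ bform hQ (J *ᵥ u) v = 0 := by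
  have h3 : bform hQ u v = 0 := by rw [b_symm hQ]; exact h1
  exact ⟨h3, by rw [hK.b_J_left u v h3, b_symm hQ, h2, neg_zero]⟩

lemma KStr.singular_J {v : ι → F} (hv : Q v = 0) : Q (J *ᵥ v) = 0 := by rw [hK.qJ, hv, mul_zero]

lemma KStr.b_self_J {v : ι → F} (hv : Q v = 0) : bform hQ v (J *ᵥ v) = 0 := by rw [hK.bJ, hv, mul_zero]

lemma KStr.finrank_kline_le (v : ι → F) : finrank F (kline J v) ≤ 2 := finrank_span_pair_le hQ _ _

/-- The root element of a singular `K`-line commutes with the field. -/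
lemma KStr.eichler_commute {v : ι → F} (hv : Q v = 0) (c : F) (h : bform hQ v (c • (J *ᵥ v)) = 0) :
    (eichler hQ hv h : Matrix ι ι F) * J = J * (eichler hQ hv h : Matrix ι ι F) := by
  refine Matrix.ext_of_mulVec_single fun i => ?_
  generalize (Pi.single i 1 : ι → F) = x
  rw [← Matrix.mulVec_mulVec, ← Matrix.mulVec_mulVec, eichler_mulVec hQ, eichler_mulVec hQ, q_smul hQ,
    hK.singular_J hv]
  have e1 : bform hQ (J *ᵥ v) (J *ᵥ x) = -β * bform hQ v x := by
    rw [hK.adj, hK.sq, map_add, map_smul, map_smul, smul_eq_mul, smul_eq_mul]; ring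
  have e2 : bform hQ v (J *ᵥ x) = α * bform hQ v x - bform hQ (J *ᵥ v) x := by rw [hK.adj]; ring
  simp only [map_smul, LinearMap.smul_apply, smul_eq_mul, e1, e2, Matrix.mulVec_sub, Matrix.mulVec_add,
    Matrix.mulVec_smul, hK.sq]
  module

variable [Finite F]
variable {H : Subgroup (GL ι F)} (hn : 10 ≤ Fintype.card ι) (hH : H ≤ Cfsg.isometryGroup F Q)
variable (hline : ∀ v, Q v = 0 → ∀ c : F, EIn Q H v (c • (J *ᵥ v)))
include hn hH hline

/-- A root element outside the singular `K`-lines gives one for two independent orthogonal `K`-lines. -/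
lemma root_korth_of_root {a b : ι → F} (ha : Q a = 0) (hab : bform hQ a b = 0)
    (hb : b ∉ kline J a) (h : EIn Q H a b) :
    ∃ u, Q u = 0 ∧ bform hQ a u = 0 ∧ bform hQ (J *ᵥ a) u = 0 ∧ u ∉ kline J a ∧ ∀ c : F, EIn Q H a (c • u) := by
  set P := kline J a ⊔ Submodule.span F {b} with hP
  have hP3 : finrank F P ≤ 3 := by
    have h1 := Submodule.finrank_add_le_finrank_add_finrank (kline J a) (Submodule.span F {b})
    have h2 : finrank F (Submodule.span F ({b} : Set (ι → F))) ≤ 1 := (finrank_span_le_card _).trans (by simp)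
    have := hK.finrank_kline_le a
    rw [← hP] at h1
    omega
  have hJb : J *ᵥ b ∉ P := by
    intro hm
    obtain ⟨z, hz, w, hw, e⟩ := Submodule.mem_sup.1 hm
    obtain ⟨t, rfl⟩ := Submodule.mem_span_singleton.1 hw
    exact hb (hK.mem_of_J_eq hz e.symm)
  obtain ⟨u0, hu0P, hu0Q, hu0b⟩ := exists_singular_b_one_four hQ P hJb (by omega)
  obtain ⟨e, heP, heQ, heN⟩ : ∃ e ∈ perp hQ (P ⊔ Submodule.span F {J *ᵥ b}), Q e = 0 ∧ e ∉ kline J a := by
    have h1 := Submodule.finrank_add_le_finrank_add_finrank P (Submodule.span F {J *ᵥ b})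
    have h2 : finrank F (Submodule.span F ({J *ᵥ b} : Set (ι → F))) ≤ 1 := (finrank_span_le_card _).trans (by simp)
    have h3 := Submodule.finrank_mono (inf_le_left :
      (P ⊔ Submodule.span F {J *ᵥ b}) ⊓ perp hQ (P ⊔ Submodule.span F {J *ᵥ b}) ≤ P ⊔ Submodule.span F {J *ᵥ b})
    have := hK.finrank_kline_le a
    exact exists_singular_perp_outside hQ _ _ (by omega) (le_sup_left.trans le_sup_left) (by omega)
  rw [perp_sup hQ, Submodule.mem_inf, mem_perp_span_singleton hQ] at heP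
  obtain ⟨u, huP, huQ, hub, huK⟩ : ∃ u ∈ perp hQ P, Q u = 0 ∧ bform hQ (J *ᵥ b) u = 1 ∧ u ∉ kline J a := by
    by_cases hu : u0 ∈ kline J a
    · refine ⟨u0 + e, Submodule.add_mem _ hu0P heP.1, ?_, by rw [map_add, hu0b, heP.2, add_zero],
        fun hm => heN ?_⟩
      · rw [q_add hQ, hu0Q, heQ, heP.1 u0 (Submodule.mem_sup_left hu)]; ring
      · have := Submodule.sub_mem _ hm hu
        rwa [add_sub_cancel_left] at this
    · exact ⟨u0, hu0P, hu0Q, hu0b, hu⟩
  have hau : bform hQ a u = 0 := huP a (Submodule.mem_sup_left (self_mem_kline a))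
  have hJau : bform hQ (J *ᵥ a) u = 0 := huP _ (Submodule.mem_sup_left (J_mem_kline a))
  refine ⟨u, huQ, hau, hJau, huK, fun c => ?_⟩
  obtain ⟨hua, hJua⟩ := hK.korth_symm hau hJau
  have hbu : bform hQ u b = 0 := by
    rw [b_symm hQ]; exact huP b (Submodule.mem_sup_right (Submodule.mem_span_singleton_self b))
  have hJub : bform hQ (J *ᵥ u) b = -1 := by
    rw [hK.b_J_left u b hbu, b_symm hQ, hub]
  have hu' : bform hQ u ((-c) • (J *ᵥ u)) = 0 := by rw [map_smul, hK.b_self_J huQ, smul_zero]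
  have hg := (hline u huQ (-c)).mem hQ huQ hu'
  set g := eichler hQ huQ hu' with hgdef
  have hga : (g : Matrix ι ι F) *ᵥ a = a := eichler_fix hQ huQ hu' hua (by
    rw [map_smul, LinearMap.smul_apply, hJua, smul_zero])
  have hgb : (g : Matrix ι ι F) *ᵥ b - b = c • u := by
    rw [hgdef, eichler_mulVec hQ, hbu, map_smul, LinearMap.smul_apply, hJub]
    simp
  have := h.displacement hQ ha hab hg (hH hg) hga
  rwa [hgb] at this

/-- One root element for two orthogonal `K`-lines gives all those of the first one. -/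
lemma root_korth_spread {a u : ι → F} (ha : Q a = 0) (hu : Q u = 0) (hau : bform hQ a u = 0)
    (hJau : bform hQ (J *ᵥ a) u = 0) (hind : u ∉ kline J a) (h : ∀ c : F, EIn Q H a (c • u)) :
    ∀ w ∈ perp hQ (kline J a), EIn Q H a w := by
  have hmem : ∀ {w}, w ∈ perp hQ (kline J a) → bform hQ a w = 0 ∧ bform hQ (J *ᵥ a) w = 0 := fun hw =>
    ⟨hw a (self_mem_kline a), hw _ (J_mem_kline a)⟩
  -- from one partner, all vectors perpendicular to it
  have part : ∀ u, Q u = 0 → bform hQ a u = 0 → bform hQ (J *ᵥ a) u = 0 → u ∉ kline J a →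
      (∀ c : F, EIn Q H a (c • u)) → ∀ w ∈ perp hQ (kline J a ⊔ Submodule.span F {u}), EIn Q H a w := by
    intro u hu hau hJau hind h
    set T := kline J a ⊔ Submodule.span F {u} with hT
    have hT3 : finrank F T ≤ 3 := by
      have h1 := Submodule.finrank_add_le_finrank_add_finrank (kline J a) (Submodule.span F {u})
      have h2 : finrank F (Submodule.span F ({u} : Set (ι → F))) ≤ 1 := (finrank_span_le_card _).trans (by simp)
      have := hK.finrank_kline_le a
      rw [← hT] at h1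
      omega
    have haw : ∀ {w}, w ∈ perp hQ T → bform hQ a w = 0 := fun hw => hw a (Submodule.mem_sup_left (self_mem_kline a))
    have hJuT : J *ᵥ u ∈ perp hQ T := by
      rw [hT, perp_sup hQ, Submodule.mem_inf, mem_perp_span_singleton hQ]
      refine ⟨fun z hz => ?_, hK.b_self_J hu⟩
      obtain ⟨r, l, rfl⟩ := mem_kline.1 hz
      obtain ⟨hua, hJua⟩ := hK.korth_symm hau hJau
      have hcc : bform hQ (J *ᵥ a) (J *ᵥ u) = 0 := by
        rw [hK.adj, hK.sq, map_add, map_smul, map_smul, hau, b_symm hQ a (J *ᵥ u), hJua]; simp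
      simp only [map_add, map_smul, LinearMap.add_apply, LinearMap.smul_apply, hcc,
        b_symm hQ a (J *ᵥ u), hJua, smul_zero, add_zero]
    have base : ∀ w ∈ perp hQ T, Q w = 0 → bform hQ (J *ᵥ u) w ≠ 0 → EIn Q H a w := by
      intro w hw hwQ hne
      have h1 : bform hQ w u = 0 := by
        rw [b_symm hQ]; exact hw u (Submodule.mem_sup_right (Submodule.mem_span_singleton_self u))
      have h2 : bform hQ (J *ᵥ w) u ≠ 0 := by rw [hK.b_J_left w u h1, b_symm hQ]; exact neg_ne_zero.2 hne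
      set c := (bform hQ (J *ᵥ w) u)⁻¹ with hc
      have hw' : bform hQ w (c • (J *ᵥ w)) = 0 := by rw [map_smul, hK.b_self_J hwQ, smul_zero]
      have hg := (hline w hwQ c).mem hQ hwQ hw'
      obtain ⟨hwa, hJwa⟩ := hK.korth_symm (haw hw) (hw _ (Submodule.mem_sup_left (J_mem_kline a)))
      have hga : (eichler hQ hwQ hw' : Matrix ι ι F) *ᵥ a = a := eichler_fix hQ hwQ hw' hwa (by
        rw [map_smul, LinearMap.smul_apply, hJwa, smul_zero])
      have hgu : (eichler hQ hwQ hw' : Matrix ι ι F) *ᵥ u - u = w := by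
        rw [eichler_mulVec hQ, h1, map_smul, LinearMap.smul_apply, smul_eq_mul, hc, inv_mul_cancel₀ h2]
        simp
      have hEu : EIn Q H a u := by simpa using h 1
      have := hEu.displacement hQ ha hau hg (hH hg) hga
      rwa [hgu] at this
    -- an outside singular vector pairing to zero with `J u`
    have base2 : ∀ s ∈ perp hQ T, Q s = 0 → bform hQ (J *ᵥ u) s = 0 → J *ᵥ u ∉ T ⊔ Submodule.span F {s} →
        EIn Q H a s := by
      intro s hs hsQ hsJ hJ
      obtain ⟨y₀, -, hy₀, hy₀1⟩ := exists_b_one_mem hQ (S := ⊤) (T := T ⊔ Submodule.span F {s}) (v := J *ᵥ u) (by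
        intro hm
        obtain ⟨t, ht, v, hv, e⟩ := Submodule.mem_sup.1 hm
        have hv0 : v = 0 := by
          by_contra h0
          obtain ⟨-, z, hz⟩ := hQ.nondegenerate v h0
          exact hz ((b_symm hQ v z).trans (hv z Submodule.mem_top))
        rw [hv0, add_zero] at e
        exact hJ (e ▸ ht))
      -- the span of `a`, `J a`, `u`, `s` and `J u` is totally singular
      have hJuQ : Q (J *ᵥ u) = 0 := hK.singular_J hu
      have hcP : J *ᵥ u ∈ perp hQ (T ⊔ Submodule.span F {s}) := by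
        rw [perp_sup hQ, Submodule.mem_inf, mem_perp_span_singleton hQ]
        exact ⟨hJuT, by rw [b_symm hQ]; exact hsJ⟩
      obtain ⟨y, hy, hyQ, hy1⟩ : ∃ y, y ∈ perp hQ (T ⊔ Submodule.span F {s}) ∧ Q y = 0 ∧
          bform hQ (J *ᵥ u) y = 1 := by
        refine ⟨y₀ - Q y₀ • (J *ᵥ u), Submodule.sub_mem _ hy₀ (Submodule.smul_mem _ _ hcP), ?_, ?_⟩
        · rw [q_sub hQ, q_smul hQ, hJuQ, map_smul, b_symm hQ y₀, hy₀1, smul_eq_mul]; ring
        · rw [map_sub, map_smul, b_self_eq_zero hQ hJuQ, smul_zero, sub_zero, hy₀1]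
      rw [perp_sup hQ, Submodule.mem_inf, mem_perp_span_singleton hQ] at hy
      have h1 := base (s + y) (Submodule.add_mem _ hs hy.1) (by rw [q_add hQ, hsQ, hyQ, hy.2]; ring)
        (by rw [map_add, hsJ, hy1, zero_add]; exact one_ne_zero)
      have h2 := base y hy.1 hyQ (by rw [hy1]; exact one_ne_zero)
      have := h1.sub hQ h2 ha (haw (Submodule.add_mem _ hs hy.1)) (haw hy.1)
      rwa [add_sub_cancel_right] at this
    intro w hw
    refine perp_induction hQ T (by omega) (fun w => EIn Q H a w)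
      (fun x hx y hy h1 h2 => h1.add hQ h2 ha (haw hx) (haw hy)) (fun s hs hsQ => ?_) hw
    by_cases hne : bform hQ (J *ᵥ u) s = 0
    swap
    · exact base s hs hsQ hne
    have hJT : J *ᵥ u ∉ T := by
      intro hm
      obtain ⟨z, hz, w', hw', e⟩ := Submodule.mem_sup.1 hm
      obtain ⟨t, rfl⟩ := Submodule.mem_span_singleton.1 hw'
      exact hind (hK.mem_of_J_eq hz e.symm)
    set T' := T ⊔ Submodule.span F {J *ᵥ u} with hT'
    have out : ∀ v, v ∉ T' → J *ᵥ u ∉ T ⊔ Submodule.span F {v} := by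
      intro v hv hm
      obtain ⟨z, hz, w', hw', e⟩ := Submodule.mem_sup.1 hm
      obtain ⟨k, rfl⟩ := Submodule.mem_span_singleton.1 hw'
      by_cases hk : k = 0
      · rw [hk, zero_smul, add_zero] at e
        exact hJT (e ▸ hz)
      · refine hv ((Submodule.smul_mem_iff _ hk).1 ?_)
        rw [eq_sub_of_add_eq' e]
        exact Submodule.sub_mem _ (Submodule.mem_sup_right (Submodule.mem_span_singleton_self _)) (Submodule.mem_sup_left hz)
    by_cases hsT : s ∈ T'
    swap
    · exact base2 s hs hsQ hne (out s hsT)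
    -- the vectors of `T'`
    have hzero : EIn Q H a 0 := ⟨1, H.one_mem, by rw [eichlerMat_zero hQ]; rfl⟩
    obtain ⟨z, hz, w₁, hw₁, rfl⟩ := Submodule.mem_sup.1 hsT
    obtain ⟨l, rfl⟩ := Submodule.mem_span_singleton.1 hw₁
    obtain ⟨z₀, hz₀, w₂, hw₂, rfl⟩ := Submodule.mem_sup.1 hz
    obtain ⟨μ, rfl⟩ := Submodule.mem_span_singleton.1 hw₂
    obtain ⟨r, k, rfl⟩ := mem_kline.1 hz₀
    have ba : bform hQ a (r • a) = 0 := by rw [map_smul, b_self_eq_zero hQ ha, smul_zero]
    have bJa : bform hQ a (k • (J *ᵥ a)) = 0 := by rw [map_smul, hK.b_self_J ha, smul_zero]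
    have bu : bform hQ a (μ • u) = 0 := by rw [map_smul, hau, smul_zero]
    have hself : EIn Q H a (r • a) := ⟨1, H.one_mem, Matrix.ext_of_mulVec_single fun i => by
      rw [eichlerMat_mulVec hQ, Units.val_one, Matrix.one_mulVec, q_smul hQ, ha, map_smul, LinearMap.smul_apply]
      simp only [smul_eq_mul, mul_zero, zero_mul, zero_smul, sub_zero]
      module⟩
    obtain ⟨y, hy, hyQ, hy1⟩ := exists_singular_b_one_four hQ T hJT (by omega)
    have hyS : ∀ n ∈ perp hQ (T' ⊔ Submodule.span F {y}),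
        n ∈ perp hQ T ∧ bform hQ (J *ᵥ u) n = 0 ∧ bform hQ y n = 0 := fun n hn' =>
      ⟨fun x hx => hn' x (Submodule.mem_sup_left (Submodule.mem_sup_left hx)),
        hn' _ (Submodule.mem_sup_left (Submodule.mem_sup_right (Submodule.mem_span_singleton_self _))),
        hn' _ (Submodule.mem_sup_right (Submodule.mem_span_singleton_self _))⟩
    obtain ⟨n₁, hn₁, n₂, hn₂, hb12⟩ : ∃ n₁ ∈ perp hQ (T' ⊔ Submodule.span F {y}),
        ∃ n₂ ∈ perp hQ (T' ⊔ Submodule.span F {y}), bform hQ n₁ n₂ ≠ 0 := by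
      by_contra hcon
      push Not at hcon
      have hle : perp hQ (T' ⊔ Submodule.span F {y}) ≤ T' ⊔ Submodule.span F {y} := fun x hx => by
        rw [← perp_perp hQ (T' ⊔ Submodule.span F {y})]
        exact fun v hv => hcon v hv x hx
      have h1 := finrank_perp_add hQ (T' ⊔ Submodule.span F {y})
      have h2 := Submodule.finrank_add_le_finrank_add_finrank T (Submodule.span F {J *ᵥ u})
      have h3 := Submodule.finrank_add_le_finrank_add_finrank T' (Submodule.span F {y})
      have h4 : finrank F (Submodule.span F ({J *ᵥ u} : Set (ι → F))) ≤ 1 := (finrank_span_le_card _).trans (by simp)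
      have h5 : finrank F (Submodule.span F ({y} : Set (ι → F))) ≤ 1 := (finrank_span_le_card _).trans (by simp)
      rw [← hT'] at h2
      have heq := Submodule.eq_of_le_of_finrank_le hle (by omega)
      have hJ : J *ᵥ u ∈ perp hQ (T' ⊔ Submodule.span F {y}) :=
        heq.symm ▸ Submodule.mem_sup_left (Submodule.mem_sup_right (Submodule.mem_span_singleton_self _))
      have h6 := (hyS _ hJ).2.2
      rw [b_symm hQ, hy1] at h6
      exact one_ne_zero h6
    have hX : ∀ n ∈ perp hQ (T' ⊔ Submodule.span F {y}),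
        y + n - Q n • (J *ᵥ u) ∈ perp hQ T ∧ EIn Q H a (y + n - Q n • (J *ᵥ u)) := fun n hn' => by
      obtain ⟨g1, g2, g3⟩ := hyS n hn'
      have hm := Submodule.sub_mem _ (Submodule.add_mem _ hy g1) (Submodule.smul_mem _ (Q n) hJuT)
      refine ⟨hm, base _ hm ?_ ?_⟩
      · rw [q_sub hQ, q_add hQ, q_smul hQ, hyQ, g3, hK.singular_J hu, map_smul, map_add, LinearMap.add_apply,
          b_symm hQ y (J *ᵥ u), hy1, b_symm hQ n (J *ᵥ u), g2, smul_eq_mul]
        ring
      · rw [map_sub, map_add, map_smul, hy1, g2, b_self_eq_zero hQ (hK.singular_J hu)]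
        simp
    set n₁' := (l * (bform hQ n₁ n₂)⁻¹) • n₁ with hn₁'
    have hn₁'S := Submodule.smul_mem _ (l * (bform hQ n₁ n₂)⁻¹) hn₁
    rw [← hn₁'] at hn₁'S
    obtain ⟨m1, e1⟩ := hX _ hn₁'S
    obtain ⟨m2, e2⟩ := hX _ hn₂
    obtain ⟨m3, e3⟩ := hX _ (Submodule.add_mem _ hn₁'S hn₂)
    have e0 := base y hy hyQ (by rw [hy1]; exact one_ne_zero)
    have h12 := ((e1.add hQ e2 ha (haw m1) (haw m2)).sub hQ e3 ha
      (haw (Submodule.add_mem _ m1 m2)) (haw m3)).sub hQ e0 ha
      (haw (Submodule.sub_mem _ (Submodule.add_mem _ m1 m2) m3)) (haw hy)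
    have hl : bform hQ n₁' n₂ = l := by
      rw [hn₁', map_smul, LinearMap.smul_apply, smul_eq_mul, mul_assoc, inv_mul_cancel₀ hb12, mul_one]
    rw [show y + n₁' - Q n₁' • (J *ᵥ u) + (y + n₂ - Q n₂ • (J *ᵥ u)) -
        (y + (n₁' + n₂) - Q (n₁' + n₂) • (J *ᵥ u)) - y = l • (J *ᵥ u) by rw [q_add hQ, hl]; module] at h12
    exact ((hself.add hQ (hline a ha k) ha ba bJa).add hQ (h μ) ha
      (by rw [map_add, ba, bJa, add_zero]) bu).add hQ h12 ha
      (by rw [map_add, map_add, ba, bJa, bu, add_zero, add_zero]) (haw (Submodule.smul_mem _ _ hJuT))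
  intro w hw
  set T := kline J a ⊔ Submodule.span F {u} with hT
  have hT3 : finrank F T ≤ 3 := by
    have h1 := Submodule.finrank_add_le_finrank_add_finrank (kline J a) (Submodule.span F {u})
    have h2 : finrank F (Submodule.span F ({u} : Set (ι → F))) ≤ 1 := (finrank_span_le_card _).trans (by simp)
    have := hK.finrank_kline_le a
    rw [← hT] at h1
    omega
  obtain ⟨p, hpT, hpQ, hp0, hpN⟩ := exists_singular_perp_avoid hQ T (by omega)
  have hap : bform hQ a p = 0 := hpT a (Submodule.mem_sup_left (self_mem_kline a))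
  have hJap : bform hQ (J *ᵥ a) p = 0 := hpT _ (Submodule.mem_sup_left (J_mem_kline a))
  have hpK : p ∉ kline J a := fun hm => hpN (Submodule.mem_sup_left hm)
  have hEp : ∀ c : F, EIn Q H a (c • p) := fun c => part u hu hau hJau hind h _ (Submodule.smul_mem _ _ hpT)
  obtain ⟨y, -, hyP, huy⟩ := exists_b_one_mem hQ (S := ⊤) (T := kline J a ⊔ Submodule.span F {p}) (v := u) (by
    intro hm
    obtain ⟨t, ht, v, hv, e⟩ := Submodule.mem_sup.1 hm
    have hv0 : v = 0 := by
      by_contra h0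
      obtain ⟨-, z, hz⟩ := hQ.nondegenerate v h0
      exact hz ((b_symm hQ v z).trans (hv z Submodule.mem_top))
    rw [hv0, add_zero] at e
    subst e
    obtain ⟨z, hz, w', hw', e⟩ := Submodule.mem_sup.1 ht
    obtain ⟨k, rfl⟩ := Submodule.mem_span_singleton.1 hw'
    by_cases hk : k = 0
    · rw [hk, zero_smul, add_zero] at e
      exact hind (e ▸ hz)
    · refine hpN ((Submodule.smul_mem_iff _ hk).1 ?_)
      rw [eq_sub_of_add_eq' e]
      exact Submodule.sub_mem _ (Submodule.mem_sup_right (Submodule.mem_span_singleton_self _)) (Submodule.mem_sup_left hz))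
  have hay : bform hQ a y = 0 := hyP a (Submodule.mem_sup_left (self_mem_kline a))
  have hyK : y ∈ perp hQ (kline J a) := fun z hz => hyP z (Submodule.mem_sup_left hz)
  have h1 : EIn Q H a (bform hQ u w • y) :=
    part p hpQ hap hJap hpK hEp _ (Submodule.smul_mem _ _ hyP)
  have h2 : EIn Q H a (w - bform hQ u w • y) := by
    refine part u hu hau hJau hind h _ ?_
    rw [perp_sup hQ, Submodule.mem_inf, mem_perp_span_singleton hQ]
    exact ⟨Submodule.sub_mem _ hw (Submodule.smul_mem _ _ hyK), by rw [map_sub, map_smul, huy, smul_eq_mul, mul_one, sub_self]⟩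
  have := h1.add hQ h2 ha (by rw [map_smul, hay, smul_zero]) (by rw [map_sub, map_smul, hay, (hmem hw).1, smul_zero, sub_zero])
  rwa [add_sub_cancel] at this

omit hn hH hline in
/-- A singular vector orthogonal to two singular `K`-lines and outside both. -/
lemma exists_singular_perp_klines (hn' : 10 ≤ Fintype.card ι) {v w : ι → F} (hv : Q v = 0) (hw : Q w = 0)
    (hv0 : v ≠ 0) (_hw0 : w ≠ 0) :
    ∃ f, f ∈ perp hQ (kline J v ⊔ kline J w) ∧ Q f = 0 ∧ f ≠ 0 ∧ f ∉ kline J v ∧ f ∉ kline J w := by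
  set P := kline J v ⊔ kline J w with hP
  have h1 : finrank F P ≤ finrank F (kline J v) + finrank F (kline J w) :=
    Submodule.finrank_add_le_finrank_add_finrank (kline J v) (kline J w)
  have := hK.finrank_kline_le v
  have := hK.finrank_kline_le w
  by_cases hsmall : finrank F ↥(P ⊓ perp hQ P) + 3 + finrank F P ≤ Fintype.card ι
  · obtain ⟨f, h2, h3, h4, h5⟩ := exists_singular_perp_avoid_of_radical hQ P hsmall
    exact ⟨f, h2, h3, h4, fun h => h5 (Submodule.mem_sup_left h), fun h => h5 (Submodule.mem_sup_right h)⟩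
  · have h3 := Submodule.finrank_mono (inf_le_left : P ⊓ perp hQ P ≤ P)
    have hle : P ≤ perp hQ P := by
      rw [← inf_eq_left]
      exact Submodule.eq_of_le_of_finrank_le inf_le_left (by omega)
    have hind : w ∉ kline J v := fun h => by
      have hPv : P = kline J v := sup_eq_left.2 (kline_le_iff.2 ⟨h, hK.J_stable h⟩)
      rw [hPv] at hsmall h3
      omega
    have hvP : v ∈ P := Submodule.mem_sup_left (self_mem_kline v)
    have hwP : w ∈ P := Submodule.mem_sup_right (self_mem_kline w)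
    refine ⟨v + w, Submodule.add_mem _ (hle hvP) (hle hwP), ?_, fun h => hind ?_, fun h => hind ?_, fun h => ?_⟩
    · rw [q_add hQ, hv, hw, hle hwP v hvP]; ring
    · rw [eq_neg_of_add_eq_zero_right h]; exact Submodule.neg_mem _ (self_mem_kline v)
    · simpa using Submodule.sub_mem _ h (self_mem_kline v)
    · exact hK.kline_symm hind hv0 (by simpa using Submodule.sub_mem _ h (self_mem_kline w))

/-- All root elements with second vector orthogonal over the field. -/
lemma root_korth_all {a u : ι → F} (ha : Q a = 0) (hu : Q u = 0) (hau : bform hQ a u = 0)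
    (hJau : bform hQ (J *ᵥ a) u = 0) (ha0 : a ≠ 0) (hind : u ∉ kline J a) (h : ∀ c : F, EIn Q H a (c • u)) :
    ∀ x, Q x = 0 → ∀ w ∈ perp hQ (kline J x), EIn Q H x w := by
  intro x hx w hw
  by_cases hx0 : x = 0
  · subst hx0
    refine ⟨1, H.one_mem, Matrix.ext_of_mulVec_single fun i => ?_⟩
    rw [eichlerMat_mulVec hQ, Units.val_one, Matrix.one_mulVec]
    simp [-bform_apply]
  obtain ⟨f, hfP, hfQ, hf0, hfN, hfN'⟩ := exists_singular_perp_klines hK hn ha hx ha0 hx0
  have step : ∀ a, Q a = 0 → (∀ w ∈ perp hQ (kline J a), EIn Q H a w) → ∀ f, Q f = 0 →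
      bform hQ a f = 0 → bform hQ (J *ᵥ a) f = 0 → f ∉ kline J a → a ≠ 0 →
      ∀ w ∈ perp hQ (kline J f), EIn Q H f w := by
    intro a ha hA f hf haf hJaf hfa ha0
    obtain ⟨hfa1, hfa2⟩ := hK.korth_symm haf hJaf
    refine root_korth_spread hK hn hH hline hf ha hfa1 hfa2 (hK.kline_symm hfa ha0) fun c => ?_
    by_cases hc : c = 0
    · subst hc
      refine ⟨1, H.one_mem, Matrix.ext_of_mulVec_single fun i => ?_⟩
      rw [eichlerMat_mulVec hQ, Units.val_one, Matrix.one_mulVec, zero_smul]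
      simp [q_zero hQ, -bform_apply]
    have h1 : EIn Q H a (c • f) := hA _ (Submodule.smul_mem _ _ fun z hz => by
      obtain ⟨r, l, rfl⟩ := mem_kline.1 hz
      simp only [map_add, map_smul, LinearMap.add_apply, LinearMap.smul_apply, haf, hJaf, smul_zero, add_zero])
    have hcf : Q (c • f) = 0 := by rw [q_smul hQ, hf, mul_zero]
    have h2 := h1.swap hQ ha hcf (by rw [map_smul, haf, smul_zero])
    have hfc : bform hQ f (c • a) = 0 := by rw [map_smul, hfa1, smul_zero]
    refine eIn_of_mem hQ hf hfc ?_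
    rw [← eichler_smul hQ c hcf (by rw [map_smul, LinearMap.smul_apply, hfa1, smul_zero]) hf hfc]
    exact h2.mem hQ hcf _
  have hA := root_korth_spread hK hn hH hline ha hu hau hJau hind h
  have haf : bform hQ a f = 0 := hfP a (Submodule.mem_sup_left (self_mem_kline a))
  have hJaf : bform hQ (J *ᵥ a) f = 0 := hfP _ (Submodule.mem_sup_left (J_mem_kline a))
  have hF := step a ha hA f hfQ haf hJaf hfN ha0
  obtain ⟨k1, k2⟩ := hK.korth_symm (hfP x (Submodule.mem_sup_right (self_mem_kline x)))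
    (hfP _ (Submodule.mem_sup_right (J_mem_kline x)))
  exact step f hfQ hF x hx k1 k2
    (hK.kline_symm hfN' hx0) hf0 w hw

/-- All root elements. -/
lemma root_all (hall : ∀ x, Q x = 0 → ∀ w ∈ perp hQ (kline J x), EIn Q H x w) {z w : ι → F} (hz : Q z = 0)
    (hw : bform hQ z w = 0) : EIn Q H z w := by
  by_cases hz0 : z = 0
  · subst hz0
    refine ⟨1, H.one_mem, Matrix.ext_of_mulVec_single fun i => ?_⟩
    rw [eichlerMat_mulVec hQ, Units.val_one, Matrix.one_mulVec]
    simp [-bform_apply]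
  set τ := bform hQ (J *ᵥ z) w with hτ
  obtain ⟨y, hyP, hyQ, hy0, hyN⟩ := exists_singular_perp_avoid hQ (kline J z)
    (by have := hK.finrank_kline_le z; omega)
  have hzy : bform hQ z y = 0 := hyP z (self_mem_kline z)
  have hJzy : bform hQ (J *ᵥ z) y = 0 := hyP _ (J_mem_kline z)
  obtain ⟨p, hpP, hpQ, hp⟩ := exists_singular_b_one hQ (Submodule.span F {z} ⊔ Submodule.span F {y}) (c := J *ᵥ z) (by
    intro hm
    obtain ⟨_, h1, _, h2, e⟩ := Submodule.mem_sup.1 hm
    obtain ⟨r, rfl⟩ := Submodule.mem_span_singleton.1 h1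
    obtain ⟨k, rfl⟩ := Submodule.mem_span_singleton.1 h2
    by_cases hk : k = 0
    · rw [hk, zero_smul, add_zero] at e
      exact one_ne_zero (hK.indep hz0 (r := -r) (s := 1) (by rw [one_smul, ← e]; module)).2
    · refine hyN ((Submodule.smul_mem_iff _ hk).1 ?_)
      rw [eq_sub_of_add_eq' e]
      exact Submodule.sub_mem _ (J_mem_kline z) (Submodule.smul_mem _ r (self_mem_kline z)))
    (by have := finrank_span_pair_le hQ z y; omega)
  obtain ⟨hzp, hyp⟩ := (mem_perp_pair hQ).1 hpP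
  have hJpz : bform hQ (J *ᵥ p) z = -1 := by
    rw [hK.b_J_left p z (by rw [b_symm hQ]; exact hzp), b_symm hQ p, hp]
  obtain ⟨q, hqP, hqQ, hq⟩ := exists_singular_b_one_four hQ (kline J p ⊔ Submodule.span F {z}) (c := y) (by
    intro hm
    obtain ⟨_, h1, _, h2, e⟩ := Submodule.mem_sup.1 hm
    obtain ⟨s, t, rfl⟩ := mem_kline.1 h1
    obtain ⟨r, rfl⟩ := Submodule.mem_span_singleton.1 h2
    have e1 := congrArg (fun v => bform hQ v z) e
    simp only [map_add, map_smul, LinearMap.add_apply, LinearMap.smul_apply, b_symm hQ p z, hzp, hJpz,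
      b_symm hQ y z, hzy, b_self_eq_zero hQ hz, smul_eq_mul, mul_zero, add_zero, zero_add, mul_neg, mul_one,
      neg_eq_zero] at e1
    have f1 : bform hQ p (J *ᵥ z) = 1 := by rw [b_symm hQ]; exact hp
    have f2 : bform hQ z (J *ᵥ z) = 0 := hK.b_self_J hz
    have e2 := congrArg (fun v => bform hQ v (J *ᵥ z)) e
    simp only [e1, zero_smul, add_zero, map_add, map_smul, LinearMap.add_apply, LinearMap.smul_apply, f1, f2,
      b_symm hQ y (J *ᵥ z), hJzy, smul_eq_mul, mul_zero, mul_one] at e2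
    rw [e1, e2, zero_smul, zero_smul, zero_add, zero_add] at e
    exact hyN (e ▸ Submodule.smul_mem _ r (self_mem_kline z)))
    (by
      have h1 := Submodule.finrank_add_le_finrank_add_finrank (kline J p) (Submodule.span F {z})
      have h2 : finrank F (Submodule.span F ({z} : Set (ι → F))) ≤ 1 := (finrank_span_le_card _).trans (by simp)
      have := hK.finrank_kline_le p
      omega)
  rw [perp_sup hQ, Submodule.mem_inf, mem_perp_span_singleton hQ] at hqP
  have hqz : bform hQ z q = 0 := hqP.2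
  have hpq : bform hQ p q = 0 := hqP.1 p (self_mem_kline p)
  have hpq' : bform hQ p (τ • q) = 0 := by rw [map_smul, hpq, smul_zero]
  have hg := (hall p hpQ _ (Submodule.smul_mem _ τ hqP.1)).mem hQ hpQ hpq'
  have hgz : (eichler hQ hpQ hpq' : Matrix ι ι F) *ᵥ z = z := eichler_fix hQ hpQ hpq' (by rw [b_symm hQ]; exact hzp)
    (by rw [map_smul, LinearMap.smul_apply, b_symm hQ, hqz, smul_zero])
  have hgy : (eichler hQ hpQ hpq' : Matrix ι ι F) *ᵥ y - y = τ • p := by
    rw [eichler_mulVec hQ, b_symm hQ p y, hyp, map_smul, LinearMap.smul_apply, b_symm hQ q y, hq]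
    simp
  have h1 := (hall z hz y hyP).displacement hQ hz hzy hg (hH hg) hgz
  rw [hgy] at h1
  have hzτ : bform hQ z (τ • p) = 0 := by rw [map_smul, hzp, smul_zero]
  have h2 : EIn Q H z (w - τ • p) := hall z hz _ fun v hv => by
    obtain ⟨r, s, rfl⟩ := mem_kline.1 hv
    simp only [map_add, map_sub, map_smul, LinearMap.add_apply, LinearMap.smul_apply, hw, hzp, hp, ← hτ, smul_eq_mul]
    ring
  have := h2.add hQ h1 hz (by rw [map_sub, hw, hzτ, sub_zero]) hzτ
  rwa [sub_add_cancel] at this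

omit hn hH hline in
/-- An isometry mapping singular `K`-lines to `K`-lines normalises the field. -/
lemma conj_J_mem (hn : 10 ≤ Fintype.card ι) {g : GL ι F} (hg : ∀ v, Q v = 0 → (g : Matrix ι ι F) *ᵥ (J *ᵥ v) ∈ kline J ((g : Matrix ι ι F) *ᵥ v)) :
    ∃ r s : F, s ≠ 0 ∧
      ((g⁻¹ : GL ι F) : Matrix ι ι F) * J * (g : Matrix ι ι F) = r • (1 : Matrix ι ι F) + s • J := by
  set J' := ((g⁻¹ : GL ι F) : Matrix ι ι F) * J * (g : Matrix ι ι F) with hJ'
  have hJ'v : ∀ v, J' *ᵥ v = ((g⁻¹ : GL ι F) : Matrix ι ι F) *ᵥ (J *ᵥ ((g : Matrix ι ι F) *ᵥ v)) := fun v => by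
    rw [hJ']; simp only [Matrix.mulVec_mulVec, mul_assoc]
  have hgz : ∀ v, (g : Matrix ι ι F) *ᵥ v = 0 → v = 0 := fun v h => by
    rw [← inv_mulVec_cancel g v, h, Matrix.mulVec_zero]
  have hloc : ∀ v, Q v = 0 → v ≠ 0 → ∃ p r : F, r ≠ 0 ∧ J' *ᵥ v = p • v + r • (J *ᵥ v) := by
    intro v hv hv0
    obtain ⟨a, b, e⟩ := mem_kline.1 (hg v hv)
    have hb : b ≠ 0 := by
      intro h0
      rw [h0, zero_smul, add_zero, ← Matrix.mulVec_smul] at e
      have h1 := hgz (a • v - J *ᵥ v) (by rw [Matrix.mulVec_sub, e, sub_self])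
      exact one_ne_zero (neg_eq_zero.1 (hK.indep hv0 (r := a) (s := -1) (by rw [neg_smul, one_smul, ← h1, sub_eq_add_neg])).2)
    refine ⟨-(b⁻¹ * a), b⁻¹, inv_ne_zero hb, ?_⟩
    have e2 : J *ᵥ ((g : Matrix ι ι F) *ᵥ v) = (g : Matrix ι ι F) *ᵥ (-(b⁻¹ * a) • v + b⁻¹ • (J *ᵥ v)) := by
      rw [Matrix.mulVec_add, Matrix.mulVec_smul, Matrix.mulVec_smul, ← e, smul_add, smul_smul, smul_smul,
        inv_mul_cancel₀ hb, one_smul]
      module
    rw [hJ'v, e2, inv_mulVec_cancel]
  have pair : ∀ u v, Q u = 0 → Q v = 0 → u ≠ 0 → v ∉ kline J u → bform hQ u v = 0 → ∀ p r p' r' : F,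
      J' *ᵥ u = p • u + r • (J *ᵥ u) → J' *ᵥ v = p' • v + r' • (J *ᵥ v) → p = p' ∧ r = r' := by
    intro u v hu hv hu0 hind huv p r p' r' e e'
    have hv0 : v ≠ 0 := fun h0 => hind (h0 ▸ zero_mem _)
    have hs : Q (u + v) = 0 := by rw [q_add hQ, hu, hv, huv]; ring
    have hs0 : u + v ≠ 0 := fun h0 => hind (by
      rw [eq_neg_of_add_eq_zero_right h0]; exact Submodule.neg_mem _ (self_mem_kline u))
    obtain ⟨a, b, -, e3⟩ := hloc (u + v) hs hs0
    rw [Matrix.mulVec_add, e, e', Matrix.mulVec_add] at e3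
    have h4 : (p - a) • u + (r - b) • (J *ᵥ u) = (a - p') • v + (b - r') • (J *ᵥ v) := by
      linear_combination (norm := module) e3
    have hm : (a - p') • v + (b - r') • (J *ᵥ v) ∈ kline J u := h4 ▸ mem_kline.2 ⟨_, _, rfl⟩
    have hb0 : b - r' = 0 := by
      by_contra hb
      refine hind (hK.mem_of_J_eq (t := -((b - r')⁻¹ * (a - p'))) (Submodule.smul_mem _ (b - r')⁻¹ hm) ?_)
      rw [smul_add, smul_smul, smul_smul, inv_mul_cancel₀ hb, one_smul]
      module
    rw [hb0, zero_smul, add_zero] at h4 hm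
    have ha0 : a - p' = 0 := by
      by_contra ha
      exact hind ((Submodule.smul_mem_iff _ ha).1 hm)
    rw [ha0, zero_smul] at h4
    obtain ⟨h5, h6⟩ := hK.indep hu0 h4
    exact ⟨by linear_combination h5 + ha0, by linear_combination h6 + hb0⟩
  obtain ⟨v₀, -, hv₀0, hv₀⟩ := exists_singular hQ (S := ⊤) (by rw [finrank_top, finrank_fintype_fun_eq_card]; omega)
  obtain ⟨p, r, hr, e₀⟩ := hloc v₀ hv₀ hv₀0
  refine ⟨p, r, hr, ?_⟩
  have hsing : ∀ v, Q v = 0 → J' *ᵥ v = p • v + r • (J *ᵥ v) := by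
    intro v hv
    by_cases hv0 : v = 0
    · subst hv0; simp
    obtain ⟨f, hfP, hfQ, hf0, hfN, hfN'⟩ := exists_singular_perp_klines hK hn hv₀ hv hv₀0 hv0
    obtain ⟨p', r', -, e'⟩ := hloc f hfQ hf0
    obtain ⟨p'', r'', -, e''⟩ := hloc v hv hv0
    obtain ⟨h1, h2⟩ := pair v₀ f hv₀ hfQ hv₀0 hfN
      (hfP v₀ (Submodule.mem_sup_left (self_mem_kline v₀))) _ _ _ _ e₀ e'
    obtain ⟨h3, h4⟩ := pair v f hv hfQ hv0 hfN'
      (hfP v (Submodule.mem_sup_right (self_mem_kline v))) _ _ _ _ e'' e'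
    rw [e'', h3, h4, ← h1, ← h2]
  refine Matrix.ext_of_mulVec_single fun i => ?_
  generalize (Pi.single i 1 : ι → F) = x
  rw [Matrix.add_mulVec, Matrix.smul_mulVec, Matrix.smul_mulVec, Matrix.one_mulVec]
  refine perp_induction hQ (⊥ : Submodule F (ι → F)) (by rw [finrank_bot]; omega)
    (fun x => J' *ᵥ x = p • x + r • (J *ᵥ x)) (fun u _ v _ h1 h2 => ?_) (fun s _ hs => hsing s hs)
    (fun z hz => by rw [(Submodule.mem_bot F).1 hz]; simp [-bform_apply])
  rw [Matrix.mulVec_add, h1, h2, Matrix.mulVec_add]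
  module

omit hH hline in
/-- The normaliser in Omega of the field generated by `J` is maximal. -/
theorem unitaryOverfield_isMaximal (P : Subgroup (GL ι F))
    (hP : ∀ g, g ∈ P ↔ g ∈ omegaGL Q ∧
      ∃ r s : F, s ≠ 0 ∧ ((g⁻¹ : GL ι F) : Matrix ι ι F) * J * (g : Matrix ι ι F) = r • (1 : Matrix ι ι F) + s • J) :
    IsMaximalIn (omegaGL Q) P := by
  have hn5 : 5 ≤ Fintype.card ι := by omega
  have hline : ∀ v, Q v = 0 → ∀ c : F, EIn Q P v (c • (J *ᵥ v)) := by
    intro v hv c
    have h : bform hQ v (c • (J *ᵥ v)) = 0 := by rw [map_smul, hK.b_self_J hv, smul_zero]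
    refine eIn_of_mem hQ hv h ((hP _).2 ⟨eichler_mem_omega hQ hn5 hv h, 0, 1, one_ne_zero, ?_⟩)
    rw [zero_smul, zero_add, one_smul, mul_assoc, ← hK.eichler_commute hv c h, ← mul_assoc, Units.inv_mul, one_mul]
  refine ⟨lt_of_le_not_ge (fun g hg => ((hP g).1 hg).1) fun hle => ?_, fun M hPM hMΩ => ?_⟩
  · obtain ⟨a, -, ha0, ha⟩ := exists_singular hQ (S := ⊤) (by rw [finrank_top, finrank_fintype_fun_eq_card]; omega)
    obtain ⟨u, huP, huQ, hu0, huN⟩ := exists_singular_perp_avoid hQ (kline J a)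
      (by have := hK.finrank_kline_le a; omega)
    have hau : bform hQ a u = 0 := huP a (self_mem_kline a)
    obtain ⟨y, -, hyP, huy⟩ := exists_b_one_mem hQ (S := ⊤) (T := Submodule.span F {a}) (v := u) (by
      intro hm
      obtain ⟨t, ht, v, hv, e⟩ := Submodule.mem_sup.1 hm
      have hv0 : v = 0 := by
        by_contra h0
        obtain ⟨-, z, hz⟩ := hQ.nondegenerate v h0
        exact hz ((b_symm hQ v z).trans (hv z Submodule.mem_top))
      rw [hv0, add_zero] at e
      exact huN ((Submodule.span_singleton_le_iff_mem _ _).2 (self_mem_kline a) (e ▸ ht)))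
    rw [mem_perp_span_singleton hQ] at hyP
    obtain ⟨-, r, s, -, hrs⟩ := (hP _).1 (hle (eichler_mem_omega hQ hn5 ha hau))
    set g := eichler hQ ha hau
    have hgJ : ∀ x, J *ᵥ ((g : Matrix ι ι F) *ᵥ x) = (g : Matrix ι ι F) *ᵥ (r • x + s • (J *ᵥ x)) := by
      intro x
      have h1 := congrArg (fun A => (g : Matrix ι ι F) * A) hrs
      simp only [← mul_assoc, Units.mul_inv, one_mul] at h1
      have h2 := congrArg (fun A => A *ᵥ x) h1
      simp only [← Matrix.mulVec_mulVec, Matrix.add_mulVec, Matrix.smul_mulVec, Matrix.one_mulVec] at h2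
      exact h2
    have hJa : (g : Matrix ι ι F) *ᵥ (J *ᵥ a) = J *ᵥ a := by
      have hJau : bform hQ u (J *ᵥ a) = 0 := by rw [b_symm hQ]; exact huP _ (J_mem_kline a)
      exact eichler_fix hQ ha hau (hK.b_self_J ha) hJau
    have h1 := hgJ a
    rw [eichler_fix_left hQ ha hau, Matrix.mulVec_add, Matrix.mulVec_smul, Matrix.mulVec_smul,
      eichler_fix_left hQ ha hau, hJa] at h1
    obtain ⟨hr, hs⟩ := hK.indep ha0 (r := -r) (s := 1 - s) (by linear_combination (norm := module) h1)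
    have h2 := hgJ y
    rw [show r = 0 from neg_eq_zero.1 hr, show s = 1 by linear_combination -hs, zero_smul, zero_add, one_smul,
      eichler_mulVec hQ, eichler_mulVec hQ, hyP, huy] at h2
    simp only [zero_smul, sub_zero, one_smul, mul_zero, Matrix.mulVec_add] at h2
    have h3 : J *ᵥ a = (bform hQ u (J *ᵥ y) - Q u * bform hQ a (J *ᵥ y)) • a - bform hQ a (J *ᵥ y) • u := by
      linear_combination (norm := module) h2
    by_cases hc : bform hQ a (J *ᵥ y) = 0
    · rw [hc, zero_smul, sub_zero] at h3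
      exact one_ne_zero (hK.indep ha0 (r := -(bform hQ u (J *ᵥ y) - Q u * 0)) (s := 1)
        (by rw [one_smul, h3]; module)).2
    · refine huN ((Submodule.smul_mem_iff _ hc).1 ?_)
      rw [show bform hQ a (J *ᵥ y) • u = (bform hQ u (J *ᵥ y) - Q u * bform hQ a (J *ᵥ y)) • a - J *ᵥ a by
        rw [h3]; abel]
      exact Submodule.sub_mem _ (Submodule.smul_mem _ _ (self_mem_kline a)) (J_mem_kline a)
  by_cases hMP : M ≤ P
  · exact Or.inl (le_antisymm hMP hPM)
  refine Or.inr (le_antisymm hMΩ ?_)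
  have hMI : M ≤ Cfsg.isometryGroup F Q := hMΩ.trans omegaGL_le
  have hlineM : ∀ v, Q v = 0 → ∀ c : F, EIn Q M v (c • (J *ᵥ v)) := fun v hv c => (hline v hv c).mono hPM
  obtain ⟨g, hgM, hgP⟩ := SetLike.not_le_iff_exists.1 hMP
  have hgI := hMI hgM
  obtain ⟨v, hv, hvn⟩ : ∃ v, Q v = 0 ∧ (g : Matrix ι ι F) *ᵥ (J *ᵥ v) ∉ kline J ((g : Matrix ι ι F) *ᵥ v) := by
    by_contra hc
    push Not at hc
    exact hgP ((hP g).2 ⟨hMΩ hgM, conj_J_mem hK (by omega) hc⟩)
  have ha : Q ((g : Matrix ι ι F) *ᵥ v) = 0 := by rw [mem_isometryGroup.1 hgI, hv]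
  have hJv : bform hQ v (J *ᵥ v) = 0 := hK.b_self_J hv
  have hE : EIn Q M v (J *ᵥ v) := by simpa using hlineM v hv 1
  obtain ⟨u, huQ, hau, hJau, huK, hEu⟩ := root_korth_of_root hK hn hMI hlineM ha
    (by rw [isometry_b hQ hgI, hJv]) hvn (hE.conj hQ hv hJv hgM hgI)
  have ha0 : (g : Matrix ι ι F) *ᵥ v ≠ 0 := by
    intro h0
    have hv0 : v = 0 := by rw [← inv_mulVec_cancel g v, h0, Matrix.mulVec_zero]
    exact hvn (by simp [hv0])
  have hall := root_korth_all hK hn hMI hlineM ha huQ hau hJau ha0 huK hEu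
  refine omega_le_of_root_vectors hQ hn5 hMI {z | Q z = 0}
    (fun z hz => ⟨hz, fun w hw => root_all hK hn hMI hlineM hall hz hw⟩) fun u hu hu0 => ?_
  obtain ⟨z, hz, huz⟩ := exists_partner hQ hu hu0
  exact ⟨z, hz, u, hu, by rw [b_symm hQ, huz]; exact one_ne_zero, by rw [b_symm hQ, huz]; exact one_ne_zero⟩

end CfsgLib.OrthGeo
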